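import Mathlib
import Cfsg.Prelude.Def_Sporadic_a
import Cfsg.Agent.Lib.Golay.M24

/-!
The lattice of `Def_Sporadic_a`: linear invariants, coordinate permutations and sign changes.
-/

set_option autoImplicit false

namespace Cfsg.Lib.Leech

open Cfsg

local notation "CC" => supports (golayCode : Set (GolayPt → ZMod 2))

theorem card_mod_four {c : Finset GolayPt} (hc : c ∈ CC) : c.card % 4 = 0 := by
  rcases Lib.Golay.weight_cases hc with h | h | h | h | h <;> omega

theorem inter_even {s t : Finset GolayPt} (hs : s ∈ CC) (ht : t ∈ CC) : (s ∩ t).card % 2 = 0 := by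
  have h := Lib.Golay.card_symmDiff_add s t
  have h1 := card_mod_four hs
  have h2 := card_mod_four ht
  have h3 := card_mod_four (Lib.Golay.symmDiff_mem_supports hs ht)
  omega

theorem sum_code_mod {c : Finset GolayPt} (hc : c ∈ CC) {x : GolayPt → ℤ} (hx : x ∈ leechSet) :
    (∑ i ∈ c, x i) % 4 = 0 := by
  obtain ⟨m, h1, -, h3⟩ := hx
  set S := Finset.univ.filter fun i => x i ≡ m + 2 [ZMOD 4] with hS
  have hev := inter_even hc (h3 (m + 2))
  have hmod : ∀ i, x i ≡ m + (if i ∈ S then 2 else 0) [ZMOD 4] := by
    intro i
    have hp := h1 i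
    by_cases hi : i ∈ S
    · rw [if_pos hi]; exact (Finset.mem_filter.1 hi).2
    · rw [if_neg hi]
      have hn : ¬ x i ≡ m + 2 [ZMOD 4] := fun h => hi (Finset.mem_filter.2 ⟨Finset.mem_univ i, h⟩)
      unfold Int.ModEq at *
      omega
  have h : ∀ d : Finset GolayPt,
      (∑ i ∈ d, x i) % 4 = (d.card * m + 2 * ((d ∩ S).card : ℤ)) % 4 := by
    intro d
    induction d using Finset.induction_on with
    | empty => simp
    | insert a d ha ih =>
      have hma := hmod a
      unfold Int.ModEq at hma
      rw [Finset.sum_insert ha, Finset.card_insert_of_notMem ha]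
      by_cases hs : a ∈ S
      · rw [if_pos hs] at hma
        rw [Finset.insert_inter_of_mem hs, Finset.card_insert_of_notMem (by simp [ha])]
        push_cast
        rw [add_mul, mul_add, one_mul]
        omega
      · rw [if_neg hs] at hma
        rw [Finset.insert_inter_of_notMem hs]
        push_cast
        rw [add_mul, one_mul]
        omega
  rw [h c]
  obtain ⟨k, hk⟩ : 4 ∣ c.card := Nat.dvd_of_mod_eq_zero (card_mod_four hc)
  rw [hk]
  push_cast
  have : (c ∩ S).card % 2 = 0 := hev
  rw [mul_assoc]
  omega

/-- Linear invariants of lattice vectors. -/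
theorem invariants {x : GolayPt → ℤ} (hx : x ∈ leechLattice) :
    (∀ c ∈ CC, (∑ i ∈ c, x i) % 4 = 0) ∧ (∑ i, x i) % 8 = (4 * x none) % 8 := by
  induction hx using AddSubgroup.closure_induction with
  | mem y hy =>
    refine ⟨fun c hc => sum_code_mod hc hy, ?_⟩
    obtain ⟨m, h1, h2, -⟩ := hy
    have := h1 none
    unfold Int.ModEq at this h2
    omega
  | zero => simp
  | add a b _ _ ha hb =>
    refine ⟨fun c hc => ?_, ?_⟩
    · simp only [Pi.add_apply, Finset.sum_add_distrib]
      have := ha.1 c hc; have := hb.1 c hc; omega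
    · simp only [Pi.add_apply, Finset.sum_add_distrib]
      have := ha.2; have := hb.2; omega
  | neg a _ ha =>
    refine ⟨fun c hc => ?_, ?_⟩
    · simp only [Pi.neg_apply, Finset.sum_neg_distrib]
      have := ha.1 c hc; omega
    · simp only [Pi.neg_apply, Finset.sum_neg_distrib]
      have := ha.2; omega

/-- The sign change on a set of coordinates. -/
def flipFun (c : Finset GolayPt) (x : GolayPt → ℤ) : GolayPt → ℤ := fun i => if i ∈ c then -x i else x i

theorem flipFun_flipFun (c : Finset GolayPt) (x : GolayPt → ℤ) : flipFun c (flipFun c x) = x := by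
  funext i; simp only [flipFun]; split <;> simp

theorem flip_mem_set {c : Finset GolayPt} (hc : c ∈ CC) {x : GolayPt → ℤ} (hx : x ∈ leechSet) :
    flipFun c x ∈ leechSet := by
  have hsum := sum_code_mod hc hx
  obtain ⟨m, h1, h2, h3⟩ := hx
  refine ⟨m, fun i => ?_, ?_, fun k => ?_⟩
  · have := h1 i
    simp only [flipFun]
    split <;> unfold Int.ModEq at * <;> omega
  · have e : ∑ i, flipFun c x i = ∑ i, x i - 2 * ∑ i ∈ c, x i := by
      have : ∀ i, flipFun c x i = x i - 2 * (if i ∈ c then x i else 0) := by
        intro i; simp only [flipFun]; split <;> ring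
      rw [Finset.sum_congr rfl (fun i _ => this i), Finset.sum_sub_distrib, ← Finset.mul_sum,
        Finset.sum_ite_mem, Finset.univ_inter]
    rw [e]
    unfold Int.ModEq at *
    omega
  · by_cases hpar : k % 2 = m % 2
    · by_cases hm : m % 2 = 0
      · convert h3 k using 1
        ext i
        have := h1 i
        rw [Finset.mem_filter, Finset.mem_filter]
        simp only [Finset.mem_univ, true_and, flipFun]
        unfold Int.ModEq at *
        split <;> omega
      · convert Lib.Golay.symmDiff_mem_supports (h3 k) hc using 1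
        ext i
        have := h1 i
        rw [Finset.mem_symmDiff, Finset.mem_filter, Finset.mem_filter]
        simp only [Finset.mem_univ, true_and, flipFun]
        unfold Int.ModEq at *
        by_cases hi : i ∈ c <;> simp only [hi, if_true, if_false, not_true, not_false_iff, and_false,
          false_or, or_false, and_true, true_and, false_and] <;> omega
    · convert empty_mem_supports using 1
      apply Finset.filter_false_of_mem
      intro i _ h
      have := h1 i
      simp only [flipFun] at h
      unfold Int.ModEq at *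
      split at h <;> omega
where
  empty_mem_supports : (∅ : Finset GolayPt) ∈ CC :=
    ⟨0, Submodule.zero_mem _, by ext i; simp [support₂]⟩

theorem flip_mem {c : Finset GolayPt} (hc : c ∈ CC) {x : GolayPt → ℤ} (hx : x ∈ leechLattice) :
    flipFun c x ∈ leechLattice := by
  induction hx using AddSubgroup.closure_induction with
  | mem y hy => exact AddSubgroup.subset_closure (flip_mem_set hc hy)
  | zero => convert leechLattice.zero_mem using 1; funext i; simp [flipFun]
  | add a b _ _ ha hb =>
    convert leechLattice.add_mem ha hb using 1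
    funext i; simp only [flipFun, Pi.add_apply]; split <;> ring
  | neg a _ ha =>
    convert leechLattice.neg_mem ha using 1
    funext i; simp only [flipFun, Pi.neg_apply]; split <;> ring

theorem perm_mem {σ : Equiv.Perm GolayPt} (hσ : σ ∈ M24) {x : GolayPt → ℤ} (hx : x ∈ leechLattice) :
    (fun i => x (σ i)) ∈ leechLattice := by
  induction hx using AddSubgroup.closure_induction with
  | mem y hy =>
    obtain ⟨m, h1, h2, h3⟩ := hy
    refine AddSubgroup.subset_closure ⟨m, fun i => h1 _, ?_, fun k => ?_⟩
    · rwa [Equiv.sum_comp σ y]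
    · have h := Lib.Golay.smul_mem_supports (Subgroup.inv_mem _ hσ) (h3 k)
      convert h using 1
      ext i
      simp only [Finset.mem_smul_finset, Equiv.Perm.smul_def, Finset.mem_filter, Finset.mem_univ, true_and]
      exact ⟨fun h => ⟨σ i, h, σ.symm_apply_apply i⟩, fun ⟨j, hj, hji⟩ => by
        rw [← hji, Equiv.Perm.coe_inv, Equiv.apply_symm_apply]; exact hj⟩
  | zero => exact leechLattice.zero_mem
  | add a b _ _ ha hb => exact leechLattice.add_mem ha hb
  | neg a _ ha => exact leechLattice.neg_mem ha

/-- A coordinate permutation from the code's group as an element of `Co0`. -/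
def permElt (σ : Equiv.Perm GolayPt) (hσ : σ ∈ M24) : Co0 :=
  ⟨{ toFun := fun x => ⟨fun i => (x : GolayPt → ℤ) (σ⁻¹ i), perm_mem (Subgroup.inv_mem _ hσ) x.2⟩
     invFun := fun x => ⟨fun i => (x : GolayPt → ℤ) (σ i), perm_mem hσ x.2⟩
     left_inv := fun x => Subtype.ext (funext fun i => by simp)
     right_inv := fun x => Subtype.ext (funext fun i => by simp) },
   fun v w => Subtype.ext (funext fun i => rfl),
   fun v => Equiv.sum_comp σ⁻¹ (fun i => (v : GolayPt → ℤ) i ^ 2)⟩

theorem permElt_apply (σ : Equiv.Perm GolayPt) (hσ : σ ∈ M24) (x : leechLattice) (i : GolayPt) :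
    ((permElt σ hσ • x : leechLattice) : GolayPt → ℤ) i = (x : GolayPt → ℤ) (σ⁻¹ i) := rfl

/-- A sign change on a code word as an element of `Co0`. -/
def flipElt (c : Finset GolayPt) (hc : c ∈ CC) : Co0 :=
  ⟨{ toFun := fun x => ⟨flipFun c x, flip_mem hc x.2⟩
     invFun := fun x => ⟨flipFun c x, flip_mem hc x.2⟩
     left_inv := fun x => Subtype.ext (flipFun_flipFun c x)
     right_inv := fun x => Subtype.ext (flipFun_flipFun c x) },
   fun v w => Subtype.ext (funext fun i => by
    show flipFun c ((v : GolayPt → ℤ) + w) i = flipFun c v i + flipFun c w i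
    simp only [flipFun, Pi.add_apply]; split <;> ring),
   fun v => Finset.sum_congr rfl fun i _ => by
    show flipFun c v i ^ 2 = _
    simp only [flipFun]; split <;> ring⟩

theorem flipElt_apply (c : Finset GolayPt) (hc : c ∈ CC) (x : leechLattice) (i : GolayPt) :
    ((flipElt c hc • x : leechLattice) : GolayPt → ℤ) i =
      if i ∈ c then -(x : GolayPt → ℤ) i else (x : GolayPt → ℤ) i := rfl

end Cfsg.Lib.Leech
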