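import Mathlib
import Cfsg.Prelude.Def_Sporadic_a
import Cfsg.Agent.Lib.Golay.Count
import Cfsg.Agent.Lib.Leech.Basic

/-!
Self-duality of the code, membership criterion for the lattice, minimum and evenness.
-/

set_option autoImplicit false
set_option linter.unusedSimpArgs false

namespace Cfsg.Lib.Leech

open Cfsg Cfsg.Lib.Golay

local notation "CC" => supports (golayCode : Set (GolayPt → ZMod 2))

theorem xor_red_mem : ∀ gs k n, n ^^^ red gs k n ∈ spanL gs := by
  intro gs
  induction gs with
  | nil => intro k n; simp [red, spanL]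
  | cons g gs ih =>
    intro k n
    simp only [red, spanL, List.mem_append, List.mem_map]
    split
    · refine Or.inr ⟨_, ih (k + 1) (n ^^^ g), ?_⟩
      rw [Nat.xor_assoc n g, Nat.xor_comm g, ← Nat.xor_assoc, Nat.xor_assoc, Nat.xor_self, Nat.xor_zero]
    · exact Or.inl (ih _ _)

theorem red_low : ∀ gs k n, (∀ i (hi : i < gs.length) j, j < gs.length →
    (gs[i]).testBit (k + j) = decide (i = j)) → ∀ j < gs.length, (red gs k n).testBit (k + j) = false := by
  intro gs
  induction gs with
  | nil => intro k n _ j hj; simp at hj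
  | cons g gs ih =>
    intro k n h
    have keep : ∀ gs' k' n', (∀ x ∈ gs', (x : ℕ).testBit k = false) → n'.testBit k = false →
        (red gs' k' n').testBit k = false := by
      intro gs'
      induction gs' with
      | nil => intro k' n' _ hn'; simpa [red] using hn'
      | cons a as iha =>
        intro k' n' hx hn'
        simp only [red]
        refine iha _ _ (fun x hx' => hx x (List.mem_cons_of_mem _ hx')) ?_
        split
        · rw [Nat.testBit_xor, hn', hx a List.mem_cons_self]; rfl
        · exact hn'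
    intro j hj
    simp only [red]
    cases j with
    | zero =>
      refine keep _ _ _ (fun x hx => ?_) ?_
      · obtain ⟨i, hi, rfl⟩ := List.mem_iff_getElem.1 hx
        have := h (i + 1) (by simpa using hi) 0 (by simp)
        simpa using this
      · have hg : g.testBit k = true := h 0 (Nat.succ_pos _) 0 (Nat.succ_pos _)
        split
        · rename_i hn; rw [Nat.testBit_xor, hn, hg]; rfl
        · rename_i hn; simpa using hn
    | succ j =>
      rw [show k + (j + 1) = k + 1 + j by omega]
      refine ih (k + 1) _ (fun i hi l hl => ?_) j (by simpa using hj)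
      have := h (i + 1) (by simpa using hi) (l + 1) (by simpa using hl)
      rw [show k + 1 + l = k + (l + 1) by omega]
      simpa using this

theorem codeGens_systematic : ∀ i : Fin 12, ∀ j : Fin 12,
    (codeGens.getD i.val 0).testBit j.val = decide (i.val = j.val) := by decide

set_option maxRecDepth 100000 in
theorem high_part_check : (List.range 4096).all (fun h =>
    h == 0 || codeGens.any (fun g => pop (g &&& (h <<< 12)) % 2 == 1)) = true := by decide +kernel

theorem codeGens_inCode : codeGens.all inCode = true := by decide +kernel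

/-- The code contains every set meeting all its words evenly. -/
theorem dual_mem {S : Finset GolayPt} (h : ∀ c ∈ CC, (c ∩ S).card % 2 = 0) : S ∈ CC := by
  rw [mem_supports_iff]
  set n := setNat S
  set r := red codeGens 0 n with hr
  have hw : inCode (n ^^^ r) = true := (inCode_iff _).2 (xor_red_mem _ _ _)
  have hn : n < 2 ^ 24 := setNat_lt S
  have hrlt : r < 2 ^ 24 := by
    have := Nat.xor_lt_two_pow hn (lt_of_inCode hw)
    rwa [← Nat.xor_assoc, Nat.xor_self, Nat.zero_xor] at this
  have hlow : ∀ j < 12, r.testBit j = false := by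
    intro j hj
    have h12 : codeGens.length = 12 := rfl
    have := red_low codeGens 0 n (fun i hi l hl => ?_) j (by rw [h12]; exact hj)
    · simpa using this
    · have := codeGens_systematic ⟨i, h12 ▸ hi⟩ ⟨l, h12 ▸ hl⟩
      simp only [List.getD_eq_getElem _ _ hi] at this
      simpa using this
  obtain ⟨q, hq, hqlt⟩ : ∃ q, r = q <<< 12 ∧ q < 4096 := by
    refine ⟨r >>> 12, ?_, ?_⟩
    · apply Nat.eq_of_testBit_eq
      intro i
      simp only [Nat.testBit_shiftLeft, Nat.testBit_shiftRight]
      by_cases hi : i < 12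
      · simp [hlow i hi, hi]
      · simp [show 12 + (i - 12) = i by omega, show 12 ≤ i by omega]
    · rw [Nat.shiftRight_eq_div_pow]; omega
  have hck := List.all_eq_true.1 high_part_check q (List.mem_range.2 hqlt)
  simp only [Bool.or_eq_true, beq_iff_eq, List.any_eq_true] at hck
  rcases hck with rfl | ⟨g, hg, hodd⟩
  · have : n ^^^ r = n := by rw [hq]; simp
    rwa [this] at hw
  · exfalso
    have hgc : toSet g ∈ CC := by
      have := List.all_eq_true.1 codeGens_inCode g hg
      rw [mem_supports_iff, setNat_toSet (lt_of_inCode this)]; exact this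
    have hWc : toSet (n ^^^ r) ∈ CC := by
      rw [mem_supports_iff, setNat_toSet (lt_of_inCode hw)]; exact hw
    have hR : toSet r = symmDiff S (toSet (n ^^^ r)) := by
      conv_rhs => rw [← toSet_setNat S, ← toSet_xor, ← Nat.xor_assoc, Nat.xor_self, Nat.zero_xor]
    have e : toSet g ∩ toSet r =
        symmDiff (toSet g ∩ S) (toSet g ∩ toSet (n ^^^ r)) := by
      rw [hR]
      ext p; simp only [Finset.mem_inter, Finset.mem_symmDiff]; tauto
    have hc := card_symmDiff_add (toSet g ∩ S) (toSet g ∩ toSet (n ^^^ r))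
    have h1 := h _ hgc
    have h2 := inter_even hgc hWc
    rw [← e, card_inter_toSet] at hc
    rw [← hq] at hodd
    omega

theorem univ_mem : (Finset.univ : Finset GolayPt) ∈ CC :=
  ⟨1, Submodule.subset_span (Or.inr rfl), by ext i; simp [support₂]⟩

theorem parity {x : GolayPt → ℤ} (hx : x ∈ leechLattice) (i : GolayPt) : x i % 2 = x none % 2 := by
  induction hx using AddSubgroup.closure_induction with
  | mem y hy =>
    obtain ⟨m, h1, -, -⟩ := hy
    have := h1 i; have := h1 none
    unfold Int.ModEq at *
    omega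
  | zero => rfl
  | add a b _ _ ha hb => simp only [Pi.add_apply]; omega
  | neg a _ ha => simp only [Pi.neg_apply]; omega

/-- The positions where the residue modulo 4 differs from that at the extra point. -/
def oddSet (x : GolayPt → ℤ) : Finset GolayPt :=
  Finset.univ.filter fun i => ¬ x i ≡ x none [ZMOD 4]

theorem none_notMem_oddSet (x : GolayPt → ℤ) : none ∉ oddSet x := by simp [oddSet]

theorem mem_oddSet {x : GolayPt → ℤ} {i : GolayPt} : i ∈ oddSet x ↔ ¬ x i % 4 = x none % 4 := by
  exact ⟨fun h => (Finset.mem_filter.1 h).2, fun h => Finset.mem_filter.2 ⟨Finset.mem_univ i, h⟩⟩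

theorem sum_eq_of_parity {x : GolayPt → ℤ} (hp : ∀ i, x i % 2 = x none % 2) (c : Finset GolayPt) :
    (∑ i ∈ c, x i) % 4 = ((c.card : ℤ) * x none + 2 * ((c ∩ oddSet x).card : ℤ)) % 4 := by
  induction c using Finset.induction_on with
  | empty => simp
  | insert a d ha ih =>
    have hma := hp a
    rw [Finset.sum_insert ha, Finset.card_insert_of_notMem ha]
    by_cases hs : a ∈ oddSet x
    · rw [Finset.insert_inter_of_mem hs, Finset.card_insert_of_notMem (by simp [ha])]
      rw [mem_oddSet] at hs
      push_cast
      rw [add_mul, mul_add, one_mul]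
      omega
    · rw [Finset.insert_inter_of_notMem hs]
      rw [mem_oddSet, not_not] at hs
      push_cast
      rw [add_mul, one_mul]
      omega

theorem oddSet_mem {x : GolayPt → ℤ} (hp : ∀ i, x i % 2 = x none % 2)
    (hc : ∀ c ∈ CC, (∑ i ∈ c, x i) % 4 = 0) : oddSet x ∈ CC := by
  refine dual_mem fun c hcm => ?_
  have h1 := sum_eq_of_parity hp c
  rw [hc c hcm] at h1
  obtain ⟨k, hk⟩ : 4 ∣ c.card := Nat.dvd_of_mod_eq_zero (card_mod_four hcm)
  rw [hk] at h1
  push_cast at h1
  rw [mul_assoc] at h1
  omega

theorem mem_leechSet_of {x : GolayPt → ℤ} (hp : ∀ i, x i % 2 = x none % 2)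
    (hc : ∀ c ∈ CC, (∑ i ∈ c, x i) % 4 = 0) (hs : (∑ i, x i) % 8 = (4 * x none) % 8) :
    x ∈ leechSet := by
  refine ⟨x none, fun i => hp i, hs, fun k => ?_⟩
  have hS := oddSet_mem hp hc
  by_cases hk : k % 4 = x none % 4
  · convert symmDiff_mem_supports univ_mem hS using 1
    ext i
    simp only [Finset.mem_symmDiff, mem_oddSet, Finset.mem_filter, Finset.mem_univ, true_and,
      not_true, false_and, and_false, not_not, or_false]
    unfold Int.ModEq
    omega
  · by_cases hk2 : k % 4 = (x none + 2) % 4
    · convert hS using 1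
      ext i
      have := hp i
      simp only [mem_oddSet, Finset.mem_filter, Finset.mem_univ, true_and]
      unfold Int.ModEq
      omega
    · convert flip_mem_set.empty_mem_supports using 1
      apply Finset.filter_false_of_mem
      intro i _ h
      have := hp i
      simp only [Int.ModEq] at h
      omega

/-- The lattice is given by its congruence conditions. -/
theorem mem_lattice_iff {x : GolayPt → ℤ} : x ∈ leechLattice ↔
    (∀ i, x i % 2 = x none % 2) ∧ (∀ c ∈ CC, (∑ i ∈ c, x i) % 4 = 0) ∧
      (∑ i, x i) % 8 = (4 * x none) % 8 :=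
  ⟨fun h => ⟨parity h, (invariants h).1, (invariants h).2⟩,
    fun ⟨h1, h2, h3⟩ => AddSubgroup.subset_closure (mem_leechSet_of h1 h2 h3)⟩

theorem coe_lattice : (leechLattice : Set (GolayPt → ℤ)) = leechSet :=
  Set.ext fun x => ⟨fun h => mem_leechSet_of (parity h) (invariants h).1 (invariants h).2,
    fun h => AddSubgroup.subset_closure h⟩

theorem oddSet_card {x : GolayPt → ℤ} (hx : x ∈ leechLattice) : (oddSet x).card % 4 = 0 :=
  card_mod_four (oddSet_mem (parity hx) (invariants hx).1)

theorem sqNorm_nonneg (x : GolayPt → ℤ) : 0 ≤ sqNorm x :=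
  Finset.sum_nonneg fun i _ => sq_nonneg (x i)

theorem sqNorm_eq_zero {x : GolayPt → ℤ} : sqNorm x = 0 ↔ x = 0 := by
  unfold sqNorm
  rw [Finset.sum_eq_zero_iff_of_nonneg fun i _ => sq_nonneg (x i)]
  simp [funext_iff]

theorem exists_eq_const_mul {x : GolayPt → ℤ} {d : ℤ} (h : ∀ i, x i % d = 0) :
    ∃ y : GolayPt → ℤ, ∀ i, x i = d * y i :=
  ⟨fun i => x i / d, fun i => (Int.mul_ediv_cancel' (Int.dvd_of_emod_eq_zero (h i))).symm⟩

theorem sq_mod_four (y : ℤ) : ∃ q, y ^ 2 = (if y % 2 = 0 then 0 else 1) + 4 * q := by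
  rcases Int.even_or_odd' y with ⟨k, rfl | rfl⟩
  · exact ⟨k ^ 2, by rw [if_pos (by omega)]; ring⟩
  · exact ⟨k ^ 2 + k, by rw [if_neg (by omega)]; ring⟩

/-- For vectors with even coordinates. -/
theorem even_norm {x y : GolayPt → ℤ} (hx : x ∈ leechLattice) (hy : ∀ i, x i = 2 * y i) :
    sqNorm x = 4 * ∑ i, y i ^ 2 ∧
      (Finset.univ.filter fun i => y i % 2 ≠ 0) ∈ CC ∧
      ∃ q, ∑ i, y i ^ 2 = ((Finset.univ.filter fun i => y i % 2 ≠ 0).card : ℤ) + 4 * q := by
  refine ⟨?_, ?_, ?_⟩
  · unfold sqNorm
    rw [Finset.mul_sum]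
    exact Finset.sum_congr rfl fun i _ => by rw [hy]; ring
  · have hS := oddSet_mem (parity hx) (invariants hx).1
    by_cases h0 : y none % 2 = 0
    · convert hS using 1
      ext i
      have := hy i; have := hy none
      simp only [mem_oddSet, Finset.mem_filter, Finset.mem_univ, true_and]
      omega
    · convert symmDiff_mem_supports univ_mem hS using 1
      ext i
      have := hy i; have := hy none
      simp only [Finset.mem_symmDiff, mem_oddSet, Finset.mem_filter, Finset.mem_univ, true_and,
        not_true, false_and, and_false, not_not, or_false]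
      omega
  · choose q hq using fun i => sq_mod_four (y i)
    refine ⟨∑ i, q i, ?_⟩
    rw [Finset.sum_congr rfl (fun i _ => hq i), Finset.sum_add_distrib, ← Finset.mul_sum,
      Finset.natCast_card_filter]
    congr 1
    exact Finset.sum_congr rfl fun i _ => by split <;> simp_all

theorem card_golayPt : Fintype.card GolayPt = 24 := by simp [ZMod.card]

theorem even_mul_succ (t : ℤ) : ∃ q, t ^ 2 = t + 2 * q := by
  rcases Int.even_or_odd' t with ⟨k, rfl | rfl⟩
  · exact ⟨2 * k ^ 2 - k, by ring⟩
  · exact ⟨2 * k ^ 2 + k, by ring⟩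

/-- The lattice is even in the customary scaling. -/
theorem norm_dvd {x : GolayPt → ℤ} (hx : x ∈ leechLattice) : (16 : ℤ) ∣ sqNorm x := by
  have hp := parity hx
  by_cases h0 : x none % 2 = 0
  · obtain ⟨y, hy⟩ := exists_eq_const_mul (x := x) (d := 2) fun i => by rw [hp i, h0]
    obtain ⟨h1, hS, q, hq⟩ := even_norm hx hy
    have := card_mod_four hS
    rw [h1, hq]
    omega
  · set S := Finset.univ.filter fun i => x i % 4 = 3 with hS
    have hSC : S ∈ CC := by
      by_cases h1 : x none % 4 = 1
      · convert oddSet_mem hp (invariants hx).1 using 1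
        ext i; have := hp i
        simp only [hS, mem_oddSet, Finset.mem_filter, Finset.mem_univ, true_and]
        omega
      · convert symmDiff_mem_supports univ_mem (oddSet_mem hp (invariants hx).1) using 1
        ext i; have := hp i
        simp only [hS, mem_oddSet, Finset.mem_symmDiff, Finset.mem_filter, Finset.mem_univ, true_and,
          not_true, false_and, and_false, not_not, or_false]
        omega
    set t : GolayPt → ℤ := fun i => if i ∈ S then (-x i - 1) / 4 else (x i - 1) / 4 with ht
    have hxt : ∀ i, x i = (if i ∈ S then -1 else 1) * (1 + 4 * t i) := by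
      intro i
      have := hp i
      by_cases hi : i ∈ S
      · have h3 : x i % 4 = 3 := (Finset.mem_filter.1 hi).2
        simp only [ht, if_pos hi]; omega
      · have h3 : ¬ x i % 4 = 3 := fun h => hi (Finset.mem_filter.2 ⟨Finset.mem_univ i, h⟩)
        simp only [ht, if_neg hi]; omega
    choose q hq using fun i => even_mul_succ (t i)
    have hsum : ∑ i, x i = 24 + 4 * ∑ i, t i - 2 * ((S.card : ℤ) + 4 * ∑ i ∈ S, t i) := by
      have e : ∀ i, x i = (1 + 4 * t i) - 2 * (if i ∈ S then 1 + 4 * t i else 0) := fun i => by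
        rw [hxt i]; split <;> ring
      rw [Finset.sum_congr rfl fun i _ => e i, Finset.sum_sub_distrib, Finset.sum_add_distrib,
        ← Finset.mul_sum, ← Finset.mul_sum, Finset.sum_ite_mem, Finset.univ_inter,
        Finset.sum_add_distrib, ← Finset.mul_sum, Finset.sum_const, Finset.sum_const,
        Finset.card_univ, card_golayPt]
      simp
    have hsq : sqNorm x = 24 + 24 * ∑ i, t i + 32 * ∑ i, q i := by
      have e : ∀ i, x i ^ 2 = 1 + 24 * t i + 32 * q i := fun i => by
        rw [hxt i]
        have := hq i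
        split <;> linear_combination 16 * this
      unfold sqNorm
      rw [Finset.sum_congr rfl fun i _ => e i, Finset.sum_add_distrib, Finset.sum_add_distrib,
        ← Finset.mul_sum, ← Finset.mul_sum, Finset.sum_const, Finset.card_univ, card_golayPt]
      simp
    have := (invariants hx).2
    have := card_mod_four hSC
    rw [hsq]
    omega

theorem odd_norm {x : GolayPt → ℤ} (hx : x ∈ leechLattice) (h0 : x none % 2 ≠ 0) :
    24 ≤ sqNorm x := by
  have hp := parity hx
  have h1 : ∀ i ∈ (Finset.univ : Finset GolayPt), (1 : ℤ) ≤ x i ^ 2 := fun i _ => by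
    have hne : x i ≠ 0 := by intro h; have := hp i; rw [h] at this; omega
    nlinarith [Int.one_le_abs hne, sq_abs (x i)]
  have h2 := Finset.card_nsmul_le_sum Finset.univ _ 1 h1
  rw [Finset.card_univ, card_golayPt] at h2
  unfold sqNorm
  simpa using h2

/-- The minimum of the lattice. -/
theorem min_norm {x : GolayPt → ℤ} (hx : x ∈ leechLattice) (hne : x ≠ 0) : 32 ≤ sqNorm x := by
  by_contra hlt
  push Not at hlt
  have hdvd := norm_dvd hx
  have hnn := sqNorm_nonneg x
  have hp := parity hx
  have h0 : x none % 2 = 0 := by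
    by_contra h
    have := odd_norm hx h
    omega
  obtain ⟨y, hy⟩ := exists_eq_const_mul (x := x) (d := 2) fun i => by rw [hp i, h0]
  obtain ⟨h1, hS, -⟩ := even_norm hx hy
  set S := Finset.univ.filter fun i => y i % 2 ≠ 0 with hSdef
  have hle : (S.card : ℤ) ≤ ∑ i, y i ^ 2 := by
    calc (S.card : ℤ) = ∑ i ∈ S, (1 : ℤ) := by simp
      _ ≤ ∑ i ∈ S, y i ^ 2 := Finset.sum_le_sum fun i hi => by
        have hi' := (Finset.mem_filter.1 hi).2
        have hne : y i ≠ 0 := by intro h; rw [h] at hi'; omega
        nlinarith [Int.one_le_abs hne, sq_abs (y i)]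
      _ ≤ ∑ i, y i ^ 2 :=
        Finset.sum_le_univ_sum_of_nonneg fun i => sq_nonneg _
  have hwc := weight_cases hS
  have hempty : S.card = 0 := by omega
  have hall : ∀ i, y i % 2 = 0 := fun i => by
    by_contra h
    have : i ∈ S := Finset.mem_filter.2 ⟨Finset.mem_univ i, h⟩
    rw [Finset.card_eq_zero.1 hempty] at this
    simp at this
  obtain ⟨z, hz⟩ := exists_eq_const_mul (x := y) (d := 2) hall
  have hx4 : ∀ i, x i = 4 * z i := fun i => by rw [hy, hz]; ring
  choose q hq using fun i => even_mul_succ (z i)
  have hnorm : sqNorm x = 16 * ((∑ i, z i) + 2 * ∑ i, q i) := by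
    unfold sqNorm
    rw [Finset.mul_sum Finset.univ q 2, ← Finset.sum_add_distrib, Finset.mul_sum]
    exact Finset.sum_congr rfl fun i _ => by rw [hx4, ← hq i]; ring
  have hs := (invariants hx).2
  rw [Finset.sum_congr rfl fun i _ => hx4 i, ← Finset.mul_sum, hx4 none] at hs
  have : sqNorm x = 0 := by rw [hnorm] at hlt hnn ⊢; omega
  exact hne (sqNorm_eq_zero.1 this)

theorem sqNorm_parallelogram (z w : GolayPt → ℤ) :
    sqNorm (w + z) + sqNorm (w - z) = 2 * sqNorm z + 2 * sqNorm w ∧
      dotInt (w + z) (w - z) = sqNorm w - sqNorm z := by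
  unfold sqNorm dotInt
  constructor
  · rw [← Finset.sum_add_distrib, Finset.mul_sum, Finset.mul_sum, ← Finset.sum_add_distrib]
    exact Finset.sum_congr rfl fun i _ => by simp only [Pi.add_apply, Pi.sub_apply]; ring
  · rw [← Finset.sum_sub_distrib]
    exact Finset.sum_congr rfl fun i _ => by simp only [Pi.add_apply, Pi.sub_apply]; ring

/-- Short vectors congruent modulo twice the lattice. -/
theorem congr_cases {x y : GolayPt → ℤ} (hx : x ∈ leechLattice) (hxy : x ≠ y)
    (hxn : sqNorm x ≤ 64) (hyn : sqNorm y ≤ 64) (hc : ∃ z ∈ leechLattice, x - y = 2 • z) :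
    x = -y ∨ (sqNorm x = 64 ∧ sqNorm y = 64 ∧ dotInt x y = 0) := by
  obtain ⟨z, hz, he⟩ := hc
  have hw : x - z ∈ leechLattice := sub_mem hx hz
  have ey : x - z - z = y := by
    rw [sub_sub, ← two_nsmul, ← he, sub_sub_cancel]
  by_cases hz0 : z = 0
  · exact absurd (by simpa [hz0, sub_eq_zero] using he) hxy
  by_cases hw0 : x - z = 0
  · left
    rw [← ey, hw0, zero_sub, neg_neg]
    exact sub_eq_zero.1 hw0
  right
  have h1 := min_norm hz hz0
  have h2 := min_norm hw hw0
  have h3 := sqNorm_parallelogram z (x - z)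
  rw [sub_add_cancel, ey] at h3
  omega

end Cfsg.Lib.Leech
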