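import Mathlib
import Cfsg.Prelude.Def_Sporadic_a
import Cfsg.Agent.Lib.Leech.Membership

/-!
Counting lattice vectors of small norm by generating functions evaluated at a power of two.
-/

set_option autoImplicit false
set_option linter.unusedSimpArgs false

namespace Cfsg.Lib.Leech

open Cfsg Cfsg.Lib.Golay

local notation "CC" => supports (golayCode : Set (GolayPt → ZMod 2))

/-- The base of the Kronecker substitution. -/
def base : ℕ := 2 ^ 64

/-- Coefficient extraction. -/
theorem digit {α : Type*} (F : Finset α) (f : α → ℕ) (N : ℕ) (hF : F.card < base) :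
    (∑ x ∈ F, base ^ f x) / base ^ N % base = (F.filter fun x => f x = N).card := by
  have hb : 0 < base := by norm_num [base]
  set L := ∑ x ∈ F.filter (fun x => f x < N), base ^ f x with hL
  set c := (F.filter fun x => f x = N).card with hc
  obtain ⟨H, hH⟩ : base ^ (N + 1) ∣ ∑ x ∈ F.filter (fun x => N < f x), base ^ f x :=
    Finset.dvd_sum fun x hx => pow_dvd_pow _ (Finset.mem_filter.1 hx).2
  have hsum : ∑ x ∈ F, base ^ f x = L + (c + base * H) * base ^ N := by
    rw [← Finset.sum_filter_add_sum_filter_not F (fun x => f x < N)]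
    congr 1
    rw [← Finset.sum_filter_add_sum_filter_not (F.filter fun x => ¬ f x < N) (fun x => f x = N),
      Finset.filter_filter, Finset.filter_filter, add_mul]
    congr 1
    · rw [Finset.filter_congr (q := fun x => f x = N) (fun x _ => by omega),
        Finset.sum_congr rfl (fun x hx => by rw [(Finset.mem_filter.1 hx).2]), Finset.sum_const,
        smul_eq_mul]
    · rw [Finset.filter_congr (q := fun x => N < f x) (fun x _ => by omega), hH, pow_succ]
      ring
  have hLlt : L < base ^ N := by
    rcases Nat.eq_zero_or_pos N with h0 | h0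
    · subst h0; simp [hL]
    · calc L ≤ ∑ x ∈ F.filter (fun x => f x < N), base ^ (N - 1) :=
            Finset.sum_le_sum fun x hx => Nat.pow_le_pow_right hb (by
              have := (Finset.mem_filter.1 hx).2; omega)
        _ = (F.filter (fun x => f x < N)).card * base ^ (N - 1) := by
            rw [Finset.sum_const, smul_eq_mul]
        _ < base * base ^ (N - 1) := Nat.mul_lt_mul_of_pos_right
            (lt_of_le_of_lt (Finset.card_filter_le _ _) hF) (pow_pos hb _)
        _ = base ^ N := by rw [← pow_succ']; congr 1; omega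
  rw [hsum, Nat.add_mul_div_right _ _ (pow_pos hb _), Nat.div_eq_of_lt hLlt, zero_add,
    Nat.add_mul_mod_self_left, Nat.mod_eq_of_lt]
  exact lt_of_le_of_lt (Finset.card_filter_le _ _) hF

/-- A sign. -/
def sgn (t : ℤ) : ℤ := if t % 2 = 0 then 1 else -1

theorem prod_sgn {ι : Type*} (s : Finset ι) (t : ι → ℤ) : ∏ i ∈ s, sgn (t i) = sgn (∑ i ∈ s, t i) := by
  classical
  induction s using Finset.induction_on with
  | empty => simp [sgn]
  | insert a s ha ih =>
    rw [Finset.prod_insert ha, Finset.sum_insert ha, ih]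
    simp only [sgn]
    split <;> split <;> split <;> first | rfl | omega

/-- The residue modulo 4 of a coordinate of a lattice vector. -/
def resVal (m hit : Bool) : ℤ :=
  if m then (if hit then 3 else 1) else (if hit then 2 else 0)

/-- The integers between `-8` and `8`. -/
def valRange : Finset ℤ := (Finset.range 17).image fun n : ℕ => (n : ℤ) - 8

theorem mem_valRange {v : ℤ} : v ∈ valRange ↔ -8 ≤ v ∧ v ≤ 8 := by
  simp only [valRange, Finset.mem_image, Finset.mem_range]
  exact ⟨fun ⟨n, hn, e⟩ => by omega, fun h => ⟨(v + 8).toNat, by omega, by omega⟩⟩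

/-- The allowed values. -/
def vals (P : ℤ → Bool) (r : ℤ) : Finset ℤ :=
  valRange.filter fun v => v % 4 = r ∧ P v = true

/-- Weight of a value. -/
def wt (v : ℤ) : ℕ := (v ^ 2).toNat

/-- The generating number. -/
def gPlus (P : ℤ → Bool) (r : ℤ) : ℕ := ∑ v ∈ vals P r, base ^ wt v

/-- The signed generating number. -/
def gMinus (P : ℤ → Bool) (r : ℤ) : ℤ :=
  ∑ v ∈ vals P r, sgn ((v - r) / 4) * (base : ℤ) ^ wt v

theorem card_vals_le (P : ℤ → Bool) {r : ℤ} : (vals P r).card ≤ 5 := by
  refine le_trans (Finset.card_le_card (t := valRange.filter fun v => v % 4 = r) ?_) ?_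
  · intro v hv
    simp only [vals, Finset.mem_filter] at hv ⊢
    exact ⟨hv.1, hv.2.1⟩
  · by_cases h : 0 ≤ r ∧ r < 4
    · obtain ⟨h1, h2⟩ := h
      interval_cases r <;> decide
    · rw [Finset.filter_false_of_mem, Finset.card_empty]
      · omega
      · intro v _ hv; omega

/-- The count extracted from the two generating numbers. -/
def extract (m : Bool) (N : ℕ) (p : ℕ) (q : ℤ) : ℕ :=
  ((if m then (p : ℤ) - q else (p : ℤ) + q).toNat / 2) / base ^ N % base

/-- Vectors with prescribed residues and allowed values. -/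
def classSet (P : GolayPt → ℤ → Bool) (N : ℕ) (m : Bool) (S : Finset GolayPt) :
    Finset (GolayPt → ℤ) :=
  (Fintype.piFinset fun i => vals (P i) (resVal m (decide (i ∈ S)))).filter fun x =>
    (∑ i, (x i - resVal m (decide (i ∈ S))) / 4) % 2 = (if m then 1 else 0) ∧ ∑ i, wt (x i) = N

theorem classSet_card (P : GolayPt → ℤ → Bool) (N : ℕ) (m : Bool) (S : Finset GolayPt) :
    (classSet P N m S).card = extract m N (∏ i, gPlus (P i) (resVal m (decide (i ∈ S))))
      (∏ i, gMinus (P i) (resVal m (decide (i ∈ S)))) := by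
  set r : GolayPt → ℤ := fun i => resVal m (decide (i ∈ S)) with hr
  set A := Fintype.piFinset fun i => vals (P i) (r i) with hA
  set t : (GolayPt → ℤ) → ℤ := fun x => ∑ i, (x i - r i) / 4 with ht
  set f : (GolayPt → ℤ) → ℕ := fun x => ∑ i, wt (x i) with hf
  have hplus : ∏ i, gPlus (P i) (r i) = ∑ x ∈ A, base ^ f x := by
    unfold gPlus
    rw [Finset.prod_univ_sum]
    exact Finset.sum_congr rfl fun x _ => Finset.prod_pow_eq_pow_sum _ _ _
  have hminus : ∏ i, gMinus (P i) (r i) = ∑ x ∈ A, sgn (t x) * (base : ℤ) ^ f x := by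
    unfold gMinus
    rw [Finset.prod_univ_sum]
    exact Finset.sum_congr rfl fun x _ => by
      rw [Finset.prod_mul_distrib, prod_sgn, Finset.prod_pow_eq_pow_sum]
  have hcard : A.card < base := by
    rw [hA, Fintype.card_piFinset]
    refine lt_of_le_of_lt (Finset.prod_le_pow_card _ _ 5 fun i _ => card_vals_le _) ?_
    rw [Finset.card_univ, card_golayPt]
    norm_num [base]
  have hhalf : (if m then ((∑ x ∈ A, base ^ f x : ℕ) : ℤ) - ∑ x ∈ A, sgn (t x) * (base : ℤ) ^ f x
      else ((∑ x ∈ A, base ^ f x : ℕ) : ℤ) + ∑ x ∈ A, sgn (t x) * (base : ℤ) ^ f x) =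
      2 * ((∑ x ∈ A.filter (fun x => t x % 2 = (if m then 1 else 0)), base ^ f x : ℕ) : ℤ) := by
    push_cast
    rw [Finset.sum_filter]
    cases m <;> simp only [Bool.false_eq_true, if_false, if_true] <;>
      rw [Finset.mul_sum] <;>
      [rw [← Finset.sum_add_distrib]; rw [← Finset.sum_sub_distrib]] <;>
      refine Finset.sum_congr rfl fun x _ => ?_ <;>
      rcases Int.emod_two_eq (t x) with h | h <;> simp [sgn, h] <;> ring
  have hset : classSet P N m S =
      (A.filter (fun x => t x % 2 = (if m then 1 else 0))).filter fun x => f x = N := by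
    unfold classSet; rw [Finset.filter_filter]
  rw [hset, ← digit _ f N (lt_of_le_of_lt (Finset.card_filter_le _ _) hcard), extract, hplus, hminus, hhalf]
  rw [show (2 : ℤ) = ((2 : ℕ) : ℤ) from rfl, ← Nat.cast_mul, Int.toNat_natCast,
    Nat.mul_div_cancel_left _ (by omega : 0 < 2)]

theorem resVal_emod (m hit : Bool) : resVal m hit % 4 = resVal m hit ∧ resVal m hit % 2 = if m then 1 else 0 := by
  cases m <;> cases hit <;> simp [resVal]

/-- Sum condition in terms of the quotient parity. -/
theorem sum_mod_eight {x : GolayPt → ℤ} {m : Bool} {S : Finset GolayPt} (hS : S ∈ CC)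
    (h : ∀ i, x i % 4 = resVal m (decide (i ∈ S))) :
    (∑ i, x i) % 8 = (4 * ((∑ i, (x i - resVal m (decide (i ∈ S))) / 4) % 2)) % 8 := by
  have e : ∀ i, x i = (if m then 1 else 0) + 2 * (if i ∈ S then 1 else 0) +
      4 * ((x i - resVal m (decide (i ∈ S))) / 4) := by
    intro i
    have := h i
    by_cases hi : i ∈ S <;> cases m <;>
      simp only [resVal, hi, decide_true, decide_false, Bool.false_eq_true, if_true, if_false] at * <;>
      omega
  conv_lhs => rw [Finset.sum_congr rfl fun i _ => e i, Finset.sum_add_distrib, Finset.sum_add_distrib,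
    ← Finset.mul_sum, ← Finset.mul_sum, Finset.sum_const, Finset.sum_boole, Finset.card_univ, card_golayPt,
    Finset.filter_mem_eq_inter, Finset.univ_inter]
  have := card_mod_four hS
  cases m <;> simp <;> omega

/-- Each lattice vector has exactly one class. -/
theorem class_iff (x : GolayPt → ℤ) : x ∈ leechLattice ↔ ∃ (m : Bool) (S : Finset GolayPt), S ∈ CC ∧
    (∀ i, x i % 4 = resVal m (decide (i ∈ S))) ∧
    (∑ i, (x i - resVal m (decide (i ∈ S))) / 4) % 2 = (if m then 1 else 0) := by
  constructor
  · intro hx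
    set m : Bool := decide (x none % 2 = 1) with hm
    set S := Finset.univ.filter fun i => x i % 4 = resVal m true with hS
    have hp := parity hx
    have hall : ∀ i, x i % 4 = resVal m (decide (i ∈ S)) := by
      intro i
      have := hp i
      by_cases hi : i ∈ S
      · have h1 := (Finset.mem_filter.1 hi).2
        rw [decide_eq_true hi]; exact h1
      · have h1 : ¬ x i % 4 = resVal m true := fun h => hi (Finset.mem_filter.2 ⟨Finset.mem_univ i, h⟩)
        rw [decide_eq_false hi]
        by_cases h2 : x none % 2 = 1 <;> simp [hm, resVal, h2] at h1 ⊢ <;> omega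
    have hSC : S ∈ CC := by
      have hO := oddSet_mem hp (invariants hx).1
      by_cases h : x none % 4 = resVal m true
      · convert symmDiff_mem_supports univ_mem hO using 1
        ext i
        simp only [hS, Finset.mem_symmDiff, mem_oddSet, Finset.mem_filter, Finset.mem_univ, true_and,
          not_true, and_false, not_not, or_false]
        omega
      · convert hO using 1
        ext i
        simp only [hS, mem_oddSet, Finset.mem_filter, Finset.mem_univ, true_and]
        have := hp i
        by_cases h2 : x none % 2 = 1 <;> simp [hm, resVal, h2] at h ⊢ <;> omega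
    refine ⟨m, S, hSC, hall, ?_⟩
    have h8 := sum_mod_eight hSC hall
    have := (invariants hx).2
    by_cases h2 : x none % 2 = 1 <;>
      simp only [hm, h2, decide_true, decide_false, Bool.false_eq_true, if_true, if_false] at h8 ⊢ <;> omega
  · rintro ⟨m, S, hS, hall, hpar⟩
    have h2 : ∀ i, x i % 2 = if m then 1 else 0 := fun i => by
      have := hall i
      have := (resVal_emod m (decide (i ∈ S))).2
      omega
    refine mem_lattice_iff.2 ⟨fun i => by rw [h2 i, h2 none], fun c hc => ?_, ?_⟩
    · have e : ∀ i, x i % 4 = ((if m then 1 else 0) + 2 * (if i ∈ S then 1 else 0) : ℤ) % 4 := fun i => by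
        rw [hall i]
        by_cases hi : i ∈ S <;> cases m <;> simp [resVal, hi]
      rw [Finset.sum_int_mod, Finset.sum_congr rfl fun i _ => e i, ← Finset.sum_int_mod,
        Finset.sum_add_distrib, ← Finset.mul_sum, Finset.sum_const, Finset.sum_boole,
        Finset.filter_mem_eq_inter]
      have h4 := card_mod_four hc
      have h5 := inter_even hc hS
      cases m <;> simp <;> omega
    · rw [sum_mod_eight hS hall, hpar]
      have := h2 none
      cases m <;> simp at * <;> omega

theorem class_unique {x : GolayPt → ℤ} {m m' : Bool} {S S' : Finset GolayPt}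
    (h : ∀ i, x i % 4 = resVal m (decide (i ∈ S)))
    (h' : ∀ i, x i % 4 = resVal m' (decide (i ∈ S'))) : m = m' ∧ S = S' := by
  have hm : m = m' := by
    have := h none; have := h' none
    cases m <;> cases m' <;> by_cases a : none ∈ S <;> by_cases b : none ∈ S' <;>
      simp [resVal, a, b] at * <;> omega
  subst hm
  refine ⟨rfl, ?_⟩
  ext i
  have := h i; have := h' i
  cases m <;> by_cases a : i ∈ S <;> by_cases b : i ∈ S' <;>
      simp [resVal, a, b] at * <;> omega

/-- The code words as a finset. -/
def codeFinset : Finset (Finset GolayPt) := (spanL codeGens).toFinset.image toSet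

theorem mem_codeFinset {S : Finset GolayPt} : S ∈ codeFinset ↔ S ∈ CC := by
  simp only [codeFinset, Finset.mem_image, List.mem_toFinset]
  rw [mem_supports_iff]
  constructor
  · rintro ⟨n, hn, rfl⟩
    rw [setNat_toSet (lt_of_inCode ((inCode_iff n).2 hn))]; exact (inCode_iff n).2 hn
  · exact fun h => ⟨setNat S, (inCode_iff _).1 h, toSet_setNat S⟩

theorem sum_codeFinset {β : Type*} [AddCommMonoid β] (g : Finset GolayPt → β) :
    ∑ S ∈ codeFinset, g S = ((spanL codeGens).map fun n => g (toSet n)).sum := by
  rw [codeFinset, Finset.sum_image, List.sum_toFinset _ spanL_nodup]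
  intro a ha b hb h
  simp only [List.coe_toFinset, Set.mem_ofPred_eq] at ha hb
  exact toSet_injOn ((inCode_iff a).2 ha) ((inCode_iff b).2 hb) h

theorem ncard_norm_set (P : GolayPt → ℤ → Bool) (N : ℕ) (hN : N ≤ 64) :
    {x : GolayPt → ℤ | x ∈ leechLattice ∧ sqNorm x = N ∧ ∀ i, P i (x i) = true}.ncard =
      ∑ p ∈ (Finset.univ : Finset Bool) ×ˢ codeFinset, (classSet P N p.1 p.2).card := by
  classical
  have hmem : ∀ (p : Bool × Finset GolayPt) x, x ∈ classSet P N p.1 p.2 ↔
      (∀ i, x i % 4 = resVal p.1 (decide (i ∈ p.2))) ∧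
      (∑ i, (x i - resVal p.1 (decide (i ∈ p.2))) / 4) % 2 = (if p.1 then 1 else 0) ∧
      sqNorm x = N ∧ ∀ i, P i (x i) = true := by
    intro p x
    have hw : ((∑ i, wt (x i) : ℕ) : ℤ) = sqNorm x := by
      push_cast
      exact Finset.sum_congr rfl fun i _ => Int.toNat_of_nonneg (sq_nonneg _)
    simp only [classSet, Finset.mem_filter, Fintype.mem_piFinset, vals, mem_valRange]
    constructor
    · rintro ⟨h1, h2, h3⟩
      exact ⟨fun i => (h1 i).2.1, h2, by rw [← hw, h3], fun i => (h1 i).2.2⟩
    · rintro ⟨h1, h2, h3, h4⟩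
      refine ⟨fun i => ⟨?_, h1 i, h4 i⟩, h2, by exact_mod_cast hw.trans h3⟩
      have h5 : x i ^ 2 ≤ sqNorm x :=
        Finset.single_le_sum (f := fun i => x i ^ 2) (fun i _ => sq_nonneg (x i)) (Finset.mem_univ i)
      rw [h3] at h5
      have h6 : x i ^ 2 ≤ 8 ^ 2 := le_trans h5 (by exact_mod_cast hN)
      exact abs_le.1 (abs_le_of_sq_le_sq h6 (by norm_num))
  have hset : {x : GolayPt → ℤ | x ∈ leechLattice ∧ sqNorm x = N ∧ ∀ i, P i (x i) = true} =
      ↑(((Finset.univ : Finset Bool) ×ˢ codeFinset).biUnion fun p => classSet P N p.1 p.2) := by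
    ext x
    simp only [Set.mem_ofPred_eq, Finset.coe_biUnion, Set.mem_iUnion, Finset.mem_coe, Finset.mem_product,
      Finset.mem_univ, true_and, mem_codeFinset, exists_prop, hmem]
    constructor
    · rintro ⟨hx, hn, hP⟩
      obtain ⟨m, S, hS, h1, h2⟩ := (class_iff x).1 hx
      exact ⟨(m, S), hS, h1, h2, hn, hP⟩
    · rintro ⟨p, hS, h1, h2, hn, hP⟩
      exact ⟨(class_iff x).2 ⟨p.1, p.2, hS, h1, h2⟩, hn, hP⟩
  rw [hset, Set.ncard_coe_finset, Finset.card_biUnion]
  intro p _ q _ hpq
  rw [Function.onFun, Finset.disjoint_left]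
  intro x h1 h2
  exact hpq (Prod.ext (class_unique ((hmem p x).1 h1).1 ((hmem q x).1 h2).1).1
    (class_unique ((hmem p x).1 h1).1 ((hmem q x).1 h2).1).2)

/-- The count for one class with uniform allowed values. -/
def uniformVal (P : ℤ → Bool) (N : ℕ) (m : Bool) (k : ℕ) : ℕ :=
  extract m N (gPlus P (resVal m true) ^ k * gPlus P (resVal m false) ^ (24 - k))
    (gMinus P (resVal m true) ^ k * gMinus P (resVal m false) ^ (24 - k))

theorem prod_two {M : Type*} [CommMonoid M] (g : Bool → M) (S : Finset GolayPt) :
    ∏ i, g (decide (i ∈ S)) = g true ^ S.card * g false ^ (24 - S.card) := by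
  rw [← Finset.prod_mul_prod_compl S (fun i => g (decide (i ∈ S))),
    Finset.prod_congr rfl (fun i hi => by rw [decide_eq_true hi]),
    Finset.prod_congr rfl (s₁ := Sᶜ) (fun i hi => by rw [decide_eq_false (Finset.mem_compl.1 hi)]),
    Finset.prod_const, Finset.prod_const, Finset.card_compl, card_golayPt]

theorem ncard_uniform (P : ℤ → Bool) (N : ℕ) (hN : N ≤ 64) :
    {x : GolayPt → ℤ | x ∈ leechLattice ∧ sqNorm x = N ∧ ∀ i, P (x i) = true}.ncard =
      uniformVal P N false 0 + 759 * uniformVal P N false 8 + 2576 * uniformVal P N false 12 +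
        759 * uniformVal P N false 16 + uniformVal P N false 24 +
      (uniformVal P N true 0 + 759 * uniformVal P N true 8 + 2576 * uniformVal P N true 12 +
        759 * uniformVal P N true 16 + uniformVal P N true 24) := by
  rw [ncard_norm_set (fun _ => P) N hN]
  have hcls : ∀ (m : Bool) (S : Finset GolayPt),
      (classSet (fun _ => P) N m S).card = uniformVal P N m S.card := fun m S => by
    rw [classSet_card, prod_two (fun b => gPlus P (resVal m b)) S,
      prod_two (fun b => gMinus P (resVal m b)) S]
    rfl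
  have hgroup : ∀ g : ℕ → ℕ, ∑ S ∈ codeFinset, g S.card =
      g 0 + 759 * g 8 + 2576 * g 12 + 759 * g 16 + g 24 := by
    intro g
    rw [sum_codeFinset]
    simp only [card_toSet]
    rw [sum_map_pop g]
  rw [Finset.sum_product, Fintype.sum_bool]
  simp only [hcls, hgroup]
  ring
where
  sum_map_pop (g : ℕ → ℕ) : ((spanL codeGens).map fun n => g (pop n)).sum =
      g 0 + 759 * g 8 + 2576 * g 12 + 759 * g 16 + g 24 := by
    have hgen : ∀ L : List ℕ, (∀ n ∈ L, pop n = 0 ∨ pop n = 8 ∨ pop n = 12 ∨ pop n = 16 ∨ pop n = 24) →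
        (L.map fun n => g (pop n)).sum = L.countP (pop · == 0) * g 0 + L.countP (pop · == 8) * g 8 +
          L.countP (pop · == 12) * g 12 + L.countP (pop · == 16) * g 16 + L.countP (pop · == 24) * g 24 := by
      intro L hL
      induction L with
      | nil => simp
      | cons a l ih =>
        rw [List.map_cons, List.sum_cons, ih fun n hn => hL n (List.mem_cons_of_mem _ hn)]
        simp only [List.countP_cons]
        rcases hL a List.mem_cons_self with h | h | h | h | h <;> simp [h, add_mul] <;> ring
    rw [hgen _ fun n hn => pop_cases ((inCode_iff n).2 hn)]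
    obtain ⟨h0, h1, h2, h3, h4⟩ := weight_counts
    rw [h0, h1, h2, h3, h4, one_mul, one_mul]
  weight_counts : (spanL codeGens).countP (pop · == 0) = 1 ∧ (spanL codeGens).countP (pop · == 8) = 759 ∧
      (spanL codeGens).countP (pop · == 12) = 2576 ∧ (spanL codeGens).countP (pop · == 16) = 759 ∧
      (spanL codeGens).countP (pop · == 24) = 1 := by
    set_option maxRecDepth 100000 in decide +kernel

end Cfsg.Lib.Leech
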