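import Mathlib
import Cfsg.Prelude.Def_Sporadic_a
import Cfsg.Agent.Lib.Leech.Membership

/-!
A totally singular sublattice of index 2^12 and the index of the lattice.
-/

set_option autoImplicit false
set_option linter.unusedSimpArgs false

namespace Cfsg.Lib.Leech

open Cfsg Cfsg.Lib.Golay

local notation "CC" => supports (golayCode : Set (GolayPt → ZMod 2))

/-- Half the differences from the extra coordinate. -/
def halfHom : leechLattice →+ ZMod 2 × (GolayPt → ZMod 2) where
  toFun x := (((x : GolayPt → ℤ) none : ZMod 2),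
    fun i => ((((x : GolayPt → ℤ) i - (x : GolayPt → ℤ) none) / 2 : ℤ) : ZMod 2))
  map_zero' := by ext <;> simp
  map_add' x y := by
    refine Prod.ext (by simp) (funext fun i => ?_)
    have h1 := parity x.2 i
    have h2 := parity y.2 i
    simp only [AddSubgroup.coe_add, Pi.add_apply, Prod.snd_add]
    rw [← Int.cast_add]
    congr 1
    omega

/-- Lattice vectors congruent to one even constant modulo 4. -/
def frameSub : AddSubgroup (GolayPt → ℤ) := halfHom.ker.map leechLattice.subtype

theorem frameSub_le : frameSub ≤ leechLattice := by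
  rintro _ ⟨x, -, rfl⟩; exact x.2

theorem mem_frameSub {x : GolayPt → ℤ} : x ∈ frameSub ↔
    x ∈ leechLattice ∧ x none % 2 = 0 ∧ ∀ i, x i % 4 = x none % 4 := by
  constructor
  · rintro ⟨y, hy, rfl⟩
    have hy : halfHom y = 0 := hy
    have h1 : (((y : GolayPt → ℤ) none : ℤ) : ZMod 2) = 0 := congrArg Prod.fst hy
    rw [ZMod.intCast_zmod_eq_zero_iff_dvd] at h1
    refine ⟨y.2, by simp only [AddSubgroup.subtype_apply]; omega, fun i => ?_⟩
    have h2 : ((((y : GolayPt → ℤ) i - (y : GolayPt → ℤ) none) / 2 : ℤ) : ZMod 2) = 0 :=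
      congrFun (congrArg Prod.snd hy) i
    rw [ZMod.intCast_zmod_eq_zero_iff_dvd] at h2
    have := parity y.2 i
    simp only [AddSubgroup.subtype_apply]
    omega
  · rintro ⟨hx, h0, hall⟩
    refine ⟨⟨x, hx⟩, Prod.ext ?_ (funext fun i => ?_), rfl⟩
    · show ((x none : ℤ) : ZMod 2) = 0
      rw [ZMod.intCast_zmod_eq_zero_iff_dvd]; omega
    · show (((x i - x none) / 2 : ℤ) : ZMod 2) = 0
      have := hall i
      rw [ZMod.intCast_zmod_eq_zero_iff_dvd]; omega

theorem two_smul_mem_frameSub {x : GolayPt → ℤ} (hx : x ∈ leechLattice) :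
    (2 : ℤ) • x ∈ frameSub := by
  refine mem_frameSub.2 ⟨zsmul_mem hx 2, ?_, fun i => ?_⟩
  · simp
  · have := parity hx i
    simp only [Pi.smul_apply, smul_eq_mul]
    omega

theorem frameSub_norm {x : GolayPt → ℤ} (hx : x ∈ frameSub) : (32 : ℤ) ∣ sqNorm x := by
  obtain ⟨hL, h0, hall⟩ := mem_frameSub.1 hx
  by_cases h4 : x none % 4 = 0
  · obtain ⟨z, hz⟩ := exists_eq_const_mul (x := x) (d := 4) fun i => by rw [hall i, h4]
    choose q hq using fun i => even_mul_succ (z i)
    have hs := (invariants hL).2
    rw [Finset.sum_congr rfl fun i _ => hz i, ← Finset.mul_sum, hz none] at hs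
    have hn : sqNorm x = 16 * ((∑ i, z i) + 2 * ∑ i, q i) := by
      unfold sqNorm
      rw [Finset.mul_sum Finset.univ q 2, ← Finset.sum_add_distrib, Finset.mul_sum]
      exact Finset.sum_congr rfl fun i _ => by rw [hz, ← hq i]; ring
    rw [hn]; omega
  · obtain ⟨z, hz⟩ := exists_eq_const_mul (x := fun i => x i - 2) (d := 4) fun i => by
      show (x i - 2) % 4 = 0
      have := hall i
      omega
    choose q hq using fun i => even_mul_succ (z i)
    have hn : sqNorm x = 4 * 24 + 32 * ((∑ i, z i) + ∑ i, q i) := by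
      unfold sqNorm
      have e : ∀ i, x i ^ 2 = 4 + 32 * (z i + q i) := fun i => by
        have := hq i
        have hx' : x i = 4 * z i + 2 := by have := hz i; omega
        rw [hx']; linear_combination 16 * this
      rw [Finset.sum_congr rfl fun i _ => e i, Finset.sum_add_distrib, ← Finset.mul_sum,
        Finset.sum_add_distrib, Finset.sum_const, Finset.card_univ, card_golayPt]
      simp
    rw [hn]; omega

/-- `2` times the characteristic vector of a code word. -/
theorem two_indicator_mem {S : Finset GolayPt} (hS : S ∈ CC) :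
    (fun i => if i ∈ S then (2 : ℤ) else 0) ∈ leechLattice := by
  refine mem_lattice_iff.2 ⟨fun i => by split <;> split <;> rfl, fun c hc => ?_, ?_⟩
  · have h := inter_even hc hS
    rw [Finset.sum_ite_mem, Finset.sum_const, nsmul_eq_mul]
    omega
  · have h := card_mod_four hS
    rw [Finset.sum_ite_mem, Finset.univ_inter, Finset.sum_const, nsmul_eq_mul]
    split <;> omega

/-- The vector with one coordinate `-3` at `p` and all others `1`. -/
theorem minusThree_mem (p : GolayPt) :
    (fun i => if i = p then (-3 : ℤ) else 1) ∈ leechLattice := by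
  refine mem_lattice_iff.2 ⟨fun i => by split <;> split <;> simp, fun c hc => ?_, ?_⟩
  · have h := card_mod_four hc
    have e : ∀ i, (if i = p then (-3 : ℤ) else 1) = 1 - 4 * (if i = p then 1 else 0) := fun i => by
      split <;> rfl
    rw [Finset.sum_congr rfl fun i _ => e i, Finset.sum_sub_distrib, Finset.sum_const, ← Finset.mul_sum,
      nsmul_eq_mul, mul_one]
    omega
  · have e : ∀ i, (if i = p then (-3 : ℤ) else 1) = 1 - 4 * (if i = p then 1 else 0) := fun i => by
      split <;> rfl
    rw [Finset.sum_congr rfl fun i _ => e i, Finset.sum_sub_distrib, Finset.sum_const, ← Finset.mul_sum,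
      Finset.card_univ, card_golayPt, Finset.sum_ite_eq' Finset.univ p, if_pos (Finset.mem_univ p)]
    simp only [nsmul_eq_mul]
    split <;> simp

/-- Code words vanishing at the extra point. -/
def puncturedWords : Set (GolayPt → ZMod 2) := {w | w ∈ golayCode ∧ w none = 0}

set_option maxRecDepth 100000 in
theorem punctured_count :
    ((spanL codeGens).filter fun n => !n.testBit 23).length = 2048 := by decide +kernel

theorem puncturedWords_eq :
    puncturedWords = toWord '' ↑(((spanL codeGens).filter fun n => !n.testBit 23).toFinset) := by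
  ext w
  simp only [puncturedWords, Set.mem_ofPred_eq, Set.mem_image, List.coe_toFinset, List.mem_filter]
  constructor
  · rintro ⟨hw, h0⟩
    obtain ⟨n, hn, rfl⟩ := exists_mask hw
    refine ⟨n, ⟨(inCode_iff n).1 hn, ?_⟩, rfl⟩
    simp only [toWord, idx] at h0
    cases hb : n.testBit 23
    · rfl
    · simp [hb] at h0
  · rintro ⟨n, ⟨hn, hb⟩, rfl⟩
    refine ⟨toWord_mem_golayCode ((inCode_iff n).2 hn), ?_⟩
    simp only [Bool.not_eq_true'] at hb
    simp [toWord, idx, hb]

theorem ncard_puncturedWords : puncturedWords.ncard = 2048 := by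
  rw [puncturedWords_eq, Set.ncard_image_of_injOn, Set.ncard_coe_finset,
    List.toFinset_card_of_nodup (spanL_nodup.filter _), punctured_count]
  intro a ha b hb hab
  simp only [List.coe_toFinset, Set.mem_ofPred_eq, List.mem_filter] at ha hb
  have h := congrArg support₂ hab
  rw [support_toWord, support_toWord] at h
  exact toSet_injOn ((inCode_iff a).2 ha.1) ((inCode_iff b).2 hb.1) h

theorem halfHom_range : (halfHom.range : Set (ZMod 2 × (GolayPt → ZMod 2))) =
    (Set.univ : Set (ZMod 2)) ×ˢ puncturedWords := by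
  ext ⟨a, w⟩
  simp only [AddMonoidHom.coe_range, Set.mem_range, Set.mem_prod, Set.mem_univ, true_and]
  constructor
  · rintro ⟨x, hx⟩
    have hx2 : (halfHom x).2 = w := congrArg Prod.snd hx
    rw [← hx2]
    have hp := parity x.2
    have hS := oddSet_mem hp (invariants x.2).1
    obtain ⟨v, hv, hsupp⟩ := hS
    have hval : (halfHom x).2 = v := by
      funext i
      show ((((x : GolayPt → ℤ) i - (x : GolayPt → ℤ) none) / 2 : ℤ) : ZMod 2) = v i
      have hi : v i ≠ 0 ↔ ¬ (x : GolayPt → ℤ) i % 4 = (x : GolayPt → ℤ) none % 4 := by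
        rw [← mem_oddSet, ← hsupp]; simp [support₂]
      have h01 : v i = 0 ∨ v i = 1 := by generalize v i = t; revert t; decide
      have := hp i
      rcases h01 with h | h
      · rw [h, ZMod.intCast_zmod_eq_zero_iff_dvd]
        have h4 : (x : GolayPt → ℤ) i % 4 = (x : GolayPt → ℤ) none % 4 := by
          by_contra h4; exact hi.2 h4 h
        omega
      · rw [h]
        have h4 : ¬ (x : GolayPt → ℤ) i % 4 = (x : GolayPt → ℤ) none % 4 := hi.1 (by rw [h]; exact one_ne_zero)
        have : (((x : GolayPt → ℤ) i - (x : GolayPt → ℤ) none) / 2) % 2 = 1 := by omega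
        rw [← ZMod.intCast_mod, show ((2 : ℕ) : ℤ) = 2 from rfl, this]; rfl
    refine ⟨hval ▸ hv, ?_⟩
    show ((((x : GolayPt → ℤ) none - (x : GolayPt → ℤ) none) / 2 : ℤ) : ZMod 2) = 0
    simp
  · rintro ⟨hw, h0⟩
    have hS : support₂ w ∈ CC := ⟨w, hw, rfl⟩
    let y : leechLattice := ⟨_, two_indicator_mem hS⟩
    have hy : halfHom y = (0, w) := by
      refine Prod.ext ?_ (funext fun i => ?_)
      · show (((if none ∈ support₂ w then (2 : ℤ) else 0) : ℤ) : ZMod 2) = 0
        simp [support₂, h0]
      · show ((((if i ∈ support₂ w then (2 : ℤ) else 0) -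
            (if none ∈ support₂ w then (2 : ℤ) else 0)) / 2 : ℤ) : ZMod 2) = w i
        have h01 : w i = 0 ∨ w i = 1 := by generalize w i = t; revert t; decide
        rcases h01 with h | h <;> simp [support₂, h0, h]
    let u : leechLattice := ⟨_, minusThree_mem (some 0)⟩
    have hu : halfHom u = (1, 0) := by
      refine Prod.ext ?_ (funext fun i => ?_)
      · show (((if none = some (0 : ZMod 23) then (-3 : ℤ) else 1) : ℤ) : ZMod 2) = 1
        simp
      · show ((((if i = some (0 : ZMod 23) then (-3 : ℤ) else 1) -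
            (if none = some (0 : ZMod 23) then (-3 : ℤ) else 1)) / 2 : ℤ) : ZMod 2) = 0
        rw [if_neg (by simp : ¬ (none : GolayPt) = some 0), ZMod.intCast_zmod_eq_zero_iff_dvd]
        split <;> simp
    have h01 : a = 0 ∨ a = 1 := by revert a; decide
    rcases h01 with rfl | rfl
    · exact ⟨y, hy⟩
    · exact ⟨u + y, by rw [map_add, hu, hy]; simp⟩

theorem halfHom_ker_index : halfHom.ker.index = 2 ^ 12 := by
  rw [AddSubgroup.index_ker, ← SetLike.coe_sort_coe, halfHom_range,
    Nat.card_coe_set_eq, Set.ncard_prod, ncard_puncturedWords, Set.ncard_univ, Nat.card_zmod]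
  norm_num

theorem frameSub_relIndex : (frameSub.addSubgroupOf leechLattice).index = 2 ^ 12 := by
  rw [← halfHom_ker_index]
  congr 1
  ext x
  simp only [AddSubgroup.mem_addSubgroupOf, frameSub]
  exact ⟨fun ⟨y, hy, e⟩ => (Subtype.ext e : y = x) ▸ hy, fun h => ⟨x, h, rfl⟩⟩

/-- The residues that cut out the sublattice. -/
def residueHom : (GolayPt → ℤ) →+ ZMod 2 × ZMod 8 × ({i : ZMod 23 // i ≠ 0} → ZMod 4) where
  toFun x := ((x none : ZMod 2), ((∑ i : ZMod 23, (x (some i) - x none) : ℤ) : ZMod 8),
    fun i => ((x (some i.1) - x none : ℤ) : ZMod 4))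
  map_zero' := by simp; rfl
  map_add' x y := by
    simp only [Pi.add_apply, Prod.mk_add_mk, ← Int.cast_add, ← Finset.sum_add_distrib]
    refine Prod.ext rfl (Prod.ext ?_ (funext fun i => ?_))
    · show ((_ : ℤ) : ZMod 8) = ((_ : ℤ) : ZMod 8)
      congr 1
      exact Finset.sum_congr rfl fun i _ => by ring
    · show ((_ : ℤ) : ZMod 4) = _ + _
      rw [← Int.cast_add]; congr 1; ring

theorem residueHom_ker : residueHom.ker = frameSub := by
  ext x
  rw [AddMonoidHom.mem_ker, mem_frameSub]
  have hD : (∑ i : ZMod 23, (x (some i) - x none)) = (∑ i, x i) - 24 * x none := by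
    rw [Fintype.sum_option, Finset.sum_sub_distrib, Finset.sum_const, Finset.card_univ, ZMod.card]
    simp only [nsmul_eq_mul]; push_cast; ring
  constructor
  · intro h
    have h1 : ((x none : ℤ) : ZMod 2) = 0 := congrArg Prod.fst h
    have h2 : ((∑ i : ZMod 23, (x (some i) - x none) : ℤ) : ZMod 8) = 0 :=
      congrArg (fun p => p.2.1) h
    rw [ZMod.intCast_zmod_eq_zero_iff_dvd] at h1 h2
    have hne : ∀ i : ZMod 23, i ≠ 0 → (4 : ℤ) ∣ x (some i) - x none := fun i hi => by
      have h3 : ((x (some i) - x none : ℤ) : ZMod 4) = 0 :=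
        congrFun (congrArg (fun p => p.2.2) h) ⟨i, hi⟩
      rwa [ZMod.intCast_zmod_eq_zero_iff_dvd] at h3
    have h0 : (4 : ℤ) ∣ x (some 0) - x none := by
      have hsplit := Finset.add_sum_erase Finset.univ (fun i : ZMod 23 => x (some i) - x none) (Finset.mem_univ 0)
      have hrest : (4 : ℤ) ∣ ∑ i ∈ Finset.univ.erase (0 : ZMod 23), (x (some i) - x none) :=
        Finset.dvd_sum fun i hi => hne i (Finset.ne_of_mem_erase hi)
      omega
    have hall : ∀ i, x i % 4 = x none % 4 := by
      intro i
      cases i with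
      | none => rfl
      | some i =>
        by_cases hi : i = 0
        · subst hi; omega
        · have := hne i hi; omega
    rw [hD] at h2
    refine ⟨mem_lattice_iff.2 ⟨fun i => by have := hall i; omega, fun c hc => ?_, by omega⟩, by omega, hall⟩
    rw [Finset.sum_int_mod, Finset.sum_congr rfl fun i _ => hall i, ← Finset.sum_int_mod, Finset.sum_const,
      nsmul_eq_mul]
    obtain ⟨k, hk⟩ : 4 ∣ c.card := Nat.dvd_of_mod_eq_zero (card_mod_four hc)
    rw [hk]; push_cast; rw [mul_assoc]; omega
  · rintro ⟨hL, h0, hall⟩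
    have hs := (invariants hL).2
    refine Prod.ext ?_ (Prod.ext ?_ (funext fun i => ?_))
    · show ((x none : ℤ) : ZMod 2) = 0
      rw [ZMod.intCast_zmod_eq_zero_iff_dvd]; omega
    · show ((∑ i : ZMod 23, (x (some i) - x none) : ℤ) : ZMod 8) = 0
      rw [ZMod.intCast_zmod_eq_zero_iff_dvd, hD]; omega
    · show ((x (some i.1) - x none : ℤ) : ZMod 4) = 0
      have := hall (some i.1)
      rw [ZMod.intCast_zmod_eq_zero_iff_dvd]; omega

theorem residueHom_surjective : Function.Surjective residueHom := by
  rintro ⟨a, D, f⟩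
  let d : ZMod 23 → ℤ := fun i => if h : i = 0 then
      (D.val : ℤ) - ∑ j : {i : ZMod 23 // i ≠ 0}, ((f j).val : ℤ) else ((f ⟨i, h⟩).val : ℤ)
  let x : GolayPt → ℤ := fun p => (a.val : ℤ) + p.elim 0 d
  have hd : ∀ i, x (some i) - x none = d i := fun i => by simp [x]
  refine ⟨x, Prod.ext ?_ (Prod.ext ?_ (funext fun i => ?_))⟩
  · show ((x none : ℤ) : ZMod 2) = a
    simp [x]
  · show ((∑ i : ZMod 23, (x (some i) - x none) : ℤ) : ZMod 8) = D
    rw [Finset.sum_congr rfl fun i _ => hd i]
    have e : ∑ i, d i = (D.val : ℤ) := by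
      have h' : ∑ i ∈ Finset.univ.erase (0 : ZMod 23), d i = ∑ j : {i : ZMod 23 // i ≠ 0}, d j :=
        Finset.sum_subtype _ (by simp) d
      rw [← Finset.add_sum_erase Finset.univ d (Finset.mem_univ 0), h']
      have : ∀ j : {i : ZMod 23 // i ≠ 0}, d j = ((f j).val : ℤ) := fun j => dif_neg j.2
      rw [Finset.sum_congr rfl fun j _ => this j]
      simp [d]
    rw [e]; simp
  · show ((x (some i.1) - x none : ℤ) : ZMod 4) = f i
    rw [hd]
    simp [d, i.2]

theorem frameSub_index : frameSub.index = 2 ^ 48 := by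
  rw [← residueHom_ker, AddSubgroup.index_ker,
    AddMonoidHom.range_eq_top.2 residueHom_surjective, AddSubgroup.card_top]
  simp [Nat.card_eq_fintype_card, Fintype.card_subtype_compl, ZMod.card]

theorem lattice_index : leechLattice.index = 2 ^ 36 := by
  have h := AddSubgroup.relIndex_mul_index frameSub_le
  rw [frameSub_index, show frameSub.relIndex leechLattice = _ from frameSub_relIndex] at h
  omega

end Cfsg.Lib.Leech
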