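import Mathlib
import Cfsg.Prelude.Def_Sporadic_a
import Cfsg.Agent.Lib.Leech.Index

/-!
Finitely many generators of the lattice, a finite membership test, and the automorphism `xiElt`
attached to a sextet.
-/

set_option autoImplicit false
set_option linter.unusedSimpArgs false

namespace Cfsg.Lib.Leech

open Cfsg Cfsg.Lib.Golay

local notation "CC" => supports (golayCode : Set (GolayPt → ZMod 2))

/-- A finite membership test. -/
def CheckVec (x : GolayPt → ℤ) : Prop :=
  (∀ i, x i % 2 = x none % 2) ∧ (∀ g ∈ codeGens, (∑ i ∈ toSet g, x i) % 4 = 0) ∧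
    (∑ i, x i) % 8 = (4 * x none) % 8

instance (x : GolayPt → ℤ) : Decidable (CheckVec x) := by unfold CheckVec; infer_instance

theorem toSet_mem_CC {n : ℕ} (h : inCode n = true) : toSet n ∈ CC := by
  rw [mem_supports_iff, setNat_toSet (lt_of_inCode h)]; exact h

theorem mem_of_check {x : GolayPt → ℤ} (h : CheckVec x) : x ∈ leechLattice := by
  obtain ⟨hp, hg, hs⟩ := h
  refine mem_lattice_iff.2 ⟨hp, fun c hc => ?_, hs⟩
  rw [mem_supports_iff] at hc
  suffices H : ∀ n ∈ spanL codeGens, inCode n = true ∧ (∑ i ∈ toSet n, x i) % 4 = 0 by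
    have := (H _ ((inCode_iff _).1 hc)).2
    rwa [toSet_setNat] at this
  refine spanL_induction (P := fun n => inCode n = true ∧ (∑ i ∈ toSet n, x i) % 4 = 0) codeGens ?_ ?_
  · exact ⟨inCode_zero, by simp [toSet]⟩
  · rintro g hg' a ⟨ha, hsa⟩
    have hgc : inCode g = true := List.all_eq_true.1 codeGens_inCode g hg'
    refine ⟨inCode_xor ha hgc, ?_⟩
    rw [toSet_xor]
    have hint : (∑ i ∈ toSet a ∩ toSet g, x i) % 2 = 0 := by
      rw [Finset.sum_int_mod, Finset.sum_congr rfl fun i _ => hp i, Finset.sum_const, nsmul_eq_mul]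
      have := inter_even (toSet_mem_CC ha) (toSet_mem_CC hgc)
      obtain ⟨k, hk⟩ : 2 ∣ (toSet a ∩ toSet g).card := Nat.dvd_of_mod_eq_zero this
      rw [hk]; push_cast; rw [mul_assoc]; omega
    have h1 := Finset.sum_union_inter (s₁ := toSet a) (s₂ := toSet g) (f := x)
    have h2 : ∑ i ∈ symmDiff (toSet a) (toSet g), x i + ∑ i ∈ toSet a ∩ toSet g, x i =
        ∑ i ∈ toSet a ∪ toSet g, x i := by
      rw [symmDiff_eq_sup_sdiff_inf, Finset.sup_eq_union, Finset.inf_eq_inter]
      exact Finset.sum_sdiff fun i hi => Finset.mem_union_left _ (Finset.mem_inter.1 hi).1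
    have := hg g hg'
    omega

/-- The vector `(-3, 1, ..., 1)`. -/
def uVec : GolayPt → ℤ := fun i => if i = none then -3 else 1

/-- Twice a word. -/
def twoVec (n : ℕ) : GolayPt → ℤ := fun i => if i ∈ toSet n then 2 else 0

/-- Four at the extra point and at one other point, or eight at the extra point. -/
def fourVec (p : GolayPt) : GolayPt → ℤ := fun i => (if i = p then 4 else 0) + (if i = none then 4 else 0)

/-- The generators. -/
def genSet : Set (GolayPt → ℤ) := {uVec} ∪ {x | ∃ n ∈ octBasis, twoVec n = x} ∪ Set.range fourVec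

theorem octBasis_check : octBasis.all (fun n => inCode n && (pop n == 8)) = true := by decide +kernel

set_option maxRecDepth 100000 in
theorem codeGens_octBasis : codeGens.all (fun g => (spanL octBasis).contains g) = true := by decide +kernel

theorem check_uVec : CheckVec uVec := by decide +kernel
theorem check_twoVec : ∀ n ∈ octBasis, CheckVec (twoVec n) := by decide +kernel
theorem check_fourVec : ∀ p, CheckVec (fourVec p) := by decide +kernel

theorem genSet_le : AddSubgroup.closure genSet ≤ leechLattice := by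
  rw [AddSubgroup.closure_le]
  rintro x ((rfl | ⟨n, hn, rfl⟩) | ⟨p, rfl⟩)
  exacts [mem_of_check check_uVec, mem_of_check (check_twoVec n hn), mem_of_check (check_fourVec p)]

theorem word_mod_four (n : ℕ) (hn : n ∈ spanL codeGens) :
    ∃ h ∈ AddSubgroup.closure genSet, ∀ i, h i % 4 = twoVec n i % 4 := by
  have hxor : ∀ a b, (∃ h ∈ AddSubgroup.closure genSet, ∀ i, h i % 4 = twoVec a i % 4) →
      (∃ h ∈ AddSubgroup.closure genSet, ∀ i, h i % 4 = twoVec b i % 4) →
      ∃ h ∈ AddSubgroup.closure genSet, ∀ i, h i % 4 = twoVec (a ^^^ b) i % 4 := by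
    rintro a b ⟨h, hh, ha⟩ ⟨k, hk, hb⟩
    refine ⟨h + k, add_mem hh hk, fun i => ?_⟩
    have h1 := ha i
    have h2 := hb i
    simp only [twoVec, toSet_xor, Finset.mem_symmDiff, Pi.add_apply] at *
    by_cases A : i ∈ toSet a <;> by_cases B : i ∈ toSet b <;> simp [A, B] at * <;> omega
  have h0 : ∃ h ∈ AddSubgroup.closure genSet, ∀ i, h i % 4 = twoVec 0 i % 4 :=
    ⟨0, zero_mem _, fun i => by simp [twoVec, toSet]⟩
  refine spanL_induction (P := fun n => ∃ h ∈ AddSubgroup.closure genSet, ∀ i, h i % 4 = twoVec n i % 4)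
    codeGens h0 (fun g hg a ha => hxor a g ha ?_) n hn
  have hg' : g ∈ spanL octBasis := by
    simpa [List.contains_iff_mem] using List.all_eq_true.1 codeGens_octBasis g hg
  exact spanL_induction (P := fun n => ∃ h ∈ AddSubgroup.closure genSet, ∀ i, h i % 4 = twoVec n i % 4)
    octBasis h0 (fun o ho b hb => hxor b o hb
      ⟨twoVec o, AddSubgroup.subset_closure (Or.inl (Or.inr ⟨o, ho, rfl⟩)), fun _ => rfl⟩) g hg'

/-- The generators generate. -/
theorem closure_genSet : AddSubgroup.closure genSet = leechLattice := by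
  refine le_antisymm genSet_le fun x hx => ?_
  have hu : uVec ∈ AddSubgroup.closure genSet := AddSubgroup.subset_closure (Or.inl (Or.inl rfl))
  suffices H : ∀ y ∈ leechLattice, y none % 2 = 0 → y ∈ AddSubgroup.closure genSet by
    by_cases h0 : x none % 2 = 0
    · exact H x hx h0
    · have h1 := H (x - uVec) (sub_mem hx (mem_of_check check_uVec)) (by simp [uVec]; omega)
      simpa using add_mem h1 hu
  intro y hy h0
  have hp := parity hy
  obtain ⟨z, hz⟩ := exists_eq_const_mul (x := y) (d := 2) fun i => by rw [hp i, h0]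
  obtain ⟨-, hS, -⟩ := even_norm hy hz
  set n := setNat (Finset.univ.filter fun i => z i % 2 ≠ 0) with hn
  obtain ⟨h, hh, hmod⟩ := word_mod_four n ((inCode_iff n).1 ((mem_supports_iff _).1 hS))
  have hmem : y - h ∈ leechLattice := sub_mem hy (genSet_le hh)
  obtain ⟨w, hw⟩ := exists_eq_const_mul (x := y - h) (d := 4) fun i => by
    have h1 := hmod i
    have h2 := hz i
    simp only [twoVec, hn, toSet_setNat, Finset.mem_filter, Finset.mem_univ, true_and] at h1
    simp only [Pi.sub_apply]
    by_cases A : z i % 2 = 0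
    · rw [if_neg (not_not.2 A)] at h1; omega
    · rw [if_pos A] at h1; omega
  have hsum := (invariants hmem).2
  rw [Finset.sum_congr rfl fun i _ => hw i, ← Finset.mul_sum, hw none] at hsum
  obtain ⟨q, hq⟩ : (2 : ℤ) ∣ ∑ i, w i := Int.dvd_of_emod_eq_zero (by omega)
  have e : y - h = (∑ p, w p • fourVec p) - q • fourVec none := by
    funext i
    rw [hw i]
    simp only [Pi.sub_apply, Finset.sum_apply, Pi.smul_apply, smul_eq_mul, fourVec, mul_add,
      Finset.sum_add_distrib, mul_ite, mul_zero, Finset.sum_ite_eq, Finset.mem_univ, if_true]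
    by_cases hi : i = none
    · subst hi
      simp only [if_true, ← Finset.sum_mul, hq]
      ring
    · simp only [if_neg hi, Finset.sum_const_zero]
      ring
  have hf : ∀ p, fourVec p ∈ AddSubgroup.closure genSet :=
    fun p => AddSubgroup.subset_closure (Or.inr ⟨p, rfl⟩)
  have h2 : y - h ∈ AddSubgroup.closure genSet := by
    rw [e]; exact sub_mem (sum_mem fun p _ => zsmul_mem (hf p) _) (zsmul_mem (hf none) _)
  simpa using add_mem h2 hh

/-- Labels of the six tetrads of a sextet. -/
def tet (p : GolayPt) : ℕ :=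
  [0, 0, 0, 0, 1, 5, 4, 1, 2, 4, 1, 4, 1, 3, 5, 2, 2, 5, 3, 2, 3, 3, 4, 5].getD (idx p) 0

/-- The tetrad sum. -/
def tetSum (x : GolayPt → ℤ) (i : GolayPt) : ℤ := ∑ j ∈ Finset.univ.filter (fun j => tet j = tet i), x j

/-- Halved tetrad sum minus the coordinate, negated on one tetrad. -/
def xiFun (x : GolayPt → ℤ) : GolayPt → ℤ :=
  fun i => if tet i = 0 then x i - tetSum x i / 2 else tetSum x i / 2 - x i

theorem tet_card : ∀ i, (Finset.univ.filter fun j => tet j = tet i).card = 4 := by decide +kernel

theorem tetSum_even {x : GolayPt → ℤ} (hx : x ∈ leechLattice) (i : GolayPt) : tetSum x i % 2 = 0 := by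
  rw [tetSum, Finset.sum_int_mod, Finset.sum_congr rfl fun j _ => parity hx j, Finset.sum_const, tet_card,
    nsmul_eq_mul]
  push_cast; omega

theorem xi_add {x y : GolayPt → ℤ} (hx : x ∈ leechLattice) (hy : y ∈ leechLattice) :
    xiFun (x + y) = xiFun x + xiFun y := by
  funext i
  have := tetSum_even hx i
  have := tetSum_even hy i
  have e : tetSum (x + y) i = tetSum x i + tetSum y i := Finset.sum_add_distrib
  simp only [xiFun, Pi.add_apply, e]
  split <;> omega

theorem xi_check : CheckVec (xiFun uVec) ∧ (∀ n ∈ octBasis, CheckVec (xiFun (twoVec n))) ∧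
    ∀ p, CheckVec (xiFun (fourVec p)) := by decide +kernel

theorem xi_zero : xiFun 0 = 0 := by funext i; simp [xiFun, tetSum]

theorem xi_mem {x : GolayPt → ℤ} (hx : x ∈ leechLattice) : xiFun x ∈ leechLattice := by
  rw [← closure_genSet] at hx
  induction hx using AddSubgroup.closure_induction with
  | mem y hy =>
    rcases hy with (rfl | ⟨n, hn, rfl⟩) | ⟨p, rfl⟩
    exacts [mem_of_check xi_check.1, mem_of_check (xi_check.2.1 n hn), mem_of_check (xi_check.2.2 p)]
  | zero => rw [xi_zero]; exact zero_mem _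
  | add a b ha hb iha ihb => rw [xi_add (genSet_le ha) (genSet_le hb)]; exact add_mem iha ihb
  | neg a ha iha =>
    have h := xi_add (genSet_le ha) (neg_mem (genSet_le ha))
    rw [add_neg_cancel, xi_zero] at h
    rw [← neg_eq_of_add_eq_zero_right h.symm]
    exact neg_mem iha

theorem tetSum_xi {x : GolayPt → ℤ} (hx : x ∈ leechLattice) (i : GolayPt) :
    tetSum (xiFun x) i = if tet i = 0 then -tetSum x i else tetSum x i := by
  have h := tetSum_even hx i
  have e : ∀ j ∈ Finset.univ.filter (fun j => tet j = tet i),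
      xiFun x j = if tet i = 0 then x j - tetSum x i / 2 else tetSum x i / 2 - x j := by
    intro j hj
    have hj' := (Finset.mem_filter.1 hj).2
    simp only [xiFun, tetSum, hj']
  rw [tetSum, Finset.sum_congr rfl e]
  split
  · rw [Finset.sum_sub_distrib, Finset.sum_const, tet_card, nsmul_eq_mul, ← tetSum]
    push_cast; omega
  · rw [Finset.sum_sub_distrib, Finset.sum_const, tet_card, nsmul_eq_mul, ← tetSum]
    push_cast; omega

theorem xi_xi {x : GolayPt → ℤ} (hx : x ∈ leechLattice) : xiFun (xiFun x) = x := by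
  funext i
  have h := tetSum_even hx i
  by_cases hi : tet i = 0
  · simp only [xiFun, tetSum_xi hx, if_pos hi]; omega
  · simp only [xiFun, tetSum_xi hx, if_neg hi]; omega

theorem xi_norm {x : GolayPt → ℤ} (hx : x ∈ leechLattice) : sqNorm (xiFun x) = sqNorm x := by
  have hmaps : ∀ i ∈ (Finset.univ : Finset GolayPt), tet i ∈ Finset.range 6 := by decide +kernel
  unfold sqNorm
  rw [← Finset.sum_fiberwise_of_maps_to hmaps, ← Finset.sum_fiberwise_of_maps_to hmaps]
  refine Finset.sum_congr rfl fun k hk => ?_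
  obtain ⟨p, hp⟩ : ∃ p, tet p = k := by
    revert hk; revert k; decide +kernel
  subst hp
  obtain ⟨q, hq⟩ : (2 : ℤ) ∣ tetSum x p := Int.dvd_of_emod_eq_zero (tetSum_even hx p)
  have e : ∀ j ∈ Finset.univ.filter (fun j => tet j = tet p), xiFun x j ^ 2 = q ^ 2 - 2 * q * x j + x j ^ 2 := by
    intro j hj
    have hj' := (Finset.mem_filter.1 hj).2
    have hq' : tetSum x j / 2 = q := by
      have : tetSum x j = tetSum x p := by simp only [tetSum, hj']
      omega
    simp only [xiFun, hq']
    split <;> ring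
  rw [Finset.sum_congr rfl e, Finset.sum_add_distrib, Finset.sum_sub_distrib, Finset.sum_const, tet_card,
    ← Finset.mul_sum, ← tetSum, hq, nsmul_eq_mul]
  push_cast; ring

/-- The sextet automorphism. -/
def xiElt : Co0 :=
  ⟨{ toFun := fun x => ⟨xiFun x, xi_mem x.2⟩
     invFun := fun x => ⟨xiFun x, xi_mem x.2⟩
     left_inv := fun x => Subtype.ext (xi_xi x.2)
     right_inv := fun x => Subtype.ext (xi_xi x.2) },
   fun v w => Subtype.ext (xi_add v.2 w.2),
   fun v => xi_norm v.2⟩

theorem xiElt_apply (x : leechLattice) :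
    ((xiElt • x : leechLattice) : GolayPt → ℤ) = xiFun (x : GolayPt → ℤ) := rfl

end Cfsg.Lib.Leech
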