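import Mathlib
import Cfsg.Prelude.Def_Sporadic_a
import Cfsg.Prelude.Def_SporadicCombinatorics
import Cfsg.Agent.Lib.Leech.Gens
import Cfsg.Agent.Lib.Leech.CountBase
import Cfsg.Agent.Lib.Golay.Count

/-!
The monomial subgroup of the lattice automorphisms, the centre, and the stabiliser of the standard
cross.
-/

set_option autoImplicit false
set_option linter.unusedSimpArgs false

namespace Cfsg.Lib.Leech

open Cfsg Cfsg.Lib.Golay
open scoped Pointwise

local notation "CC" => supports (golayCode : Set (GolayPt → ZMod 2))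

theorem co0_ext {g h : Co0}
    (H : ∀ v : leechLattice, ((g • v : leechLattice) : GolayPt → ℤ) = ((h • v : leechLattice) : GolayPt → ℤ)) :
    g = h :=
  Subtype.ext (Equiv.ext fun v => Subtype.ext (H v))

theorem co0_add (g : Co0) (v w : leechLattice) : g • (v + w) = g • v + g • w := g.2.1 v w

theorem co0_norm (g : Co0) (v : leechLattice) :
    sqNorm ((g • v : leechLattice) : GolayPt → ℤ) = sqNorm (v : GolayPt → ℤ) := g.2.2 v

/-- An automorphism as an additive map. -/
def co0Hom (g : Co0) : leechLattice →+ leechLattice := AddMonoidHom.mk' (fun v => g • v) (co0_add g)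

theorem co0_neg (g : Co0) (v : leechLattice) : g • (-v) = -(g • v) := map_neg (co0Hom g) v

theorem co0_zsmul (g : Co0) (n : ℤ) (v : leechLattice) : g • (n • v) = n • (g • v) :=
  map_zsmul (co0Hom g) n v

theorem co0_sub (g : Co0) (v w : leechLattice) : g • (v - w) = g • v - g • w := map_sub (co0Hom g) v w

theorem co0_sum (g : Co0) {ι : Type*} (s : Finset ι) (f : ι → leechLattice) :
    g • (∑ i ∈ s, f i) = ∑ i ∈ s, g • f i := map_sum (co0Hom g) f s

theorem sqNorm_add (x y : GolayPt → ℤ) : sqNorm (x + y) = sqNorm x + 2 * dotInt x y + sqNorm y := by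
  unfold sqNorm dotInt
  rw [Finset.mul_sum, ← Finset.sum_add_distrib, ← Finset.sum_add_distrib]
  exact Finset.sum_congr rfl fun i _ => by simp only [Pi.add_apply]; ring

theorem co0_dot (g : Co0) (v w : leechLattice) :
    dotInt ((g • v : leechLattice) : GolayPt → ℤ) ((g • w : leechLattice) : GolayPt → ℤ) =
      dotInt (v : GolayPt → ℤ) (w : GolayPt → ℤ) := by
  have h := co0_norm g (v + w)
  rw [co0_add, AddSubgroup.coe_add, AddSubgroup.coe_add, sqNorm_add, sqNorm_add, co0_norm, co0_norm] at h
  omega

/-- Negation. -/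
def negElt : Co0 := flipElt Finset.univ univ_mem

theorem negElt_apply (v : leechLattice) : negElt • v = -v :=
  Subtype.ext (funext fun i => by
    rw [negElt, flipElt_apply, if_pos (Finset.mem_univ i)]; rfl)

theorem eightFun_mem (p : GolayPt) : (Pi.single p (8 : ℤ) : GolayPt → ℤ) ∈ leechLattice := by
  have h : ∀ p : GolayPt, CheckVec (Pi.single p (8 : ℤ)) := by decide +kernel
  exact mem_of_check (h p)

/-- Eight times a coordinate vector. -/
def eight (p : GolayPt) : leechLattice := ⟨Pi.single p 8, eightFun_mem p⟩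

theorem eight_apply (p i : GolayPt) : ((eight p : leechLattice) : GolayPt → ℤ) i = if i = p then 8 else 0 := by
  simp [eight, Pi.single_apply]

theorem eight_norm (p : GolayPt) : sqNorm ((eight p : leechLattice) : GolayPt → ℤ) = 64 := by
  simp [sqNorm, eight_apply]

theorem eight_decomp (v : leechLattice) :
    (8 : ℤ) • v = ∑ i, ((v : GolayPt → ℤ) i) • eight i := by
  refine Subtype.ext (funext fun j => ?_)
  simp only [AddSubgroup.coe_zsmul, AddSubgroup.val_finsetSum, Finset.sum_apply, Pi.smul_apply, eight_apply,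
    smul_eq_mul, mul_ite, mul_zero, Finset.sum_ite_eq, Finset.mem_univ, if_true]
  ring

/-- An automorphism is determined by its values on the scaled coordinate vectors. -/
theorem co0_ext_eight {g h : Co0} (H : ∀ i, g • eight i = h • eight i) : g = h := by
  refine co0_ext fun v => funext fun j => ?_
  have e : g • ((8 : ℤ) • v) = h • ((8 : ℤ) • v) := by
    rw [eight_decomp, co0_sum, co0_sum]
    exact Finset.sum_congr rfl fun i _ => by rw [co0_zsmul, co0_zsmul, H i]
  rw [co0_zsmul, co0_zsmul] at e
  have e' := congrFun (congrArg Subtype.val e) j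
  simp only [AddSubgroup.coe_zsmul, Pi.smul_apply, smul_eq_mul] at e'
  omega

theorem negElt_ne_one : negElt ≠ 1 := by
  intro h
  have := congrFun (congrArg (fun g : Co0 => ((g • eight none : leechLattice) : GolayPt → ℤ)) h) none
  simp only [negElt_apply, one_smul, AddSubgroup.coe_neg, Pi.neg_apply, eight_apply, if_true] at this
  omega

theorem negElt_central (g : Co0) : negElt * g = g * negElt :=
  co0_ext fun v => by rw [mul_smul, mul_smul, negElt_apply, negElt_apply, co0_neg]

theorem eight_sign_const {g : Co0} {ε : ℤ} (hε : ε = 1 ∨ ε = -1)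
    (h : ∀ i, g • eight i = ε • eight i) : g = 1 ∨ g = negElt := by
  rcases hε with rfl | rfl
  · exact Or.inl (co0_ext_eight fun i => by rw [h, one_zsmul, one_smul])
  · exact Or.inr (co0_ext_eight fun i => by rw [h, negElt_apply, neg_one_zsmul])

set_option maxRecDepth 100000 in
theorem separated_check : ∀ i < 24, ∀ j < 24, i ≠ j →
    (spanL codeGens).any (fun n => n.testBit j && !n.testBit i) = true := by decide +kernel

theorem exists_word_sep {a j : GolayPt} (h : j ≠ a) : ∃ c ∈ CC, j ∈ c ∧ a ∉ c := by
  have := separated_check _ (idx_lt a) _ (idx_lt j) (fun e => h (idx_inj e).symm)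
  obtain ⟨n, hn, hb⟩ := List.any_eq_true.1 this
  simp only [Bool.and_eq_true, Bool.not_eq_true'] at hb
  exact ⟨toSet n, toSet_mem_CC ((inCode_iff n).2 hn), by rw [mem_toSet]; exact hb.1,
    by rw [mem_toSet, hb.2]; exact Bool.false_ne_true⟩

theorem exists_perm (a b : GolayPt) : ∃ σ ∈ M24, σ a = b := by
  haveI := five_transitive
  have h : MulAction.IsMultiplyPretransitive M24 GolayPt 1 :=
    MulAction.isMultiplyPretransitive_of_le (n := 5) (by norm_num) (by simp [Cardinal.mk_fintype, ZMod.card])
  rw [MulAction.is_one_pretransitive_iff] at h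
  obtain ⟨σ, hσ⟩ := MulAction.exists_smul_eq M24 a b
  exact ⟨σ, σ.2, hσ⟩

theorem permElt_eight (σ : Equiv.Perm GolayPt) (hσ : σ ∈ M24) (a : GolayPt) :
    permElt σ hσ • eight a = eight (σ a) := by
  refine Subtype.ext (funext fun i => ?_)
  rw [permElt_apply, eight_apply, eight_apply, Equiv.Perm.inv_def]
  simp only [Equiv.symm_apply_eq]

theorem center_le {g : Co0} (hg : g ∈ Subgroup.center Co0) : g = 1 ∨ g = negElt := by
  have hc : ∀ (h : Co0) (v : leechLattice), g • (h • v) = h • (g • v) := fun h v => by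
    rw [← mul_smul, ← mul_smul, Subgroup.mem_center_iff.1 hg h]
  have hsupp : ∀ a j, j ≠ a → ((g • eight a : leechLattice) : GolayPt → ℤ) j = 0 := by
    intro a j hja
    obtain ⟨c, hc', hj, ha⟩ := exists_word_sep hja
    have hfix : flipElt c hc' • eight a = eight a := Subtype.ext (funext fun i => by
      rw [flipElt_apply, eight_apply]
      by_cases hi : i = a
      · subst hi; rw [if_neg ha]
      · simp [hi])
    have h := congrFun (congrArg Subtype.val (hc (flipElt c hc') (eight a))) j
    rw [hfix, flipElt_apply, if_pos hj] at h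
    omega
  have hval : ∀ a, g • eight a = eight a ∨ g • eight a = -eight a := by
    intro a
    have hn := co0_norm g (eight a)
    rw [eight_norm, sqNorm, Finset.sum_eq_single a (fun j _ hj => by rw [hsupp a j hj]; rfl) (by simp)] at hn
    have : ((g • eight a : leechLattice) : GolayPt → ℤ) a = 8 ∨ ((g • eight a : leechLattice) : GolayPt → ℤ) a = -8 := by
      rw [← sq_eq_sq_iff_eq_or_eq_neg]; rw [hn]; norm_num
    rcases this with h | h <;> [left; right] <;> refine Subtype.ext (funext fun j => ?_) <;>
      by_cases hj : j = a <;>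
      simp only [AddSubgroup.coe_neg, Pi.neg_apply, eight_apply, hj, if_true, if_false, h, hsupp a j, ne_eq,
        not_false_iff, neg_zero]
  obtain ⟨ε, hε, h0⟩ : ∃ ε : ℤ, (ε = 1 ∨ ε = -1) ∧ g • eight none = ε • eight none := by
    rcases hval none with h | h
    · exact ⟨1, Or.inl rfl, by rw [h, one_zsmul]⟩
    · exact ⟨-1, Or.inr rfl, by rw [h, neg_one_zsmul]⟩
  refine eight_sign_const hε fun i => ?_
  obtain ⟨σ, hσ, rfl⟩ := exists_perm none i
  rw [← permElt_eight σ hσ none, hc, h0, co0_zsmul]

theorem center_eq : (Subgroup.center Co0 : Set Co0) = {1, negElt} := by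
  ext g
  refine ⟨fun h => center_le h, ?_⟩
  rintro (rfl | rfl)
  · exact Subgroup.one_mem _
  · exact Subgroup.mem_center_iff.2 fun h => (negElt_central h).symm

theorem card_center : Nat.card (Subgroup.center Co0) = 2 := by
  rw [← SetLike.coe_sort_coe, center_eq, Nat.card_coe_set_eq, Set.ncard_pair negElt_ne_one.symm]

/-- `4 e_a + 4 e_b`. -/
theorem plus_check : ∀ a b : GolayPt, CheckVec (fun i => (if i = a then 4 else 0) + (if i = b then 4 else 0)) := by
  decide +kernel

theorem minus_check : ∀ a b : GolayPt, CheckVec (fun i => (if i = a then 4 else 0) - (if i = b then 4 else 0)) := by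
  decide +kernel

/-- `4 e_a + 4 e_b` in the lattice. -/
def plusVec (a b : GolayPt) : leechLattice :=
  ⟨fun i => (if i = a then 4 else 0) + (if i = b then 4 else 0), mem_of_check (plus_check a b)⟩

/-- `4 e_a - 4 e_b` in the lattice. -/
def minusVec (a b : GolayPt) : leechLattice :=
  ⟨fun i => (if i = a then 4 else 0) - (if i = b then 4 else 0), mem_of_check (minus_check a b)⟩

theorem plus_add_minus (a b : GolayPt) : plusVec a b + minusVec a b = eight a :=
  Subtype.ext (funext fun i => by
    simp only [plusVec, minusVec, AddSubgroup.coe_add, Pi.add_apply, eight_apply]; split <;> ring)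

theorem plus_sub_minus (a b : GolayPt) : plusVec a b - minusVec a b = eight b :=
  Subtype.ext (funext fun i => by
    simp only [plusVec, minusVec, AddSubgroup.coe_sub, Pi.sub_apply, eight_apply]; split <;> split <;> ring)

theorem plusVec_norm : ∀ a b : GolayPt, a ≠ b → sqNorm ((plusVec a b : leechLattice) : GolayPt → ℤ) = 32 := by
  show ∀ a b : GolayPt, a ≠ b →
    sqNorm (fun i => (if i = a then (4 : ℤ) else 0) + (if i = b then 4 else 0)) = 32
  decide +kernel

theorem minusVec_norm : ∀ a b : GolayPt, a ≠ b → sqNorm ((minusVec a b : leechLattice) : GolayPt → ℤ) = 32 := by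
  show ∀ a b : GolayPt, a ≠ b →
    sqNorm (fun i => (if i = a then (4 : ℤ) else 0) - (if i = b then 4 else 0)) = 32
  decide +kernel

theorem kernel_mod_two {g : Co0} (hg : ∀ v : leechLattice, ∃ w : leechLattice,
    ((g • v : leechLattice) : GolayPt → ℤ) - (v : GolayPt → ℤ) = 2 • (w : GolayPt → ℤ)) :
    g ∈ Subgroup.center Co0 := by
  have hpm : ∀ v : leechLattice, sqNorm (v : GolayPt → ℤ) = 32 → ∃ ε : ℤ, (ε = 1 ∨ ε = -1) ∧ g • v = ε • v := by
    intro v hv
    by_cases h : g • v = v
    · exact ⟨1, Or.inl rfl, by rw [h, one_zsmul]⟩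
    obtain ⟨w, hw⟩ := hg v
    rcases congr_cases (g • v).2 (fun e => h (Subtype.ext e)) (by rw [co0_norm, hv]; omega) (by rw [hv]; omega)
      ⟨w, w.2, hw⟩ with h' | h'
    · exact ⟨-1, Or.inr rfl, Subtype.ext (by rw [h', neg_one_zsmul, AddSubgroup.coe_neg])⟩
    · rw [co0_norm, hv] at h'; omega
  have pair : ∀ a b c : GolayPt, a ≠ b → a ≠ c → b ≠ c →
      ∃ ε : ℤ, (ε = 1 ∨ ε = -1) ∧ g • eight a = ε • eight a ∧ g • eight b = ε • eight b := by
    intro a b c hab hac hbc
    obtain ⟨e1, he1, h1⟩ := hpm _ (plusVec_norm a b hab)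
    obtain ⟨e2, he2, h2⟩ := hpm _ (minusVec_norm a b hab)
    obtain ⟨f1, -, k1⟩ := hpm _ (plusVec_norm a c hac)
    obtain ⟨f2, -, k2⟩ := hpm _ (minusVec_norm a c hac)
    have ha1 : g • eight a = e1 • plusVec a b + e2 • minusVec a b := by
      rw [← plus_add_minus a b, co0_add, h1, h2]
    have ha2 : g • eight a = f1 • plusVec a c + f2 • minusVec a c := by
      rw [← plus_add_minus a c, co0_add, k1, k2]
    have h := congrFun (congrArg Subtype.val (ha1.symm.trans ha2)) b
    simp [plusVec, minusVec, hab.symm, hbc] at h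
    obtain rfl : e1 = e2 := by omega
    refine ⟨e1, he1, ?_, ?_⟩
    · rw [ha1, ← zsmul_add, plus_add_minus]
    · rw [← plus_sub_minus a b, co0_sub, h1, h2, zsmul_sub]
  have hex : ∀ i : GolayPt, i ≠ none → ∃ c : GolayPt, none ≠ c ∧ i ≠ c := by decide +kernel
  obtain ⟨ε, hε, h0, -⟩ := pair none (some 0) (some 1) (by simp) (by simp) (by decide)
  have hall : ∀ i, g • eight i = ε • eight i := by
    intro i
    by_cases hi : i = none
    · rw [hi]; exact h0
    obtain ⟨c, hc, hic⟩ := hex i hi
    obtain ⟨δ, -, h1, h2⟩ := pair none i c (Ne.symm hi) hc hic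
    have e := congrFun (congrArg Subtype.val (h1.symm.trans h0)) none
    simp [eight_apply] at e
    rw [h2, e]
  rcases eight_sign_const hε hall with rfl | rfl
  · exact Subgroup.one_mem _
  · exact Subgroup.mem_center_iff.2 fun h => (negElt_central h).symm

/-- A fixed point free involution of `M24` exchanging a dodecad with its complement. -/
def swapList : List ℕ :=
  [10, 12, 16, 23, 19, 7, 11, 5, 9, 8, 0, 6, 1, 14, 13, 18, 2, 22, 15, 4, 21, 20, 17, 3]

theorem swap_mem : permOf swapList ∈ M24 := permOf_mem_M24 (by decide +kernel)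

theorem swapDod_mem : toSet 15311203 ∈ CC := toSet_mem_CC (by decide +kernel)

theorem swap_check : ∀ i : GolayPt,
    (mapFun swapList (mapFun swapList i) = i) ∧ (i ∈ toSet 15311203 ↔ mapFun swapList i ∉ toSet 15311203) := by
  decide +kernel

/-- An automorphism whose square is negation. -/
noncomputable def rootElt : Co0 := flipElt (toSet 15311203) swapDod_mem * permElt (permOf swapList) swap_mem

theorem rootElt_sq : rootElt * rootElt = negElt := by
  have hl : isPermList swapList = true := by decide +kernel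
  have hinv : ∀ i, (permOf swapList)⁻¹ i = mapFun swapList i := fun i => by
    rw [Equiv.Perm.inv_def, Equiv.symm_apply_eq, permOf_apply hl]
    exact (swap_check i).1.symm
  refine co0_ext fun v => funext fun i => ?_
  rw [negElt_apply, AddSubgroup.coe_neg, Pi.neg_apply, mul_smul]
  simp only [rootElt, mul_smul, flipElt_apply, permElt_apply, hinv]
  obtain ⟨h1, h2⟩ := swap_check i
  by_cases hi : i ∈ toSet 15311203
  · rw [if_pos hi, if_neg (h2.1 hi), h1]
  · rw [if_neg hi, if_pos (by by_contra h; exact hi (h2.2 h)), h1]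

theorem neg_no_complement (K : Subgroup Co0) : ¬ (Subgroup.zpowers negElt).IsComplement' K := by
  intro hK
  have hsq : negElt * negElt = 1 := co0_ext fun v => by
    rw [mul_smul, negElt_apply, negElt_apply, neg_neg, one_smul]
  obtain ⟨⟨⟨a, ha⟩, ⟨k, hk⟩⟩, hak⟩ := hK.2 rootElt
  change a * k = rootElt at hak
  have hcen : negElt ∈ Subgroup.center Co0 := Subgroup.mem_center_iff.2 fun h => (negElt_central h).symm
  have hacen : a ∈ Subgroup.center Co0 := (Subgroup.zpowers_le.2 hcen) ha
  have ha2 : a * a = 1 := by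
    obtain ⟨n, rfl⟩ := Subgroup.mem_zpowers_iff.1 ha
    rw [← zpow_add, ← two_mul, zpow_mul, zpow_two, hsq, one_zpow]
  have hnK : negElt ∈ K := by
    rw [← rootElt_sq, ← hak, show a * k * (a * k) = (a * a) * (k * k) by
      rw [mul_assoc, ← mul_assoc k a k, Subgroup.mem_center_iff.1 hacen k]; group, ha2, one_mul]
    exact K.mul_mem hk hk
  have := Subgroup.disjoint_def.1 hK.disjoint (Subgroup.mem_zpowers negElt) hnK
  exact negElt_ne_one this

theorem cross_stab_monomial (g : Co0)
    (hg : ∀ v : leechLattice, (v : GolayPt → ℤ) ∈ stdCross → ((g • v : leechLattice) : GolayPt → ℤ) ∈ stdCross) :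
    ∃ σ ∈ M24, ∃ c ∈ CC, ∀ v : leechLattice,
      ((g • v : leechLattice) : GolayPt → ℤ) = signedPerm σ c (v : GolayPt → ℤ) := by
  have hx : ∀ i, ∃ (j : GolayPt) (s : ℤ), (s = 1 ∨ s = -1) ∧ g • eight i = s • eight j := by
    intro i
    obtain ⟨j, t, ht, e⟩ := hg (eight i) ⟨i, 8, Or.inl rfl, rfl⟩
    refine ⟨j, t / 8, by omega, Subtype.ext ?_⟩
    rw [e]
    funext k
    simp only [AddSubgroup.coe_zsmul, Pi.smul_apply, smul_eq_mul, eight_apply, Pi.single_apply]
    split <;> omega
  choose π s hs hπ using hx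
  have hinj : Function.Injective π := by
    intro i i' e
    by_contra hne
    have hd := co0_dot g (eight i) (eight i')
    have h0 : dotInt ((eight i : leechLattice) : GolayPt → ℤ) (eight i' : leechLattice) = 0 := by
      refine Finset.sum_eq_zero fun k _ => ?_
      rw [eight_apply, eight_apply]
      by_cases hk : k = i
      · subst hk; simp [hne]
      · simp [hk]
    rw [h0, hπ, hπ, e] at hd
    simp [dotInt, eight_apply] at hd
    rcases hd with h | h
    · rcases hs i with h' | h' <;> omega
    · rcases hs i' with h' | h' <;> omega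
  let σ : Equiv.Perm GolayPt := Equiv.ofBijective π (Finite.injective_iff_bijective.1 hinj)
  have hform : ∀ (v : leechLattice) i,
      ((g • v : leechLattice) : GolayPt → ℤ) (π i) = s i * (v : GolayPt → ℤ) i := by
    intro v i
    have e : g • ((8 : ℤ) • v) = ∑ k, ((v : GolayPt → ℤ) k) • (s k • eight (π k)) := by
      rw [eight_decomp, co0_sum]
      exact Finset.sum_congr rfl fun k _ => by rw [co0_zsmul, hπ]
    rw [co0_zsmul] at e
    have e' := congrFun (congrArg Subtype.val e) (π i)
    simp only [AddSubgroup.coe_zsmul, AddSubgroup.val_finsetSum, Finset.sum_apply, Pi.smul_apply, smul_eq_mul,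
      eight_apply] at e'
    rw [Finset.sum_eq_single i (fun k _ hk => by rw [if_neg (fun h => hk (hinj h).symm)]; ring) (by simp),
      if_pos rfl] at e'
    have : (v : GolayPt → ℤ) i * (s i * 8) = 8 * (s i * (v : GolayPt → ℤ) i) := by ring
    omega
  set c := Finset.univ.filter fun j => s (σ.symm j) = -1 with hc
  have happ : ∀ v : leechLattice, ((g • v : leechLattice) : GolayPt → ℤ) = signedPerm σ c (v : GolayPt → ℤ) := by
    intro v
    funext j
    obtain ⟨i, rfl⟩ := σ.surjective j
    have h := hform v i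
    simp only [signedPerm, hc, Finset.mem_filter, Finset.mem_univ, true_and, Equiv.symm_apply_apply]
    rcases hs i with h' | h' <;> rw [h'] at h ⊢
    · rw [if_neg (by omega)]; exact h.trans (one_mul _)
    · rw [if_pos rfl]; exact h.trans (neg_one_mul _)
  refine ⟨σ, ?_, c, ?_, happ⟩
  · refine (mem_M24_iff' σ).2 fun S hS => ?_
    let v : leechLattice := ⟨_, two_indicator_mem hS⟩
    have he : ∀ i, ((g • v : leechLattice) : GolayPt → ℤ) i =
        2 * (if σ.symm i ∈ S then (if i ∈ c then -1 else 1) else 0) := by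
      intro i
      rw [happ v]
      simp only [signedPerm, v]
      by_cases h1 : σ.symm i ∈ S <;> by_cases h2 : i ∈ c <;> simp [h1, h2]
    obtain ⟨-, hmem, -⟩ := even_norm (g • v).2 he
    convert hmem using 1
    ext i
    simp only [Finset.mem_smul_finset, Equiv.Perm.smul_def, Finset.mem_filter, Finset.mem_univ, true_and]
    constructor
    · rintro ⟨k, hk, rfl⟩
      rw [Equiv.symm_apply_apply, if_pos hk]
      split <;> decide
    · intro h
      refine ⟨σ.symm i, ?_, σ.apply_symm_apply i⟩
      by_contra hk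
      rw [if_neg hk] at h
      exact h rfl
  · let u : leechLattice := ⟨_, minusThree_mem (none : GolayPt)⟩
    have hu := (g • u).2
    rw [happ u] at hu
    obtain ⟨m, S, hS, hall, -⟩ := (class_iff' _).1 hu
    obtain ⟨-, rfl⟩ := unique' m S c hall
    exact hS
where
  mem_M24_iff' (σ : Equiv.Perm GolayPt) :
      σ ∈ M24 ↔ ∀ S ∈ CC, σ • S ∈ CC := MulAction.mem_stabilizer_set' (Set.toFinite _)
  class_iff' (y : GolayPt → ℤ) : y ∈ leechLattice ↔ ∃ (m : Bool) (S : Finset GolayPt), S ∈ CC ∧
      (∀ i, y i % 4 = resVal m (decide (i ∈ S))) ∧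
      (∑ i, (y i - resVal m (decide (i ∈ S))) / 4) % 2 = (if m then 1 else 0) := class_iff y
  unique' (m : Bool) (S c : Finset GolayPt) {σ : Equiv.Perm GolayPt}
      (hall : ∀ i, signedPerm σ c (fun i => if i = none then (-3 : ℤ) else 1) i % 4 = resVal m (decide (i ∈ S))) :
      m = true ∧ S = c := by
    refine class_unique (x := signedPerm σ c (fun i => if i = none then (-3 : ℤ) else 1)) hall fun i => ?_
    simp only [signedPerm, resVal]
    by_cases hi : i ∈ c <;> simp [hi] <;> split <;> rfl

/-- The monomial automorphism of a pair. -/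
def monoElt (p : M24 × CC) : Co0 := flipElt p.2 p.2.2 * permElt p.1 p.1.2

theorem monoElt_apply (p : M24 × CC) (v : leechLattice) :
    ((monoElt p • v : leechLattice) : GolayPt → ℤ) = signedPerm p.1 p.2 (v : GolayPt → ℤ) := by
  funext i
  rw [monoElt, mul_smul, flipElt_apply, permElt_apply]
  rfl

theorem monoElt_injective : Function.Injective monoElt := by
  intro p q h
  have hv : ∀ a i, signedPerm p.1 p.2 (eight a : leechLattice) i = signedPerm q.1 q.2 (eight a : leechLattice) i := by
    intro a i
    rw [← monoElt_apply, ← monoElt_apply, h]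
  have hσ : (p.1 : Equiv.Perm GolayPt) = q.1 := by
    refine Equiv.ext fun a => ?_
    by_contra hne
    have := hv a ((p.1 : Equiv.Perm GolayPt) a)
    simp only [signedPerm, eight_apply, Equiv.symm_apply_apply, if_true] at this
    have hne' : ¬ (q.1 : Equiv.Perm GolayPt).symm ((p.1 : Equiv.Perm GolayPt) a) = a := fun e =>
      hne ((Equiv.symm_apply_eq _).1 e)
    rw [if_neg hne'] at this
    split at this <;> simp at this
  refine Prod.ext (Subtype.ext hσ) (Subtype.ext ?_)
  ext i
  have := hv ((p.1 : Equiv.Perm GolayPt).symm i) i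
  simp only [signedPerm, eight_apply, ← hσ, if_true] at this
  by_cases h1 : i ∈ (p.2 : Finset GolayPt) <;> by_cases h2 : i ∈ (q.2 : Finset GolayPt) <;> simp [h1, h2] at this ⊢

theorem card_CC : Nat.card CC = 4096 := by
  have h : CC = ↑codeFinset := Set.ext fun S => (mem_codeFinset (S := S)).symm
  rw [h, Nat.card_coe_set_eq, Set.ncard_coe_finset]
  have hl : codeFinset.card = (spanL codeGens).length := by
    rw [codeFinset, Finset.card_image_of_injOn, List.toFinset_card_of_nodup spanL_nodup]
    intro a ha b hb e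
    simp only [List.coe_toFinset, Set.mem_ofPred_eq] at ha hb
    exact toSet_injOn ((inCode_iff a).2 ha) ((inCode_iff b).2 hb) e
  rw [hl, ← List.length_map (as := spanL codeGens) codeKey, spanL_keys, List.length_range]

theorem card_cross_stab :
    Nat.card {g : Co0 // ∀ v : leechLattice, (v : GolayPt → ℤ) ∈ stdCross →
      ((g • v : leechLattice) : GolayPt → ℤ) ∈ stdCross} = 4096 * 244823040 := by
  have hmem : ∀ p, ∀ v : leechLattice, (v : GolayPt → ℤ) ∈ stdCross →
      ((monoElt p • v : leechLattice) : GolayPt → ℤ) ∈ stdCross := by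
    rintro p v ⟨j, t, ht, e⟩
    refine ⟨(p.1 : Equiv.Perm GolayPt) j, if (p.1 : Equiv.Perm GolayPt) j ∈ (p.2 : Finset GolayPt) then -t else t,
      by split <;> omega, ?_⟩
    rw [monoElt_apply, e]
    funext i
    simp only [signedPerm, Pi.single_apply, Equiv.symm_apply_eq]
    by_cases hi : i = (p.1 : Equiv.Perm GolayPt) j
    · subst hi; simp
    · simp [hi]
  let F : M24 × CC → {g : Co0 // ∀ v : leechLattice, (v : GolayPt → ℤ) ∈ stdCross →
      ((g • v : leechLattice) : GolayPt → ℤ) ∈ stdCross} := fun p => ⟨monoElt p, hmem p⟩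
  rw [← Nat.card_congr (Equiv.ofBijective F ⟨?_, ?_⟩),
    Nat.card_prod, card_CC, card_M24, Nat.mul_comm]
  · exact fun a b e => monoElt_injective (congrArg Subtype.val e)
  · rintro ⟨g, hg⟩
    obtain ⟨σ, hσ, c, hc, h⟩ := cross_stab_monomial g hg
    exact ⟨(⟨σ, hσ⟩, ⟨c, hc⟩), Subtype.ext (co0_ext fun v => (monoElt_apply _ v).trans (h v).symm)⟩

end Cfsg.Lib.Leech
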