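import Mathlib
import Cfsg.Prelude.Def_Sporadic_a
import Cfsg.Agent.Lib.Leech.Monomial

/-!
Code words with prescribed restriction, and sign changes relating two lattice vectors with equal
absolute values.
-/

set_option autoImplicit false
set_option linter.unusedSimpArgs false

namespace Cfsg.Lib.Leech

open Cfsg Cfsg.Lib.Golay

local notation "CC" => supports (golayCode : Set (GolayPt → ZMod 2))

/-- A set is a restriction of a code word unless a code word inside the window meets it oddly. -/
theorem exists_word {T D : Finset GolayPt} (hD : D ⊆ T)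
    (h : ∀ E ∈ CC, E ⊆ T → (D ∩ E).card % 2 = 0) : ∃ c ∈ CC, c ∩ T = D := by
  classical
  let π : (GolayPt → ZMod 2) →ₗ[ZMod 2] (T → ZMod 2) :=
    LinearMap.funLeft (ZMod 2) (ZMod 2) (fun i : T => (i : GolayPt))
  let d : T → ZMod 2 := fun i => if (i : GolayPt) ∈ D then 1 else 0
  by_cases hd : d ∈ golayCode.map π
  · obtain ⟨w, hw, e⟩ := hd
    refine ⟨support₂ w, ⟨w, hw, rfl⟩, ?_⟩
    ext i
    by_cases hi : i ∈ T
    · have h1 : w i = if i ∈ D then 1 else 0 := congrFun e ⟨i, hi⟩
      simp only [Finset.mem_inter, hi, and_true, support₂, Finset.mem_filter, Finset.mem_univ, true_and, h1]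
      by_cases hiD : i ∈ D <;> simp [hiD]
    · simp only [Finset.mem_inter, hi, and_false, false_iff]
      exact fun hiD => hi (hD hiD)
  exfalso
  obtain ⟨f, hfd, hf⟩ := Submodule.exists_dual_map_eq_bot_of_notMem hd inferInstance
  let ψ : T → ZMod 2 := fun i => f (fun j => if i = j then 1 else 0)
  let φ : GolayPt → ZMod 2 := fun i => if hi : i ∈ T then ψ ⟨i, hi⟩ else 0
  let E : Finset GolayPt := support₂ φ
  have hET : E ⊆ T := by
    intro i hi
    simp only [E, support₂, Finset.mem_filter, Finset.mem_univ, true_and, φ] at hi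
    by_contra hn
    exact hi (dif_neg hn)
  have h01 : ∀ t : ZMod 2, t = 0 ∨ t = 1 := by decide
  have hfor : ∀ z : GolayPt → ZMod 2, f (π z) = ((support₂ z ∩ E).card : ZMod 2) := by
    intro z
    rw [LinearMap.pi_apply_eq_sum_univ f (π z)]
    have e1 : ∑ i : T, (π z) i • f (fun j => if i = j then 1 else 0) = ∑ i : GolayPt, z i * φ i := by
      rw [← Finset.sum_subset (Finset.subset_univ T) (fun i _ hi => by simp [φ, hi]),
        ← Finset.sum_coe_sort T]
      exact Finset.sum_congr rfl fun i _ => by
        simp only [π, LinearMap.funLeft_apply, smul_eq_mul, φ, dif_pos i.2, Subtype.coe_eta]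
        rfl
    have e2 : ∀ i, z i * φ i = if i ∈ support₂ z ∩ E then 1 else 0 := by
      intro i
      simp only [E, support₂, Finset.mem_inter, Finset.mem_filter, Finset.mem_univ, true_and]
      rcases h01 (z i) with a | a <;> rcases h01 (φ i) with b | b <;> simp [a, b]
    rw [e1, Finset.sum_congr rfl fun i _ => e2 i, Finset.sum_boole, Finset.filter_mem_eq_inter,
      Finset.univ_inter]
  have hEC : E ∈ CC := by
    refine dual_mem fun c hc => ?_
    obtain ⟨w, hw, rfl⟩ := hc
    have h1 : f (π w) = 0 := by
      have hmem : f (π w) ∈ (golayCode.map π).map f := Submodule.mem_map_of_mem (Submodule.mem_map_of_mem hw)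
      rwa [hf, Submodule.mem_bot] at hmem
    rw [hfor, ZMod.natCast_eq_zero_iff_even, Nat.even_iff] at h1
    exact h1
  have hev := h E hEC hET
  apply hfd
  let dz : GolayPt → ZMod 2 := fun i => if i ∈ D then 1 else 0
  have e : d = π dz := funext fun i => rfl
  rw [e, hfor, show support₂ dz = D by ext i; by_cases hi : i ∈ D <;> simp [support₂, dz, hi],
    ZMod.natCast_eq_zero_iff_even, Nat.even_iff]
  exact hev

/-- The coordinates of absolute value two. -/
def twoSet (x : GolayPt → ℤ) : Finset GolayPt := Finset.univ.filter fun i => |x i| = 2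

theorem abs_eq_iff' (a b : ℤ) (h : |a| = |b|) : a = b ∨ a = -b := abs_eq_abs.1 h

/-- A sign change relating two vectors with the same absolute values, fixed on `K`. -/
theorem exists_flip {x y : GolayPt → ℤ} (hx : x ∈ leechLattice) (hy : y ∈ leechLattice)
    (habs : ∀ i, |x i| = |y i|) (K : Finset GolayPt) (hK : ∀ k ∈ K, x k = y k)
    (hsmall : x none % 2 = 0 → (∀ i, |x i| = 0 ∨ |x i| = 2 ∨ |x i| = 4) ∧ twoSet x ∈ CC ∧
      2 * ((Finset.univ.filter fun i => x i ≠ 0) ∪ K \ twoSet x).card < 16 + (twoSet x).card) :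
    ∃ c ∈ CC, Disjoint c K ∧ flipFun c x = y := by
  classical
  set D := Finset.univ.filter fun i => x i ≠ y i with hDdef
  have hxy : ∀ i, y i = if i ∈ D then -x i else x i := by
    intro i
    by_cases hi : i ∈ D
    · rw [if_pos hi]
      rcases abs_eq_iff' _ _ (habs i) with h | h
      · exact absurd h (Finset.mem_filter.1 hi).2
      · omega
    · rw [if_neg hi]
      by_contra h
      exact hi (Finset.mem_filter.2 ⟨Finset.mem_univ i, Ne.symm h⟩)
  by_cases h0 : x none % 2 = 0
  · obtain ⟨hvals, hS, hcard⟩ := hsmall h0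
    set S := twoSet x with hSdef
    set T := (Finset.univ.filter fun i => x i ≠ 0) ∪ K with hT
    have hDT : D ⊆ T := by
      intro i hi
      refine Finset.mem_union_left _ (Finset.mem_filter.2 ⟨Finset.mem_univ i, fun e => ?_⟩)
      have h := hxy i
      rw [if_pos hi, e] at h
      exact (Finset.mem_filter.1 hi).2 (by rw [e, h, neg_zero])
    have hDS : (D ∩ S).card % 2 = 0 := by
      have hz := invariants (sub_mem hx hy)
      have e : ∀ i, (x - y) i % 8 = (4 * (if i ∈ D ∩ S then 1 else 0) : ℤ) % 8 := by
        intro i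
        simp only [Pi.sub_apply, hxy i, Finset.mem_inter, hSdef, twoSet, Finset.mem_filter, Finset.mem_univ,
          true_and]
        by_cases hi : i ∈ D
        · rcases hvals i with h | h | h <;>
            simp only [hi, h, true_and, if_true] <;>
            rcases abs_cases (x i) with ⟨a, -⟩ | ⟨a, -⟩ <;> rw [a] at h <;> norm_num <;> omega
        · simp [hi]
      have h8 := hz.2
      rw [Finset.sum_int_mod, Finset.sum_congr rfl fun i _ => e i, ← Finset.sum_int_mod, ← Finset.mul_sum,
        Finset.sum_boole, Finset.filter_mem_eq_inter, Finset.univ_inter] at h8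
      have hp : (x - y) none % 2 = 0 := by
        have := hxy none
        simp only [Pi.sub_apply]
        split at this <;> omega
      omega
    have hSsub : S ⊆ T := by
      intro i hi
      refine Finset.mem_union_left _ (Finset.mem_filter.2 ⟨Finset.mem_univ i, fun e => ?_⟩)
      have := (Finset.mem_filter.1 hi).2
      rw [e] at this
      simp at this
    obtain ⟨c, hc, hcT⟩ := exists_word hDT fun E hE hET => by
      by_cases hES : E = S
      · rw [hES]; exact hDS
      by_cases hE0 : E = ∅
      · simp [hE0]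
      exfalso
      have hne : (symmDiff E S).card ≠ 0 := by
        rw [Finset.card_ne_zero, Finset.nonempty_iff_ne_empty]
        exact fun h => hES (symmDiff_eq_bot.1 h)
      have h1 := weight_cases (symmDiff_mem_supports hE hS)
      have h2 := card_symmDiff_add E S
      have h3 := weight_cases hE
      have h5 : E.card ≠ 0 := fun h => hE0 (Finset.card_eq_zero.1 h)
      have h4 : (E \ S).card ≤ ((Finset.univ.filter fun i => x i ≠ 0) ∪ K \ S).card := by
        refine Finset.card_le_card fun i hi => ?_
        obtain ⟨a, b⟩ := Finset.mem_sdiff.1 hi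
        rcases Finset.mem_union.1 (hET a) with h | h
        · exact Finset.mem_union_left _ h
        · exact Finset.mem_union_right _ (Finset.mem_sdiff.2 ⟨h, b⟩)
      have h6 : (E \ S).card + (E ∩ S).card = E.card := Finset.card_sdiff_add_card_inter E S
      have h7 : (E ∩ S).card ≤ S.card := Finset.card_le_card Finset.inter_subset_right
      have h8 : (E \ S).card + S.card ≤ ((Finset.univ.filter fun i => x i ≠ 0) ∪ K \ S).card := by
        rw [← Finset.card_union_of_disjoint Finset.sdiff_disjoint]
        refine Finset.card_le_card fun i hi => ?_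
        rcases Finset.mem_union.1 hi with h | h
        · obtain ⟨a, b⟩ := Finset.mem_sdiff.1 h
          rcases Finset.mem_union.1 (hET a) with h' | h'
          · exact Finset.mem_union_left _ h'
          · exact Finset.mem_union_right _ (Finset.mem_sdiff.2 ⟨h', b⟩)
        · refine Finset.mem_union_left _ (Finset.mem_filter.2 ⟨Finset.mem_univ i, fun e => ?_⟩)
          have := (Finset.mem_filter.1 h).2
          rw [e] at this
          simp at this
      omega
    refine ⟨c, hc, ?_, funext fun i => ?_⟩
    · rw [Finset.disjoint_left]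
      intro k hkc hkK
      have : k ∈ D := by rw [← hcT]; exact Finset.mem_inter.2 ⟨hkc, Finset.mem_union_right _ hkK⟩
      exact (Finset.mem_filter.1 this).2 (hK k hkK)
    · rw [flipFun, hxy i]
      by_cases hxi : x i = 0
      · simp [hxi]
      have hiT : i ∈ T := Finset.mem_union_left _ (Finset.mem_filter.2 ⟨Finset.mem_univ i, hxi⟩)
      have : (i ∈ c ↔ i ∈ D) := by rw [← hcT, Finset.mem_inter]; simp [hiT]
      simp only [this]
  · have hodd : ∀ i, x i % 2 = 1 := fun i => by rw [parity hx i]; omega
    refine ⟨D, ?_, ?_, funext fun i => (hxy i).symm⟩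
    · have he : ∀ i, (x - y) i = 2 * (if i ∈ D then x i else 0) := fun i => by
        rw [Pi.sub_apply, hxy i]; split <;> ring
      obtain ⟨-, hmem, -⟩ := even_norm (sub_mem hx hy) he
      convert hmem using 1
      ext i
      have := hodd i
      simp only [Finset.mem_filter, Finset.mem_univ, true_and]
      by_cases hi : i ∈ D <;> simp [hi] <;> omega
    · rw [Finset.disjoint_left]
      exact fun k hkD hkK => (Finset.mem_filter.1 hkD).2 (hK k hkK)

/-- Monomial relation from a permutation matching absolute values. -/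
theorem exists_monomial {x y : leechLattice} (K : Finset GolayPt) (σ : Equiv.Perm GolayPt) (hσ : σ ∈ M24)
    (hfix : ∀ k ∈ K, σ k = k)
    (habs : ∀ i, |(x : GolayPt → ℤ) i| = |(y : GolayPt → ℤ) (σ i)|)
    (hK : ∀ k ∈ K, (x : GolayPt → ℤ) k = (y : GolayPt → ℤ) k)
    (hsmall : (y : GolayPt → ℤ) none % 2 = 0 → (∀ i, |(y : GolayPt → ℤ) i| = 0 ∨ |(y : GolayPt → ℤ) i| = 2 ∨
      |(y : GolayPt → ℤ) i| = 4) ∧ twoSet (y : GolayPt → ℤ) ∈ CC ∧
      2 * ((Finset.univ.filter fun i => (y : GolayPt → ℤ) i ≠ 0) ∪ K \ twoSet (y : GolayPt → ℤ)).card <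
        16 + (twoSet (y : GolayPt → ℤ)).card) :
    ∃ p : M24 × CC, (∀ k ∈ K, (p.1 : Equiv.Perm GolayPt) k = k ∧ k ∉ (p.2 : Finset GolayPt)) ∧
      monoElt p • x = y := by
  have hsymm : ∀ k ∈ K, σ⁻¹ k = k := fun k hk => by
    conv_lhs => rw [← hfix k hk, Equiv.Perm.inv_def, Equiv.symm_apply_apply]
  have habs' : ∀ i, |(y : GolayPt → ℤ) i| = |((permElt σ hσ • x : leechLattice) : GolayPt → ℤ) i| := fun i => by
    rw [permElt_apply, habs (σ⁻¹ i)]
    simp
  obtain ⟨c, hc, hdis, he⟩ := exists_flip y.2 (permElt σ hσ • x).2 habs' K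
    (fun k hk => by rw [permElt_apply, hsymm k hk, hK k hk]) hsmall
  refine ⟨(⟨σ, hσ⟩, ⟨c, hc⟩), fun k hk => ⟨hfix k hk, Finset.disjoint_right.1 hdis hk⟩, Subtype.ext ?_⟩
  rw [monoElt, mul_smul]
  show flipFun c ((permElt σ hσ • x : leechLattice) : GolayPt → ℤ) = _
  rw [← he, flipFun_flipFun]

end Cfsg.Lib.Leech
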