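import Mathlib
import Cfsg.Prelude.Def_Sporadic_a
import Cfsg.Agent.Lib.Leech.Flips

/-!
The shapes of lattice vectors of norm 32 and 48.
-/

set_option autoImplicit false
set_option linter.unusedSimpArgs false

namespace Cfsg.Lib.Leech

open Cfsg Cfsg.Lib.Golay

local notation "CC" => supports (golayCode : Set (GolayPt → ZMod 2))

/-- The coordinates of absolute value `d`. -/
def absSet (d : ℤ) (x : GolayPt → ℤ) : Finset GolayPt := Finset.univ.filter fun i => |x i| = d

theorem mem_absSet {d : ℤ} {x : GolayPt → ℤ} {i : GolayPt} : i ∈ absSet d x ↔ |x i| = d := by simp [absSet]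

theorem even_profile {x : GolayPt → ℤ} (hx : x ∈ leechLattice) (h0 : x none % 2 = 0) (hn : sqNorm x < 64) :
    (∀ i, |x i| = 0 ∨ |x i| = 2 ∨ |x i| = 4 ∨ |x i| = 6) ∧
      sqNorm x = 4 * ((absSet 2 x).card : ℤ) + 16 * ((absSet 4 x).card : ℤ) + 36 * ((absSet 6 x).card : ℤ) ∧
      absSet 2 x ∪ absSet 6 x ∈ CC ∧ Disjoint (absSet 2 x) (absSet 6 x) := by
  have hb : ∀ i, |x i| = 0 ∨ |x i| = 2 ∨ |x i| = 4 ∨ |x i| = 6 := by
    intro i
    have h5 : x i ^ 2 ≤ sqNorm x :=
      Finset.single_le_sum (f := fun i => x i ^ 2) (fun i _ => sq_nonneg (x i)) (Finset.mem_univ i)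
    have h6 : |x i| < 8 := abs_lt_of_sq_lt_sq (lt_of_le_of_lt h5 (lt_of_lt_of_le hn (by norm_num))) (by norm_num)
    have := parity hx i
    rcases abs_cases (x i) with ⟨a, hsg⟩ | ⟨a, hsg⟩ <;> rw [a] at h6 ⊢ <;> omega
  refine ⟨hb, ?_, ?_, ?_⟩
  · have e : ∀ i, x i ^ 2 = 4 * (if |x i| = 2 then 1 else 0) + 16 * (if |x i| = 4 then 1 else 0) +
        36 * (if |x i| = 6 then 1 else 0) := by
      intro i
      rw [← sq_abs]
      rcases hb i with h | h | h | h <;> rw [h] <;> norm_num
    unfold sqNorm
    rw [Finset.sum_congr rfl fun i _ => e i, Finset.sum_add_distrib, Finset.sum_add_distrib, ← Finset.mul_sum,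
      ← Finset.mul_sum, ← Finset.mul_sum, Finset.sum_boole, Finset.sum_boole, Finset.sum_boole]
    rfl
  · obtain ⟨y, hy⟩ := exists_eq_const_mul (x := x) (d := 2) fun i => by rw [parity hx i, h0]
    obtain ⟨-, hS, -⟩ := even_norm hx hy
    convert hS using 1
    ext i
    have := hy i
    simp only [Finset.mem_union, mem_absSet, Finset.mem_filter, Finset.mem_univ, true_and]
    rcases hb i with h | h | h | h <;> rw [h] <;> rcases abs_cases (x i) with ⟨a, -⟩ | ⟨a, -⟩ <;>
      rw [a] at h <;> simp <;> omega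
  · rw [Finset.disjoint_left]
    intro i h1 h2
    rw [mem_absSet] at h1 h2
    omega

theorem odd_profile {x : GolayPt → ℤ} (hx : x ∈ leechLattice) (h0 : x none % 2 ≠ 0) (hn : sqNorm x < 64) :
    (∀ i, |x i| = 1 ∨ |x i| = 3 ∨ |x i| = 5) ∧
      sqNorm x = 24 + 8 * ((absSet 3 x).card : ℤ) + 24 * ((absSet 5 x).card : ℤ) := by
  have hge : ∀ i, (1 : ℤ) ≤ x i ^ 2 := fun m => by
    have : x m ≠ 0 := fun e => by have := parity hx m; rw [e] at this; omega
    nlinarith [Int.one_le_abs this, sq_abs (x m)]
  have hb : ∀ i, |x i| = 1 ∨ |x i| = 3 ∨ |x i| = 5 := by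
    intro i
    have h5 : x i ^ 2 + 23 ≤ sqNorm x := by
      have h1 := Finset.add_sum_erase Finset.univ (fun j => x j ^ 2) (Finset.mem_univ i)
      have h2 := Finset.card_nsmul_le_sum (Finset.univ.erase i) (fun j => x j ^ 2) 1 fun j _ => hge j
      rw [Finset.card_erase_of_mem (Finset.mem_univ i), Finset.card_univ, card_golayPt] at h2
      unfold sqNorm
      rw [nsmul_eq_mul] at h2
      push_cast at h2
      omega
    have h6 : |x i| < 7 := abs_lt_of_sq_lt_sq (lt_of_le_of_lt (by omega : x i ^ 2 ≤ 41) (by norm_num)) (by norm_num)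
    have := parity hx i
    rcases abs_cases (x i) with ⟨a, hsg⟩ | ⟨a, hsg⟩ <;> rw [a] at h6 ⊢ <;> omega
  refine ⟨hb, ?_⟩
  have e : ∀ i, x i ^ 2 = 1 + 8 * (if |x i| = 3 then 1 else 0) + 24 * (if |x i| = 5 then 1 else 0) := by
    intro i
    rw [← sq_abs]
    rcases hb i with h | h | h <;> rw [h] <;> norm_num
  unfold sqNorm
  rw [Finset.sum_congr rfl fun i _ => e i, Finset.sum_add_distrib, Finset.sum_add_distrib, ← Finset.mul_sum,
    ← Finset.mul_sum, Finset.sum_const, Finset.sum_boole, Finset.sum_boole, Finset.card_univ, card_golayPt]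
  simp [absSet]

/-- Absolute values given by a two step function. -/
def AbsShape (x : GolayPt → ℤ) (A : Finset GolayPt) (a r : ℤ) : Prop :=
  ∀ i, |x i| = if i ∈ A then a else r

theorem shape32 {x : GolayPt → ℤ} (hx : x ∈ leechLattice) (hn : sqNorm x = 32) :
    (∃ O ∈ octads, AbsShape x O 2 0) ∨ (∃ A : Finset GolayPt, A.card = 2 ∧ AbsShape x A 4 0) ∨
      (∃ p, AbsShape x {p} 3 1) := by
  by_cases h0 : x none % 2 = 0
  · obtain ⟨hb, he, hC, -⟩ := even_profile hx h0 (by omega)
    have h6 : absSet 6 x = ∅ := Finset.card_eq_zero.1 (by omega)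
    rw [h6, Finset.union_empty] at hC
    have hwc := weight_cases hC
    have hno6 : ∀ i, |x i| ≠ 6 := fun i h => by
      have h' := mem_absSet.2 h
      rw [h6] at h'; simp at h'
    rcases (show (absSet 2 x).card = 8 ∧ (absSet 4 x).card = 0 ∨ (absSet 2 x).card = 0 ∧ (absSet 4 x).card = 2 by
      rw [h6, Finset.card_empty] at he; omega) with ⟨h2, h4⟩ | ⟨h2, h4⟩
    · refine Or.inl ⟨absSet 2 x, ⟨hC, h2⟩, fun i => ?_⟩
      split
      · exact mem_absSet.1 ‹_›
      · rename_i hi
        rw [mem_absSet] at hi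
        have h4' : |x i| ≠ 4 := fun h => by
          have h' := mem_absSet.2 h
          rw [Finset.card_eq_zero.1 h4] at h'; simp at h'
        rcases hb i with h | h | h | h <;> first | exact h | exact absurd h hi | exact absurd h h4' |
          exact absurd h (hno6 i)
    · refine Or.inr (Or.inl ⟨absSet 4 x, h4, fun i => ?_⟩)
      split
      · exact mem_absSet.1 ‹_›
      · rename_i hi
        rw [mem_absSet] at hi
        have h2' : |x i| ≠ 2 := fun h => by
          have h' := mem_absSet.2 h
          rw [Finset.card_eq_zero.1 h2] at h'; simp at h'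
        rcases hb i with h | h | h | h <;> first | exact h | exact absurd h hi | exact absurd h h2' |
          exact absurd h (hno6 i)
  · obtain ⟨hb, he⟩ := odd_profile hx h0 (by omega)
    obtain ⟨p, hp⟩ := Finset.card_eq_one.1 (show (absSet 3 x).card = 1 by omega)
    refine Or.inr (Or.inr ⟨p, fun i => ?_⟩)
    have h5 : (absSet 5 x).card = 0 := by omega
    have h5' : |x i| ≠ 5 := fun h => by
      have h' := mem_absSet.2 h
      rw [Finset.card_eq_zero.1 h5] at h'; simp at h'
    rw [← hp]
    split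
    · exact mem_absSet.1 ‹_›
    · rename_i hi
      rw [mem_absSet] at hi
      rcases hb i with h | h | h <;> first | exact h | exact absurd h hi | exact absurd h h5'

theorem shape48 {x : GolayPt → ℤ} (hx : x ∈ leechLattice) (hn : sqNorm x = 48) :
    (∃ D ∈ dodecads, AbsShape x D 2 0) ∨
    (∃ O ∈ octads, ∃ q ∉ O, ∀ i, |x i| = if i ∈ O then 2 else if i = q then 4 else 0) ∨
    (∃ A : Finset GolayPt, A.card = 3 ∧ AbsShape x A 3 1) ∨ (∃ p, AbsShape x {p} 5 1) := by
  by_cases h0 : x none % 2 = 0
  · obtain ⟨hb, he, hC, hdis⟩ := even_profile hx h0 (by omega)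
    have hwc := weight_cases hC
    rw [Finset.card_union_of_disjoint hdis] at hwc
    have h6 : absSet 6 x = ∅ := Finset.card_eq_zero.1 (by omega)
    have hno6 : ∀ i, |x i| ≠ 6 := fun i h => by
      have h' := mem_absSet.2 h
      rw [h6] at h'; simp at h'
    rw [h6, Finset.union_empty] at hC
    rw [h6, Finset.card_empty] at he hwc
    have hev : (absSet 2 x).card = 12 ∧ (absSet 4 x).card = 0 ∨ (absSet 2 x).card = 8 ∧ (absSet 4 x).card = 1 ∨
        (absSet 2 x).card = 0 ∧ (absSet 4 x).card = 3 := by omega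
    rcases hev with ⟨h2, h4⟩ | ⟨h2, h4⟩ | ⟨h2, h4⟩
    · refine Or.inl ⟨absSet 2 x, ⟨hC, h2⟩, fun i => ?_⟩
      split
      · exact mem_absSet.1 ‹_›
      · rename_i hi
        rw [mem_absSet] at hi
        have h4' : |x i| ≠ 4 := fun h => by
          have h' := mem_absSet.2 h
          rw [Finset.card_eq_zero.1 h4] at h'; simp at h'
        rcases hb i with h | h | h | h <;> first | exact h | exact absurd h hi | exact absurd h h4' |
          exact absurd h (hno6 i)
    · obtain ⟨q, hq⟩ := Finset.card_eq_one.1 h4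
      have hqq : |x q| = 4 := mem_absSet.1 (by rw [hq]; exact Finset.mem_singleton_self q)
      refine Or.inr (Or.inl ⟨absSet 2 x, ⟨hC, h2⟩, q, by rw [mem_absSet, hqq]; decide, fun i => ?_⟩)
      split
      · exact mem_absSet.1 ‹_›
      · rename_i hi
        rw [mem_absSet] at hi
        split
        · rename_i h; rw [h]; exact hqq
        · rename_i hne
          have h4' : |x i| ≠ 4 := fun h => by
            have h' := mem_absSet.2 h
            rw [hq, Finset.mem_singleton] at h'; exact hne h'
          rcases hb i with h | h | h | h <;> first | exact h | exact absurd h hi | exact absurd h h4' |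
            exact absurd h (hno6 i)
    · exfalso
      have hs := (invariants hx).2
      have e : ∀ i, x i % 8 = (4 * (if |x i| = 4 then 1 else 0) : ℤ) % 8 := by
        intro i
        have h2' : |x i| ≠ 2 := fun h => by
          have h' := mem_absSet.2 h
          rw [Finset.card_eq_zero.1 h2] at h'; simp at h'
        have := hno6 i
        rcases hb i with h | h | h | h <;> first | exact absurd h h2' | exact absurd h this |
          (rcases abs_cases (x i) with ⟨a, -⟩ | ⟨a, -⟩ <;> rw [a] at h ⊢ <;> simp [h] <;> omega)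
      rw [Finset.sum_int_mod, Finset.sum_congr rfl fun i _ => e i, ← Finset.sum_int_mod, ← Finset.mul_sum,
        Finset.sum_boole, ← absSet, h4] at hs
      omega
  · obtain ⟨hb, he⟩ := odd_profile hx h0 (by omega)
    rcases (show (absSet 3 x).card = 3 ∧ (absSet 5 x).card = 0 ∨ (absSet 3 x).card = 0 ∧ (absSet 5 x).card = 1 by
      omega) with ⟨h3, h5⟩ | ⟨h3, h5⟩
    · refine Or.inr (Or.inr (Or.inl ⟨absSet 3 x, h3, fun i => ?_⟩))
      have h5' : |x i| ≠ 5 := fun h => by
        have h' := mem_absSet.2 h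
        rw [Finset.card_eq_zero.1 h5] at h'; simp at h'
      split
      · exact mem_absSet.1 ‹_›
      · rename_i hi
        rw [mem_absSet] at hi
        rcases hb i with h | h | h <;> first | exact h | exact absurd h hi | exact absurd h h5'
    · obtain ⟨p, hp⟩ := Finset.card_eq_one.1 h5
      refine Or.inr (Or.inr (Or.inr ⟨p, fun i => ?_⟩))
      have h3' : |x i| ≠ 3 := fun h => by
        have h' := mem_absSet.2 h
        rw [Finset.card_eq_zero.1 h3] at h'; simp at h'
      rw [← hp]
      split
      · exact mem_absSet.1 ‹_›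
      · rename_i hi
        rw [mem_absSet] at hi
        rcases hb i with h | h | h <;> first | exact h | exact absurd h hi | exact absurd h h3'

end Cfsg.Lib.Leech
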