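import Mathlib
import Cfsg.Prelude.Def_Sporadic_a
import Cfsg.Agent.Lib.Golay.Dodecads
import Cfsg.Agent.Lib.Golay.Orbit
import Cfsg.Agent.Lib.Leech.PairData
import Cfsg.Agent.Lib.Leech.Shapes

/-!
Orbits of the monomial group, and of the stabiliser in it of `4 e_a + 4 e_b`, on short vectors.
-/

set_option autoImplicit false
set_option linter.unusedSimpArgs false

namespace Cfsg.Lib.Leech

open Cfsg Cfsg.Lib.Golay
open scoped Pointwise

local notation "CC" => supports (golayCode : Set (GolayPt → ZMod 2))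

theorem exists_perm_tuple {n : ℕ} (hn : n ≤ 5) (x y : Fin n ↪ GolayPt) :
    ∃ σ ∈ M24, ∀ i, σ (x i) = y i := by
  obtain ⟨g, hg, hgx⟩ := exists_tuple_to_base hn x
  obtain ⟨k, hk, hky⟩ := exists_tuple_to_base hn y
  refine ⟨k⁻¹ * g, Subgroup.mul_mem _ (Subgroup.inv_mem _ hk) hg, fun i => ?_⟩
  rw [Equiv.Perm.mul_apply, hgx i, ← hky i]
  exact k.symm_apply_apply _

/-- Few points can be moved as prescribed while fixing a set. -/
theorem exists_perm_sets (K A B : Finset GolayPt) (hA : Disjoint K A) (hB : Disjoint K B)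
    (hAB : A.card = B.card) (hn : K.card + A.card ≤ 5) :
    ∃ σ ∈ M24, (∀ k ∈ K, σ k = k) ∧ σ • A = B := by
  classical
  let e : A ≃ B := Finset.equivOfCardEq hAB
  let f : (K ∪ A : Finset GolayPt) → GolayPt := fun i => if h : (i : GolayPt) ∈ A then e ⟨i, h⟩ else i
  have hfK : ∀ i : (K ∪ A : Finset GolayPt), (i : GolayPt) ∉ A → (i : GolayPt) ∈ K := fun i hi =>
    (Finset.mem_union.1 i.2).resolve_right hi
  have hf : Function.Injective f := by
    intro i j hij
    simp only [f] at hij
    split at hij <;> split at hij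
    · have h := e.injective (Subtype.ext hij)
      exact Subtype.ext (congrArg (fun a : A => (a : GolayPt)) h)
    · exact absurd (e _).2 (hij ▸ Finset.disjoint_left.1 hB (hfK j ‹_›))
    · exact absurd (e _).2 (hij ▸ Finset.disjoint_left.1 hB (hfK i ‹_›))
    · exact Subtype.ext hij
  have hc : Fintype.card (K ∪ A : Finset GolayPt) = K.card + A.card := by
    rw [Fintype.card_coe, Finset.card_union_of_disjoint hA]
  let q : Fin (K.card + A.card) ≃ (K ∪ A : Finset GolayPt) := (Fintype.equivFinOfCardEq hc).symm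
  obtain ⟨σ, hσ, hs⟩ := exists_perm_tuple hn ⟨fun i => (q i : GolayPt), fun a b h => q.injective (Subtype.ext h)⟩
    ⟨fun i => f (q i), fun a b h => q.injective (hf h)⟩
  have hall : ∀ i : (K ∪ A : Finset GolayPt), σ i = f i := fun i => by
    obtain ⟨k, rfl⟩ := q.surjective i
    exact hs k
  refine ⟨σ, hσ, fun k hk => ?_, ?_⟩
  · have h := hall ⟨k, Finset.mem_union_left _ hk⟩
    simp only [f, dif_neg (Finset.disjoint_left.1 hA hk)] at h
    exact h
  · refine Finset.eq_of_subset_of_card_le (fun y hy => ?_) (by rw [Finset.card_smul_finset, hAB])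
    obtain ⟨a, ha, rfl⟩ := Finset.mem_smul_finset.1 hy
    have h := hall ⟨a, Finset.mem_union_right _ ha⟩
    simp only [f, dif_pos ha] at h
    rw [Equiv.Perm.smul_def, h]
    exact (e _).2

/-- The first special point. -/
def ptA : GolayPt := none
/-- The second special point. -/
def ptB : GolayPt := some 0

/-- The two special points. -/
def pairSet : Finset GolayPt := {none, some 0}

/-- Permutations of the group fixing the two special points. -/
def pairStab : Subgroup (Equiv.Perm GolayPt) :=
  M24 ⊓ MulAction.stabilizer _ ptA ⊓ MulAction.stabilizer _ ptB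

theorem mem_pairStab {σ : Equiv.Perm GolayPt} : σ ∈ pairStab ↔ σ ∈ M24 ∧ ∀ k ∈ pairSet, σ k = k := by
  simp only [pairStab, Subgroup.mem_inf, MulAction.mem_stabilizer_iff, Equiv.Perm.smul_def, pairSet,
    Finset.mem_insert, Finset.mem_singleton, forall_eq_or_imp, forall_eq, ptA, ptB, and_assoc]

theorem pairGens_mem : ∀ g ∈ pairGens, permOf g ∈ pairStab := by
  have h : ∀ g ∈ pairGens, keepsCode g = true ∧ g.getD 23 0 = 23 ∧ g.getD 0 0 = 0 := by decide +kernel
  intro g hg
  obtain ⟨h1, h2, h3⟩ := h g hg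
  have hp : isPermList g = true := by
    simp only [keepsCode, Bool.and_eq_true] at h1; exact h1.1
  refine mem_pairStab.2 ⟨permOf_mem_M24 h1, fun k hk => ?_⟩
  simp only [pairSet, Finset.mem_insert, Finset.mem_singleton] at hk
  rcases hk with rfl | rfl
  · rw [permOf_apply hp]; show pt (g.getD 23 0) = _; rw [h2]; rfl
  · rw [permOf_apply hp]; show pt (g.getD 0 0) = _; rw [h3]; rfl

/-- Breadth-first data for the octads through given special points. -/
def octStarts : List (ℕ × List (List (ℕ × ℕ))) := pairOctCerts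

/-- The octads reached from a start. -/
def octReach (k : ℕ) : List ℕ :=
  replay imgMask pairGens (octStarts.getD k (0, [])).1 [(octStarts.getD k (0, [])).1] (octStarts.getD k (0, [])).2

/-- The flag number of a mask. -/
def flagNat (o : ℕ) : ℕ := (if o.testBit 23 then 2 else 0) + (if o.testBit 0 then 1 else 0)

/-- The requirements on one of the searches. -/
def octReachOK (k : ℕ) : Bool :=
  (let B := keySet ((octReach k).map codeKey)
   (octMasks.filter fun o => flagNat o == k).all fun o => B.testBit (codeKey o)) &&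
  (octReach k).all (fun n => decide (n < 16777216)) &&
  certOK pairGens (octStarts.getD k (0, [])).2 && inCode (octStarts.getD k (0, [])).1

set_option maxRecDepth 100000 in
theorem octReach_check0 : octReachOK 0 = true := by decide +kernel

set_option maxRecDepth 100000 in
theorem octReach_check1 : octReachOK 1 = true := by decide +kernel

set_option maxRecDepth 100000 in
theorem octReach_check2 : octReachOK 2 = true := by decide +kernel

set_option maxRecDepth 100000 in
theorem octReach_check3 : octReachOK 3 = true := by decide +kernel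

theorem octReach_check : ∀ k < 4, octReachOK k = true := by
  intro k hk
  interval_cases k
  exacts [octReach_check0, octReach_check1, octReach_check2, octReach_check3]

theorem octad_from_start {o : Finset GolayPt} (ho : o ∈ octads) :
    ∃ σ ∈ pairStab, σ • toSet (octStarts.getD (flagNat (setNat o)) (0, [])).1 = o := by
  have hk : flagNat (setNat o) < 4 := by unfold flagNat; split <;> split <;> omega
  have hc := octReach_check _ hk
  simp only [octReachOK, Bool.and_eq_true] at hc
  obtain ⟨⟨⟨hcov, hlt⟩, hok⟩, hbase⟩ := hc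
  have ho' := (mem_octads_iff o).1 ho
  have hm := mem_of_testBit_keySet _ _ (List.all_eq_true.1 hcov _ (List.mem_filter.2 ⟨ho', beq_self_eq_true _⟩))
  rw [List.mem_map] at hm
  obtain ⟨s, hs, hse⟩ := hm
  obtain ⟨σ, hσ, he⟩ := replay_mem_orbit imgMask toSet (fun l hl s => toSet_imgMask hl s) pairStab pairGens
    pairGens_mem _ _ hok s hs
  have hsc := replay_inCode (inf_le_left.trans inf_le_left) hbase
    (of_decide_eq_true (List.all_eq_true.1 hlt s hs)) ⟨σ, hσ, he⟩
  have := codeKey_inj hsc (inCode_of_mem_octMasks ho').1 hse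
  exact ⟨σ, hσ, by rw [he, this, toSet_setNat]⟩

theorem octad_pair_transitive {O O' : Finset GolayPt} (hO : O ∈ octads) (hO' : O' ∈ octads)
    (ha : ptA ∈ O ↔ ptA ∈ O') (hb : ptB ∈ O ↔ ptB ∈ O') :
    ∃ σ ∈ M24, (∀ k ∈ pairSet, σ k = k) ∧ σ • O = O' := by
  obtain ⟨a, ha', hao⟩ := octad_from_start hO
  obtain ⟨b, hb', hbo⟩ := octad_from_start hO'
  have hflag : flagNat (setNat O) = flagNat (setNat O') := by
    simp only [flagNat, testBit_setNat _ (by norm_num : (23 : ℕ) < 24), testBit_setNat _ (by norm_num : (0 : ℕ) < 24),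
      show pt 23 = ptA from rfl, show pt 0 = ptB from rfl, decide_eq_true_eq, ha, hb]
  rw [hflag] at hao
  obtain ⟨h1, h2⟩ := mem_pairStab.1 (pairStab.mul_mem hb' (pairStab.inv_mem ha'))
  exact ⟨b * a⁻¹, h1, h2, by rw [mul_smul, ← hao, inv_smul_smul, hbo]⟩

theorem abs_of_smul {x y : GolayPt → ℤ} {σ : Equiv.Perm GolayPt} {A B : Finset GolayPt} {a r : ℤ}
    (hx : AbsShape x A a r) (hy : AbsShape y B a r) (hσ : σ • A = B) (i : GolayPt) : |x i| = |y (σ i)| := by
  rw [hx i, hy (σ i)]
  have : σ i ∈ B ↔ i ∈ A := by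
    rw [← hσ, ← Equiv.Perm.smul_def, Finset.smul_mem_smul_finset_iff]
  simp only [this]

theorem even_iff_abs (v : ℤ) : v % 2 = |v| % 2 := by
  rcases abs_cases v with ⟨h, -⟩ | ⟨h, -⟩ <;> rw [h] <;> omega

theorem twoSet_eq {y : GolayPt → ℤ} {A : Finset GolayPt} (hy : AbsShape y A 2 0) : twoSet y = A := by
  ext i
  simp only [twoSet, Finset.mem_filter, Finset.mem_univ, true_and, hy i]
  by_cases h : i ∈ A <;> simp [h]

theorem twoSet_empty {y : GolayPt → ℤ} {A : Finset GolayPt} {a r : ℤ} (hy : AbsShape y A a r) (ha : a ≠ 2)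
    (hr : r ≠ 2) : twoSet y = ∅ := by
  ext i
  simp only [twoSet, Finset.mem_filter, Finset.mem_univ, true_and, hy i]
  by_cases h : i ∈ A <;> simp [h, ha, hr]

theorem empty_mem_CC : (∅ : Finset GolayPt) ∈ CC := flip_mem_set.empty_mem_supports

theorem support_subset {y : GolayPt → ℤ} {A : Finset GolayPt} {a : ℤ} (hy : AbsShape y A a 0) :
    (Finset.univ.filter fun i => y i ≠ 0) ⊆ A := by
  intro i hi
  have h := hy i
  by_contra hn
  rw [if_neg hn, abs_eq_zero] at h
  exact (Finset.mem_filter.1 hi).2 h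

/-- Discrete invariants separating the three shapes in norm 32. -/
def SameKind (x y : GolayPt → ℤ) : Prop :=
  x none % 2 = y none % 2 ∧ (twoSet x = ∅ ↔ twoSet y = ∅)

/-- Equal kind and equal values on `K` give a monomial relation fixing `K`. -/
theorem mono_rel32 (K : Finset GolayPt) (hKc : K.card ≤ 2)
    (hoct : ∀ O O' : Finset GolayPt, O ∈ octads → O' ∈ octads → (∀ k ∈ K, (k ∈ O ↔ k ∈ O')) →
      ∃ σ ∈ M24, (∀ k ∈ K, σ k = k) ∧ σ • O = O')
    {x y : leechLattice} (hx : sqNorm (x : GolayPt → ℤ) = 32) (hy : sqNorm (y : GolayPt → ℤ) = 32)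
    (hk : SameKind (x : GolayPt → ℤ) (y : GolayPt → ℤ))
    (hK : ∀ k ∈ K, (x : GolayPt → ℤ) k = (y : GolayPt → ℤ) k) :
    ∃ p : M24 × CC, (∀ k ∈ K, (p.1 : Equiv.Perm GolayPt) k = k ∧ k ∉ (p.2 : Finset GolayPt)) ∧
      monoElt p • x = y := by
  obtain ⟨hpar, htwo⟩ := hk
  have epar : ∀ {z : GolayPt → ℤ} {A : Finset GolayPt} {a r : ℤ}, AbsShape z A a r → a % 2 = r % 2 →
      z none % 2 = r % 2 := by
    intro z A a r hz har
    rw [even_iff_abs, hz none]
    split <;> omega
  rcases shape32 x.2 hx with ⟨O, hO, sx⟩ | ⟨A, hA, sx⟩ | ⟨p, sx⟩ <;>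
    rcases shape32 y.2 hy with ⟨O', hO', sy⟩ | ⟨A', hA', sy⟩ | ⟨p', sy⟩
  -- octad shapes
  · obtain ⟨σ, hσ, hfix, hOO⟩ := hoct O O' hO hO' fun k hk' => by
      have h1 := sx k; rw [hK k hk', sy k] at h1
      by_cases a : k ∈ O <;> by_cases b : k ∈ O' <;> simp [a, b] at h1 ⊢
    refine exists_monomial K σ hσ hfix (abs_of_smul sx sy hOO) hK fun _ => ⟨fun i => ?_, ?_, ?_⟩
    · rw [sy i]; split <;> simp
    · rw [twoSet_eq sy]; exact hO'.1
    · rw [twoSet_eq sy]
      have := Finset.card_union_le (Finset.univ.filter fun i => (y : GolayPt → ℤ) i ≠ 0) (K \ O')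
      have h1 := Finset.card_le_card (support_subset sy)
      have h2 : (K \ O').card ≤ K.card := Finset.card_le_card Finset.sdiff_subset
      have h3 := card_octad hO'
      omega
  · exfalso
    rw [twoSet_eq sx, twoSet_empty sy (by norm_num) (by norm_num)] at htwo
    have := htwo.2 rfl
    rw [this] at hO
    simpa using card_octad hO
  · exfalso
    rw [epar sx (by norm_num), epar sy (by norm_num)] at hpar
    omega
  · exfalso
    rw [twoSet_eq sy, twoSet_empty sx (by norm_num) (by norm_num)] at htwo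
    have := htwo.1 rfl
    rw [this] at hO'
    simpa using card_octad hO'
  -- pairs of fours
  · have hAK : A ∩ K = A' ∩ K := by
      ext k
      simp only [Finset.mem_inter]
      by_cases hk' : k ∈ K
      · have h1 := sx k; rw [hK k hk', sy k] at h1
        by_cases a : k ∈ A <;> by_cases b : k ∈ A' <;> simp [a, b, hk'] at h1 ⊢
      · simp [hk']
    have hcard : (A \ K).card = (A' \ K).card := by
      have h1 := Finset.card_sdiff_add_card_inter A K
      have h2 := Finset.card_sdiff_add_card_inter A' K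
      rw [hAK] at h1
      omega
    obtain ⟨σ, hσ, hfix, hs⟩ := exists_perm_sets K (A \ K) (A' \ K) Finset.disjoint_sdiff Finset.disjoint_sdiff
      hcard (by have : (A \ K).card ≤ A.card := Finset.card_le_card Finset.sdiff_subset; omega)
    have hσA : σ • A = A' := by
      have h3 : σ • (A ∩ K) = A' ∩ K := by
        rw [hAK]
        ext i
        rw [Finset.mem_smul_finset]
        exact ⟨fun ⟨j, hj, e⟩ => by
            rw [Equiv.Perm.smul_def, hfix j (Finset.mem_inter.1 hj).2] at e; exact e ▸ hj,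
          fun hi => ⟨i, hi, hfix i (Finset.mem_inter.1 hi).2⟩⟩
      rw [← Finset.sdiff_union_inter A K, Finset.smul_finset_union, hs, h3, Finset.sdiff_union_inter]
    refine exists_monomial K σ hσ hfix (abs_of_smul sx sy hσA) hK fun _ => ⟨fun i => ?_, ?_, ?_⟩
    · rw [sy i]; split <;> simp
    · rw [twoSet_empty sy (by norm_num) (by norm_num)]; exact empty_mem_CC
    · rw [twoSet_empty sy (by norm_num) (by norm_num), Finset.sdiff_empty, Finset.card_empty]
      have := Finset.card_union_le (Finset.univ.filter fun i => (y : GolayPt → ℤ) i ≠ 0) K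
      have h1 := Finset.card_le_card (support_subset sy)
      omega
  · exfalso
    rw [epar sx (by norm_num), epar sy (by norm_num)] at hpar
    omega
  · exfalso
    rw [epar sx (by norm_num), epar sy (by norm_num)] at hpar
    omega
  · exfalso
    rw [epar sx (by norm_num), epar sy (by norm_num)] at hpar
    omega
  -- odd shapes
  · by_cases hpK : p ∈ K
    · have hpp : p = p' := by
        have h1 := sx p; rw [hK p hpK, sy p] at h1
        simpa using h1
      exact exists_monomial K 1 M24.one_mem (fun k _ => rfl)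
        (fun i => by rw [sx i, sy ((1 : Equiv.Perm GolayPt) i), hpp]; rfl) hK (fun h => by
          rw [epar sy (by norm_num)] at h; omega)
    · have hpK' : p' ∉ K := by
        intro h
        have h1 := sx p'; rw [hK p' h, sy p'] at h1
        simp at h1
        exact hpK (h1 ▸ h)
      obtain ⟨σ, hσ, hfix, hs⟩ := exists_perm_sets K {p} {p'} (by simpa using hpK) (by simpa using hpK') rfl
        (by simp; omega)
      exact exists_monomial K σ hσ hfix (abs_of_smul sx sy hs) hK (fun h => by
          rw [epar sy (by norm_num)] at h; omega)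

/-- The base vector `4 e_a + 4 e_b`. -/
def baseVec : leechLattice := plusVec ptA ptB

theorem monoElt_fix {p : M24 × CC}
    (h : ∀ k ∈ pairSet, (p.1 : Equiv.Perm GolayPt) k = k ∧ k ∉ (p.2 : Finset GolayPt)) :
    monoElt p • baseVec = baseVec := by
  refine Subtype.ext (funext fun i => ?_)
  rw [monoElt_apply]
  obtain ⟨ha, ha'⟩ := h none (by simp [pairSet])
  obtain ⟨hb, hb'⟩ := h (some 0) (by simp [pairSet])
  have e1 : (p.1 : Equiv.Perm GolayPt).symm i = none ↔ i = none := by rw [Equiv.symm_apply_eq, ha]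
  have e2 : (p.1 : Equiv.Perm GolayPt).symm i = some 0 ↔ i = some 0 := by rw [Equiv.symm_apply_eq, hb]
  simp only [signedPerm, baseVec, plusVec, ptA, ptB, e1, e2]
  by_cases hi : i ∈ (p.2 : Finset GolayPt)
  · have h1 : i ≠ none := fun e => ha' (e ▸ hi)
    have h2 : i ≠ some 0 := fun e => hb' (e ▸ hi)
    simp [hi, h1, h2]
  · by_cases h1 : i = none <;> by_cases h2 : i = some 0 <;> subst_vars <;> simp_all

theorem mono_rel32_pair {x y : leechLattice} (hx : sqNorm (x : GolayPt → ℤ) = 32)
    (hy : sqNorm (y : GolayPt → ℤ) = 32) (hk : SameKind (x : GolayPt → ℤ) (y : GolayPt → ℤ))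
    (ha : (x : GolayPt → ℤ) ptA = (y : GolayPt → ℤ) ptA) (hb : (x : GolayPt → ℤ) ptB = (y : GolayPt → ℤ) ptB) :
    ∃ g : Co0, g • baseVec = baseVec ∧ g • x = y := by
  obtain ⟨p, hp, he⟩ := mono_rel32 pairSet Finset.card_le_two
    (fun O O' hO hO' h => octad_pair_transitive hO hO' (h ptA (by simp [pairSet, ptA]))
      (h ptB (by simp [pairSet, ptB]))) hx hy hk (by simp [pairSet]; exact ⟨ha, hb⟩)
  exact ⟨monoElt p, monoElt_fix hp, he⟩

theorem mono_rel32_all {x y : leechLattice} (hx : sqNorm (x : GolayPt → ℤ) = 32)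
    (hy : sqNorm (y : GolayPt → ℤ) = 32) (hk : SameKind (x : GolayPt → ℤ) (y : GolayPt → ℤ)) :
    ∃ g : Co0, g • x = y := by
  obtain ⟨p, -, he⟩ := mono_rel32 ∅ (by simp)
    (fun O O' hO hO' _ => by obtain ⟨σ, h, e⟩ := octad_transitive hO hO'; exact ⟨σ, h, by simp, e⟩)
    hx hy hk (by simp)
  exact ⟨monoElt p, he⟩

end Cfsg.Lib.Leech
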