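import Mathlib
import Cfsg.Prelude.Def_Sporadic_a
import Cfsg.Agent.Lib.Leech.FuseData
import Cfsg.Agent.Lib.Leech.Orbits

/-!
Transitivity on minimal vectors, and of a vector stabiliser on minimal vectors with a given inner
product.
-/

set_option autoImplicit false
set_option linter.unusedSimpArgs false

namespace Cfsg.Lib.Leech

open Cfsg Cfsg.Lib.Golay
open scoped Pointwise

local notation "CC" => supports (golayCode : Set (GolayPt → ZMod 2))

/-- The vector of a list of integers. -/
def ofList (l : List ℤ) : GolayPt → ℤ := fun p => l.getD (idx p) 0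

theorem rho_check : keepsCode rhoList = true ∧ keepsCode piList2 = true ∧
    (∀ i : GolayPt, mapFun rhoList (mapFun rhoInvList i) = i) ∧
    (∀ i : GolayPt, mapFun piList2 (mapFun piInvList2 i) = i) := by decide +kernel

theorem perm_inv_eq {l l' : List ℕ} (hl : keepsCode l = true) (h : ∀ i : GolayPt, mapFun l (mapFun l' i) = i)
    (i : GolayPt) : (permOf l)⁻¹ i = mapFun l' i := by
  have hp : isPermList l = true := by simp only [keepsCode, Bool.and_eq_true] at hl; exact hl.1
  rw [Equiv.Perm.inv_def, Equiv.symm_apply_eq, permOf_apply hp]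
  exact (h i).symm

/-- The coordinate formula for `etaElt`. -/
def etaFun (x : GolayPt → ℤ) : GolayPt → ℤ :=
  fun i => xiFun (fun j => x (mapFun rhoInvList j)) (mapFun piInvList2 i)

/-- An automorphism fixing `baseVec` outside the monomial group. -/
noncomputable def etaElt : Co0 :=
  permElt (permOf piList2) (permOf_mem_M24 rho_check.2.1) * xiElt *
    permElt (permOf rhoList) (permOf_mem_M24 rho_check.1)

theorem etaElt_apply (x : leechLattice) :
    ((etaElt • x : leechLattice) : GolayPt → ℤ) = etaFun (x : GolayPt → ℤ) := by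
  funext i
  simp only [etaElt, mul_smul, permElt_apply, xiElt_apply, etaFun, perm_inv_eq rho_check.2.1 rho_check.2.2.2]
  congr 1
  funext j
  rw [permElt_apply, perm_inv_eq rho_check.1 rho_check.2.2.1]

theorem eta_base_check : etaFun (fun i => (if i = none then (4 : ℤ) else 0) + (if i = some 0 then 4 else 0)) =
    fun i => (if i = none then (4 : ℤ) else 0) + (if i = some 0 then 4 else 0) := by decide +kernel

theorem etaElt_fix : etaElt • baseVec = baseVec :=
  Subtype.ext (by rw [etaElt_apply]; exact eta_base_check)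

/-- The orbit invariant relative to `baseVec`. -/
def key (x : GolayPt → ℤ) : Bool × ℤ × ℤ := (decide (twoSet x = ∅), x ptA, x ptB)

theorem rel_of_key {x y : leechLattice} (hx : sqNorm (x : GolayPt → ℤ) = 32) (hy : sqNorm (y : GolayPt → ℤ) = 32)
    (h : key (x : GolayPt → ℤ) = key (y : GolayPt → ℤ)) : ∃ g : Co0, g • baseVec = baseVec ∧ g • x = y := by
  simp only [key, Prod.mk.injEq, decide_eq_decide] at h
  exact mono_rel32_pair hx hy ⟨by rw [show (x : GolayPt → ℤ) none = (y : GolayPt → ℤ) none from h.2.1], h.1⟩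
    h.2.1 h.2.2

/-- All vectors with key `k` are in the orbit of `hub`. -/
def Linked (hub : leechLattice) (k : Bool × ℤ × ℤ) : Prop :=
  ∀ x : leechLattice, sqNorm (x : GolayPt → ℤ) = 32 → key (x : GolayPt → ℤ) = k →
    ∃ g : Co0, g • baseVec = baseVec ∧ g • x = hub

theorem linked_self {hub : leechLattice} (h : sqNorm (hub : GolayPt → ℤ) = 32) :
    Linked hub (key (hub : GolayPt → ℤ)) := fun _ hx hk => rel_of_key hx h hk

/-- A witness moves the link along `etaElt`. -/
theorem linked_step {hub : leechLattice} {l : List ℤ} (hl : CheckVec (ofList l) ∧ sqNorm (ofList l) = 32)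
    (h : Linked hub (key (ofList l))) : Linked hub (key (etaFun (ofList l))) := by
  intro x hx hk
  let w : leechLattice := ⟨ofList l, mem_of_check hl.1⟩
  obtain ⟨g1, f1, e1⟩ := rel_of_key (y := etaElt • w) hx (by rw [co0_norm]; exact hl.2) (by rw [hk, etaElt_apply])
  obtain ⟨g2, f2, e2⟩ := h w hl.2 rfl
  refine ⟨g2 * etaElt⁻¹ * g1, ?_, ?_⟩
  · rw [mul_smul, mul_smul, f1, inv_smul_eq_iff.2 etaElt_fix.symm, f2]
  · rw [mul_smul, mul_smul, e1, inv_smul_smul, e2]

theorem wit_check : ∀ l ∈ wit16 ++ wit8 ++ wit0 ++ wit0b, CheckVec (ofList l) ∧ sqNorm (ofList l) = 32 := by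
  decide +kernel

theorem keys16 : wit16.map (fun l => key (ofList l)) = List.replicate 5 (false, -2, -2) ∧
    wit16.map (fun l => key (etaFun (ofList l))) =
      [(false, -2, -2), (true, -3, -1), (true, -1, -3), (true, -4, 0), (true, 0, -4)] := by decide +kernel

theorem keys8 : wit8.map (fun l => key (ofList l)) = List.replicate 5 (false, -2, 0) ∧
    wit8.map (fun l => key (etaFun (ofList l))) =
      [(false, -2, 0), (false, 0, -2), (true, -3, 1), (true, -1, -1), (true, 1, -3)] := by decide +kernel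

theorem keys0 : wit0.map (fun l => key (ofList l)) = List.replicate 6 (true, 0, 0) ∧
    wit0.map (fun l => key (etaFun (ofList l))) =
      [(false, -2, 2), (false, 0, 0), (false, 2, -2), (true, -4, 4), (true, 0, 0), (true, 4, -4)] ∧
    wit0b.map (fun l => key (ofList l)) = List.replicate 2 (false, 0, 0) ∧
    wit0b.map (fun l => key (etaFun (ofList l))) = [(true, -1, 1), (true, 1, -1)] := by decide +kernel

theorem linked_of_list {hub : leechLattice} {W : List (List ℤ)} {k0 : Bool × ℤ × ℤ} {n : ℕ}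
    (hW : ∀ l ∈ W, CheckVec (ofList l) ∧ sqNorm (ofList l) = 32)
    (hsrc : W.map (fun l => key (ofList l)) = List.replicate n k0) (h : Linked hub k0)
    {k : Bool × ℤ × ℤ} (hk : k ∈ W.map (fun l => key (etaFun (ofList l)))) : Linked hub k := by
  obtain ⟨l, hl, rfl⟩ := List.mem_map.1 hk
  have : key (ofList l) ∈ W.map (fun l => key (ofList l)) := List.mem_map.2 ⟨l, hl, rfl⟩
  rw [hsrc] at this
  exact linked_step (hW l hl) ((List.eq_of_mem_replicate this).symm ▸ h)

theorem dot_base (x : GolayPt → ℤ) :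
    dotInt ((baseVec : leechLattice) : GolayPt → ℤ) x = 4 * x ptA + 4 * x ptB := by
  simp [dotInt, baseVec, plusVec, ptA, ptB, add_mul, Finset.sum_add_distrib, ite_mul, zero_mul]

theorem key_cases {x : leechLattice} (hx : sqNorm (x : GolayPt → ℤ) = 32) :
    let a := (x : GolayPt → ℤ) ptA
    let b := (x : GolayPt → ℤ) ptB
    (twoSet (x : GolayPt → ℤ) ≠ ∅ ∧ (a = 0 ∨ a = 2 ∨ a = -2) ∧ (b = 0 ∨ b = 2 ∨ b = -2)) ∨
    (twoSet (x : GolayPt → ℤ) = ∅ ∧ (a = 0 ∨ a = 4 ∨ a = -4) ∧ (b = 0 ∨ b = 4 ∨ b = -4)) ∨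
    (twoSet (x : GolayPt → ℤ) = ∅ ∧ (a = 1 ∨ a = -1 ∨ a = 3 ∨ a = -3) ∧ (b = 1 ∨ b = -1 ∨ b = 3 ∨ b = -3) ∧
      ¬ ((a = 3 ∨ a = -3) ∧ (b = 3 ∨ b = -3))) := by
  intro a b
  rcases shape32 x.2 hx with ⟨O, hO, s⟩ | ⟨A, -, s⟩ | ⟨p, s⟩
  · refine Or.inl ⟨?_, ?_, ?_⟩
    · rw [twoSet_eq s]
      intro h
      rw [h] at hO
      simpa using card_octad hO
    all_goals
      first
        | (have h := s ptA; split at h <;> rcases abs_eq_iff' _ _ (h.trans (abs_of_nonneg (by norm_num)).symm) with
            e | e <;> simp [a, e]; done)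
        | (have h := s ptB; split at h <;> rcases abs_eq_iff' _ _ (h.trans (abs_of_nonneg (by norm_num)).symm) with
            e | e <;> simp [b, e]; done)
  · refine Or.inr (Or.inl ⟨twoSet_empty s (by norm_num) (by norm_num), ?_, ?_⟩)
    all_goals
      first
        | (have h := s ptA; split at h <;> rcases abs_eq_iff' _ _ (h.trans (abs_of_nonneg (by norm_num)).symm) with
            e | e <;> simp [a, e]; done)
        | (have h := s ptB; split at h <;> rcases abs_eq_iff' _ _ (h.trans (abs_of_nonneg (by norm_num)).symm) with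
            e | e <;> simp [b, e]; done)
  · refine Or.inr (Or.inr ⟨twoSet_empty s (by norm_num) (by norm_num), ?_, ?_, ?_⟩)
    · have h := s ptA
      split at h <;> rcases abs_eq_iff' _ _ (h.trans (abs_of_nonneg (by norm_num)).symm) with e | e <;> simp [a, e]
    · have h := s ptB
      split at h <;> rcases abs_eq_iff' _ _ (h.trans (abs_of_nonneg (by norm_num)).symm) with e | e <;> simp [b, e]
    · rintro ⟨ha, hb⟩
      have h1 := s ptA
      have h2 := s ptB
      simp only [Finset.mem_singleton] at h1 h2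
      rcases ha with ha | ha <;> rcases hb with hb | hb <;> simp only [a, b] at ha hb <;> rw [ha] at h1 <;>
        rw [hb] at h2 <;> split at h1 <;> split at h2 <;>
        first | omega | (simp_all [ptA, ptB]; done) |
          exact absurd (‹ptA = p›.trans ‹ptB = p›.symm) (by decide)

/-- A chosen vector for each inner product. -/
def hub16 : leechLattice :=
  ⟨ofList (wit16.getD 0 []), mem_of_check (wit_check _ (by decide)).1⟩
/-- A chosen vector for each inner product. -/
def hub8 : leechLattice :=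
  ⟨ofList (wit8.getD 0 []), mem_of_check (wit_check _ (by decide)).1⟩
/-- A chosen vector for each inner product. -/
def hub0 : leechLattice :=
  ⟨ofList (wit0.getD 0 []), mem_of_check (wit_check _ (by decide)).1⟩

theorem to_hub {x : leechLattice} (hx : sqNorm (x : GolayPt → ℤ) = 32) :
    (dotInt ((baseVec : leechLattice) : GolayPt → ℤ) x = -16 →
      ∃ g : Co0, g • baseVec = baseVec ∧ g • x = hub16) ∧
    (dotInt ((baseVec : leechLattice) : GolayPt → ℤ) x = -8 →
      ∃ g : Co0, g • baseVec = baseVec ∧ g • x = hub8) ∧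
    (dotInt ((baseVec : leechLattice) : GolayPt → ℤ) x = 0 →
      ∃ g : Co0, g • baseVec = baseVec ∧ g • x = hub0) := by
  have hn : ∀ l ∈ wit16 ++ wit8 ++ wit0 ++ wit0b, sqNorm (ofList l) = 32 := fun l hl => (wit_check l hl).2
  have hkc := key_cases hx
  simp only at hkc
  refine ⟨fun hd => ?_, fun hd => ?_, fun hd => ?_⟩
  · have h0 : Linked hub16 (false, -2, -2) := by
      have := linked_self (hub := hub16) (hn _ (by decide))
      rwa [show key (hub16 : GolayPt → ℤ) = (false, -2, -2) from
        (show key (ofList (wit16.getD 0 [])) = _ by decide +kernel)] at this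
    refine linked_of_list (fun l hl => wit_check l (by simp [hl])) keys16.1 h0 ?_ x hx rfl
    rw [keys16.2, dot_base] at *
    simp only [key, List.mem_cons, Prod.mk.injEq, List.not_mem_nil, or_false, decide_eq_true_eq,
      decide_eq_false_iff_not]
    rcases hkc with ⟨ht, hkc⟩ | ⟨ht, hkc⟩ | ⟨ht, hkc⟩ <;>
      (try simp only [ne_eq] at ht) <;>
      simp only [ht, not_false_eq_true, not_true_eq_false, true_and, false_and, or_false, false_or] <;> omega
  · have h0 : Linked hub8 (false, -2, 0) := by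
      have := linked_self (hub := hub8) (hn _ (by decide))
      rwa [show key (hub8 : GolayPt → ℤ) = (false, -2, 0) from
        (show key (ofList (wit8.getD 0 [])) = _ by decide +kernel)] at this
    refine linked_of_list (fun l hl => wit_check l (by simp [hl])) keys8.1 h0 ?_ x hx rfl
    rw [keys8.2, dot_base] at *
    simp only [key, List.mem_cons, Prod.mk.injEq, List.not_mem_nil, or_false, decide_eq_true_eq,
      decide_eq_false_iff_not]
    rcases hkc with ⟨ht, hkc⟩ | ⟨ht, hkc⟩ | ⟨ht, hkc⟩ <;>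
      (try simp only [ne_eq] at ht) <;>
      simp only [ht, not_false_eq_true, not_true_eq_false, true_and, false_and, or_false, false_or] <;> omega
  · have h0 : Linked hub0 (true, 0, 0) := by
      have := linked_self (hub := hub0) (hn _ (by decide))
      rwa [show key (hub0 : GolayPt → ℤ) = (true, 0, 0) from
        (show key (ofList (wit0.getD 0 [])) = _ by decide +kernel)] at this
    have hA : Linked hub0 (false, 0, 0) :=
      linked_of_list (fun l hl => wit_check l (by simp [hl])) keys0.1 h0 (by rw [keys0.2.1]; decide)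
    have hk : key (x : GolayPt → ℤ) ∈ wit0.map (fun l => key (etaFun (ofList l))) ∨
        key (x : GolayPt → ℤ) ∈ wit0b.map (fun l => key (etaFun (ofList l))) := by
      rw [dot_base] at hd
      rw [keys0.2.1, keys0.2.2.2]
      simp only [key, List.mem_cons, Prod.mk.injEq, List.not_mem_nil, or_false, decide_eq_true_eq,
        decide_eq_false_iff_not]
      rcases hkc with ⟨ht, hkc⟩ | ⟨ht, hkc⟩ | ⟨ht, hkc⟩ <;>
        (try simp only [ne_eq] at ht) <;>
        simp only [ht, not_false_eq_true, not_true_eq_false, true_and, false_and, or_false, false_or] <;> omega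
    rcases hk with hk | hk
    · exact linked_of_list (fun l hl => wit_check l (by simp [hl])) keys0.1 h0 hk x hx rfl
    · exact linked_of_list (fun l hl => wit_check l (by simp [hl])) keys0.2.2.1 hA hk x hx rfl

theorem baseVec_norm : sqNorm ((baseVec : leechLattice) : GolayPt → ℤ) = 32 := plusVec_norm _ _ (by decide)

/-- Transitivity on minimal vectors. -/
theorem exists_to_base32 {x : leechLattice} (hx : sqNorm (x : GolayPt → ℤ) = 32) :
    ∃ g : Co0, g • x = baseVec := by
  have c1 : CheckVec (ofList (wit16.getD 1 [])) ∧ sqNorm (ofList (wit16.getD 1 [])) = 32 :=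
    wit_check _ (by decide)
  let w : leechLattice := ⟨_, mem_of_check c1.1⟩
  have hA : (xiFun (fun i => (if i = none then (4 : ℤ) else 0) + (if i = some 0 then 4 else 0)) none % 2 = 0 ∧
        twoSet (xiFun (fun i => (if i = none then (4 : ℤ) else 0) + (if i = some 0 then 4 else 0))) ≠ ∅) ∧
      (ofList (wit16.getD 1 []) none % 2 = 0 ∧ twoSet (ofList (wit16.getD 1 [])) ≠ ∅) ∧
      etaFun (ofList (wit16.getD 1 [])) none % 2 ≠ 0 ∧
      twoSet (fun i : GolayPt => (if i = none then (4 : ℤ) else 0) + (if i = some 0 then 4 else 0)) = ∅ := by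
    decide +kernel
  obtain ⟨⟨a1, a2⟩, ⟨b1, b2⟩, c2, d2⟩ := hA
  -- octad shape
  have gA : ∀ y : leechLattice, sqNorm (y : GolayPt → ℤ) = 32 → (y : GolayPt → ℤ) none % 2 = 0 →
      twoSet (y : GolayPt → ℤ) ≠ ∅ → ∃ g : Co0, g • y = baseVec := by
    intro y hy h1 h2
    obtain ⟨g, hg⟩ := mono_rel32_all (y := xiElt • baseVec) hy (by rw [co0_norm]; exact baseVec_norm)
      ⟨by rw [xiElt_apply]; exact h1.trans a1.symm, by rw [xiElt_apply]; exact iff_of_false h2 a2⟩
    exact ⟨xiElt⁻¹ * g, by rw [mul_smul, hg, inv_smul_smul]⟩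
  by_cases h0 : (x : GolayPt → ℤ) none % 2 = 0
  · by_cases h2 : twoSet (x : GolayPt → ℤ) = ∅
    · exact mono_rel32_all hx baseVec_norm ⟨h0.trans (by decide), iff_of_true h2 d2⟩
    · exact gA x hx h0 h2
  · obtain ⟨g', hg'⟩ := gA w c1.2 b1 b2
    have hodd : ∀ y : leechLattice, sqNorm (y : GolayPt → ℤ) = 32 → (y : GolayPt → ℤ) none % 2 ≠ 0 →
        twoSet (y : GolayPt → ℤ) = ∅ := fun y _ hy => Finset.filter_false_of_mem fun i _ h => by
      have := parity y.2 i
      rw [even_iff_abs, h] at this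
      omega
    have hwn : sqNorm ((etaElt • w : leechLattice) : GolayPt → ℤ) = 32 := by rw [co0_norm]; exact c1.2
    have c2' : ((etaElt • w : leechLattice) : GolayPt → ℤ) none % 2 ≠ 0 := by rw [etaElt_apply]; exact c2
    obtain ⟨g, hg⟩ := mono_rel32_all (y := etaElt • w) hx hwn
      ⟨by omega, iff_of_true (hodd x hx h0) (hodd _ hwn c2')⟩
    exact ⟨g' * etaElt⁻¹ * g, by rw [mul_smul, mul_smul, hg, inv_smul_smul, hg']⟩

theorem trans32 {v w : leechLattice} (hv : sqNorm (v : GolayPt → ℤ) = 32) (hw : sqNorm (w : GolayPt → ℤ) = 32) :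
    ∃ g : Co0, g • v = w := by
  obtain ⟨g, hg⟩ := exists_to_base32 hv
  obtain ⟨k, hk⟩ := exists_to_base32 hw
  exact ⟨k⁻¹ * g, by rw [mul_smul, hg, ← hk, inv_smul_smul]⟩

/-- Transitivity of the stabiliser on minimal vectors with a given inner product. -/
theorem trans_dot {v w w' : leechLattice} (hv : sqNorm (v : GolayPt → ℤ) = 32)
    (hw : sqNorm (w : GolayPt → ℤ) = 32) (hw' : sqNorm (w' : GolayPt → ℤ) = 32) {d : ℤ}
    (hd0 : d = -16 ∨ d = -8 ∨ d = 0)
    (hd : dotInt (v : GolayPt → ℤ) w = d) (hd' : dotInt (v : GolayPt → ℤ) w' = d) :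
    ∃ g : Co0, g • v = v ∧ g • w = w' := by
  obtain ⟨h, hh⟩ := exists_to_base32 hv
  have e1 : dotInt ((baseVec : leechLattice) : GolayPt → ℤ) (h • w : leechLattice) = d := by
    rw [← hh, co0_dot, hd]
  have e2 : dotInt ((baseVec : leechLattice) : GolayPt → ℤ) (h • w' : leechLattice) = d := by
    rw [← hh, co0_dot, hd']
  have n1 : sqNorm ((h • w : leechLattice) : GolayPt → ℤ) = 32 := by rw [co0_norm, hw]
  have n2 : sqNorm ((h • w' : leechLattice) : GolayPt → ℤ) = 32 := by rw [co0_norm, hw']
  obtain ⟨T, g1, f1, t1, g2, f2, t2⟩ : ∃ (T : leechLattice) (g1 : Co0), g1 • baseVec = baseVec ∧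
      g1 • (h • w) = T ∧ ∃ g2 : Co0, g2 • baseVec = baseVec ∧ g2 • (h • w') = T := by
    rcases hd0 with rfl | rfl | rfl
    · obtain ⟨g1, a, b⟩ := (to_hub n1).1 e1; exact ⟨_, g1, a, b, (to_hub n2).1 e2⟩
    · obtain ⟨g1, a, b⟩ := (to_hub n1).2.1 e1; exact ⟨_, g1, a, b, (to_hub n2).2.1 e2⟩
    · obtain ⟨g1, a, b⟩ := (to_hub n1).2.2 e1; exact ⟨_, g1, a, b, (to_hub n2).2.2 e2⟩
  refine ⟨h⁻¹ * (g2⁻¹ * g1) * h, ?_, ?_⟩
  · rw [mul_smul, hh, mul_smul, mul_smul, f1, inv_smul_eq_iff.2 f2.symm, ← hh, inv_smul_smul]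
  · rw [mul_smul, mul_smul, mul_smul, t1, ← t2, inv_smul_smul, inv_smul_smul]

end Cfsg.Lib.Leech
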