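import Mathlib
import Cfsg.Prelude.Def_Sporadic_a
import Cfsg.Agent.Lib.Leech.CountBase

/-!
The numbers of lattice vectors of the first three norms, overall and by shape.
-/

set_option autoImplicit false

namespace Cfsg.Lib.Leech

open Cfsg Cfsg.Lib.Golay

/-- Total of the class counts. -/
def uniformTotal (P : ℤ → Bool) (N : ℕ) : ℕ :=
  uniformVal P N false 0 + 759 * uniformVal P N false 8 + 2576 * uniformVal P N false 12 +
      759 * uniformVal P N false 16 + uniformVal P N false 24 +
    (uniformVal P N true 0 + 759 * uniformVal P N true 8 + 2576 * uniformVal P N true 12 +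
      759 * uniformVal P N true 16 + uniformVal P N true 24)

theorem total32 : uniformTotal (fun _ => true) 32 = 196560 := by decide +kernel
theorem total48 : uniformTotal (fun _ => true) 48 = 16773120 := by decide +kernel
theorem total64 : uniformTotal (fun _ => true) 64 = 398034000 := by decide +kernel
theorem small48 : uniformTotal (fun v => v == 0 || v == 2 || v == -2) 48 = 5275648 := by decide +kernel
theorem nofour48 : uniformTotal (fun v => !(v == 4 || v == -4)) 48 + 3108864 = 16773120 := by decide +kernel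
theorem nofive48 : uniformTotal (fun v => !(v == 5 || v == -5)) 48 + 98304 = 16773120 := by decide +kernel
theorem oneThree48 : uniformTotal (fun v => v == 1 || v == -1 || v == 3 || v == -3) 48 = 8290304 := by
  decide +kernel

theorem ncard_total (N : ℕ) (hN : N ≤ 64) :
    {x : GolayPt → ℤ | x ∈ leechLattice ∧ sqNorm x = N}.ncard = uniformTotal (fun _ => true) N := by
  have h := ncard_uniform (fun _ => true) N hN
  simpa [uniformTotal] using h

theorem ncard32 : {x : GolayPt → ℤ | x ∈ leechLattice ∧ sqNorm x = 32}.ncard = 196560 := by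
  rw [← total32]; exact_mod_cast ncard_total 32 (by omega)

theorem ncard48 : {x : GolayPt → ℤ | x ∈ leechLattice ∧ sqNorm x = 48}.ncard = 16773120 := by
  rw [← total48]; exact_mod_cast ncard_total 48 (by omega)

theorem ncard64 : {x : GolayPt → ℤ | x ∈ leechLattice ∧ sqNorm x = 64}.ncard = 398034000 := by
  rw [← total64]; exact_mod_cast ncard_total 64 (by omega)

theorem finite_norm (N : ℕ) (hN : N ≤ 64) :
    {x : GolayPt → ℤ | x ∈ leechLattice ∧ sqNorm x = N}.Finite := by
  refine (Fintype.piFinset fun _ : GolayPt => valRange).finite_toSet.subset fun x hx => ?_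
  rw [Finset.mem_coe, Fintype.mem_piFinset]
  intro i
  rw [mem_valRange]
  have h5 : x i ^ 2 ≤ sqNorm x :=
    Finset.single_le_sum (f := fun i => x i ^ 2) (fun i _ => sq_nonneg (x i)) (Finset.mem_univ i)
  rw [hx.2] at h5
  exact abs_le.1 (abs_le_of_sq_le_sq (le_trans h5 (by exact_mod_cast hN)) (by norm_num))

/-- Splitting off the vectors with a coordinate of absolute value `d`. -/
theorem ncard_exists_abs (N : ℕ) (hN : N ≤ 64) (d : ℤ) (hd : 0 ≤ d) :
    {x : GolayPt → ℤ | x ∈ leechLattice ∧ sqNorm x = N ∧ ∃ i, |x i| = d}.ncard +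
      uniformTotal (fun v => !(v == d || v == -d)) N = uniformTotal (fun _ => true) N := by
  rw [← ncard_total N hN, show uniformTotal (fun v => !(v == d || v == -d)) N = _ from
    (ncard_uniform (fun v => !(v == d || v == -d)) N hN).symm]
  have hf : ∀ q : (GolayPt → ℤ) → Prop, {x : GolayPt → ℤ | x ∈ leechLattice ∧ sqNorm x = N ∧ q x}.Finite :=
    fun q => (finite_norm N hN).subset fun x hx => ⟨hx.1, hx.2.1⟩
  rw [← Set.ncard_union_eq ?_ (hf _) (hf _)]
  · congr 1
    ext x
    simp only [Set.mem_union, Set.mem_ofPred_eq, Bool.not_eq_true', Bool.or_eq_false_iff, beq_eq_false_iff_ne,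
      abs_eq hd]
    constructor
    · rintro (⟨a, b, -⟩ | ⟨a, b, -⟩) <;> exact ⟨a, b⟩
    · rintro ⟨a, b⟩
      by_cases h : ∃ i, x i = d ∨ x i = -d
      · exact Or.inl ⟨a, b, h⟩
      · push Not at h
        exact Or.inr ⟨a, b, h⟩
  · rw [Set.disjoint_left]
    rintro x ⟨-, -, i, hi⟩ ⟨-, -, h⟩
    simp only [Bool.not_eq_true', Bool.or_eq_false_iff, beq_eq_false_iff_ne] at h
    rcases (abs_eq hd).1 hi with e | e
    · exact (h i).1 e
    · exact (h i).2 e

theorem sq_excess (v : ℤ) (h : v % 2 = 1) (h3 : v ≠ 1 ∧ v ≠ -1 ∧ v ≠ 3 ∧ v ≠ -3) : 25 ≤ v ^ 2 := by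
  rcases le_total 0 v with hv | hv
  · have : 5 ≤ v := by omega
    nlinarith
  · have : v ≤ -5 := by omega
    nlinarith

/-- Three coordinates `±3` in norm 48 means all coordinates are `±1` or `±3`. -/
theorem three_threes {x : GolayPt → ℤ} (hx : x ∈ leechLattice) (hn : sqNorm x = 48) :
    (∃ i j k, i ≠ j ∧ j ≠ k ∧ i ≠ k ∧ |x i| = 3 ∧ |x j| = 3 ∧ |x k| = 3) ↔
      ∀ i, x i = 1 ∨ x i = -1 ∨ x i = 3 ∨ x i = -3 := by
  constructor
  · rintro ⟨i, j, k, hij, hjk, hik, hi, hj, hk⟩ l
    have hp := parity hx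
    have hodd : ∀ m, x m % 2 = 1 := fun m => by
      rw [hp m, ← hp i]
      rcases (abs_eq (by norm_num : (0 : ℤ) ≤ 3)).1 hi with e | e <;> rw [e] <;> rfl
    by_contra hne
    push Not at hne
    have hl := sq_excess _ (hodd l) hne
    have hge : ∀ m, (1 : ℤ) ≤ x m ^ 2 := fun m => by
      have : x m ≠ 0 := fun e => by have := hodd m; rw [e] at this; omega
      nlinarith [Int.one_le_abs this, sq_abs (x m)]
    have h9 : ∀ m, |x m| = 3 → x m ^ 2 = 9 := fun m e => by rw [← sq_abs, e]; norm_num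
    have hlne : l ≠ i ∧ l ≠ j ∧ l ≠ k := by
      refine ⟨?_, ?_, ?_⟩ <;> rintro rfl
      · have := h9 _ hi; omega
      · have := h9 _ hj; omega
      · have := h9 _ hk; omega
    set T : Finset GolayPt := {i, j, k, l} with hT
    have hT4 : T.card = 4 := by
      simp [hT, hij, hjk, hik, hlne.1.symm, hlne.2.1.symm, hlne.2.2.symm]
    have hsplit := Finset.sum_add_sum_compl T (fun m => x m ^ 2)
    have hTsum : ∑ m ∈ T, x m ^ 2 = 9 + 9 + 9 + x l ^ 2 := by
      rw [hT, Finset.sum_insert (by simp [hij, hik, hlne.1.symm]),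
        Finset.sum_insert (by simp [hjk, hlne.2.1.symm]),
        Finset.sum_insert (by simp [hlne.2.2.symm]), Finset.sum_singleton, h9 _ hi, h9 _ hj, h9 _ hk]
      ring
    have hrest := Finset.card_nsmul_le_sum Tᶜ (fun m => x m ^ 2) 1 (fun m _ => hge m)
    rw [Finset.card_compl, hT4, card_golayPt] at hrest
    unfold sqNorm at hn
    simp at hrest
    omega
  · intro h
    set T := Finset.univ.filter fun i => |x i| = 3 with hT
    have e : ∀ i, x i ^ 2 = 1 + 8 * (if |x i| = 3 then 1 else 0) := fun i => by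
      rcases h i with e | e | e | e <;> rw [e] <;> norm_num
    have h3 : T.card = 3 := by
      unfold sqNorm at hn
      rw [Finset.sum_congr rfl fun i _ => e i, Finset.sum_add_distrib, ← Finset.mul_sum, Finset.sum_const,
        Finset.sum_boole, Finset.card_univ, card_golayPt, ← hT] at hn
      simp at hn
      omega
    obtain ⟨i, j, k, hij, hik, hjk, hTe⟩ := Finset.card_eq_three.1 h3
    have hm : ∀ m ∈ T, |x m| = 3 := fun m hm => (Finset.mem_filter.1 hm).2
    exact ⟨i, j, k, hij, hjk, hik, hm i (by simp [hTe]), hm j (by simp [hTe]), hm k (by simp [hTe])⟩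

theorem shapes48 :
    {x : GolayPt → ℤ | x ∈ leechLattice ∧ sqNorm x = 48 ∧ ∀ i, x i = 0 ∨ x i = 2 ∨ x i = -2}.ncard = 5275648 ∧
    {x : GolayPt → ℤ | x ∈ leechLattice ∧ sqNorm x = 48 ∧
      ∃ i j k, i ≠ j ∧ j ≠ k ∧ i ≠ k ∧ |x i| = 3 ∧ |x j| = 3 ∧ |x k| = 3}.ncard = 8290304 ∧
    {x : GolayPt → ℤ | x ∈ leechLattice ∧ sqNorm x = 48 ∧ ∃ i, |x i| = 4}.ncard = 3108864 ∧
    {x : GolayPt → ℤ | x ∈ leechLattice ∧ sqNorm x = 48 ∧ ∃ i, |x i| = 5}.ncard = 98304 := by
  refine ⟨?_, ?_, ?_, ?_⟩
  · rw [← small48, show uniformTotal (fun v => v == 0 || v == 2 || v == -2) 48 = _ from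
      (ncard_uniform (fun v => v == 0 || v == 2 || v == -2) 48 (by omega)).symm]
    congr 1
    ext x
    simp [or_assoc]
  · rw [← oneThree48, show uniformTotal (fun v => v == 1 || v == -1 || v == 3 || v == -3) 48 = _ from
      (ncard_uniform (fun v => v == 1 || v == -1 || v == 3 || v == -3) 48 (by omega)).symm]
    congr 1
    ext x
    simp only [Set.mem_ofPred_eq, Bool.or_eq_true, beq_iff_eq, Nat.cast_ofNat, or_assoc]
    exact ⟨fun ⟨a, b, c⟩ => ⟨a, b, (three_threes a b).1 c⟩, fun ⟨a, b, c⟩ => ⟨a, b, (three_threes a b).2 c⟩⟩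
  · have h := ncard_exists_abs 48 (by omega) 4 (by norm_num)
    rw [total48] at h
    have hh := nofour48
    simp only [Nat.cast_ofNat] at h
    generalize uniformTotal (fun v => !(v == 4 || v == -4)) 48 = U at h hh
    omega
  · have h := ncard_exists_abs 48 (by omega) 5 (by norm_num)
    rw [total48] at h
    have hh := nofive48
    simp only [Nat.cast_ofNat] at h
    generalize uniformTotal (fun v => !(v == 5 || v == -5)) 48 = U at h hh
    omega

end Cfsg.Lib.Leech
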