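import Mathlib
import Cfsg.Prelude.Def_Sporadic_a
import Cfsg.Prelude.Def_SporadicCombinatorics
import Cfsg.Agent.Lib.Leech.Index
import Cfsg.Agent.Lib.Leech.Counts

/-!
The classes of the lattice modulo twice itself: every class has a vector of norm at most 64, and a
class of a vector of norm 64 contains exactly 48 of them.
-/

set_option autoImplicit false
set_option linter.unusedSimpArgs false

namespace Cfsg.Lib.Leech

open Cfsg Cfsg.Lib.Golay

theorem neg_norm (x : GolayPt → ℤ) : sqNorm (-x) = sqNorm x := by simp [sqNorm]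

theorem orth_family_card (K : Finset (GolayPt → ℤ)) (h0 : ∀ y ∈ K, sqNorm y ≠ 0)
    (horth : ∀ y ∈ K, ∀ z ∈ K, y ≠ z → dotInt y z = 0) : K.card ≤ 24 := by
  have hli : LinearIndependent ℤ (fun y : K => (y : GolayPt → ℤ)) := by
    rw [Fintype.linearIndependent_iff]
    intro g hg y
    have h := congrArg (fun v => dotInt (y : GolayPt → ℤ) v) hg
    simp only [dotInt, Finset.sum_apply, Pi.smul_apply, smul_eq_mul, Pi.zero_apply, mul_zero,
      Finset.sum_const_zero, Finset.mul_sum] at h
    rw [Finset.sum_comm, Finset.sum_eq_single y] at h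
    · have e : ∑ i, (y : GolayPt → ℤ) i * (g y * (y : GolayPt → ℤ) i) = g y * sqNorm (y : GolayPt → ℤ) := by
        unfold sqNorm
        rw [Finset.mul_sum]
        exact Finset.sum_congr rfl fun i _ => by ring
      rw [e] at h
      exact (mul_eq_zero.1 h).resolve_right (h0 _ y.2)
    · intro z _ hz
      have := horth y y.2 z z.2 (fun e => hz (Subtype.ext e).symm)
      calc ∑ i, (y : GolayPt → ℤ) i * (g z * (z : GolayPt → ℤ) i)
          = g z * dotInt (y : GolayPt → ℤ) z := by
            unfold dotInt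
            rw [Finset.mul_sum]
            exact Finset.sum_congr rfl fun i _ => by ring
        _ = 0 := by rw [this, mul_zero]
    · simp
  have := hli.fintype_card_le_finrank
  rwa [Fintype.card_coe, Module.finrank_fintype_fun_eq_card, card_golayPt] at this

theorem cross_finite (x : GolayPt → ℤ) (hx : sqNorm x ≤ 64) : (cross x).Finite := by
  refine (finite_norm (sqNorm x).toNat (by omega)).subset fun y hy => ⟨hy.1, ?_⟩
  rw [hy.2.1, Int.toNat_of_nonneg (sqNorm_nonneg x)]

theorem congr_of_cross {x y z : GolayPt → ℤ} (hy : y ∈ cross x) (hz : z ∈ cross x) :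
    ∃ w ∈ leechLattice, y - z = 2 • w := by
  obtain ⟨a, ha, ea⟩ := hy.2.2
  obtain ⟨b, hb, eb⟩ := hz.2.2
  exact ⟨b - a, sub_mem hb ha, by rw [nsmul_sub, ← ea, ← eb]; abel⟩

theorem cross_card_le (x : GolayPt → ℤ) (hn : sqNorm x = 64) : (cross x).ncard ≤ 48 := by
  classical
  set K := (cross_finite x hn.le).toFinset with hK
  have hmem : ∀ y ∈ K, y ∈ cross x := fun y hy => (Set.Finite.mem_toFinset _).1 hy
  set P := K.filter fun y => WellOrderingRel y (-y) with hP
  have hsub : K ⊆ P ∪ P.image (fun y => -y) := by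
    intro y hy
    have hy' := hmem y hy
    have hne : y ≠ -y := by
      intro e
      have : y = 0 := funext fun i => by have := congrFun e i; simp only [Pi.neg_apply, Pi.zero_apply] at *; omega
      have hn' := hy'.2.1
      rw [this, hn] at hn'
      simp [sqNorm] at hn'
    rcases trichotomous_of WellOrderingRel y (-y) with h | h | h
    · exact Finset.mem_union_left _ (Finset.mem_filter.2 ⟨hy, h⟩)
    · exact absurd h hne
    · refine Finset.mem_union_right _ (Finset.mem_image.2 ⟨-y, Finset.mem_filter.2 ⟨?_, ?_⟩, neg_neg y⟩)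
      · rw [hK, Set.Finite.mem_toFinset]
        obtain ⟨a, ha, ea⟩ := hy'.2.2
        exact ⟨neg_mem hy'.1, by rw [neg_norm]; exact hy'.2.1,
          a + y, add_mem ha hy'.1, by rw [nsmul_add, ← ea, two_nsmul]; abel⟩
      · rw [neg_neg]; exact h
  have hP24 : P.card ≤ 24 := by
    refine orth_family_card P (fun y hy => ?_) fun y hy z hz hyz => ?_
    · have := (hmem y (Finset.filter_subset _ _ hy)).2.1
      omega
    · have hy' := hmem y (Finset.filter_subset _ _ hy)
      have hz' := hmem z (Finset.filter_subset _ _ hz)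
      rcases congr_cases hy'.1 hyz (by rw [hy'.2.1, hn]) (by rw [hz'.2.1, hn]) (congr_of_cross hy' hz')
        with h | h
      · exfalso
        have h1 := (Finset.mem_filter.1 hy).2
        have h2 := (Finset.mem_filter.1 hz).2
        rw [h, neg_neg] at h1
        exact asymm_of WellOrderingRel h1 h2
      · exact h.2.2
  rw [Set.ncard_eq_toFinset_card _ (cross_finite x hn.le)]
  calc K.card ≤ (P ∪ P.image fun y => -y).card := Finset.card_le_card hsub
    _ ≤ P.card + (P.image fun y => -y).card := Finset.card_union_le _ _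
    _ ≤ P.card + P.card := Nat.add_le_add_left Finset.card_image_le _
    _ ≤ 48 := by omega

/-- Doubling. -/
def doubleHom : (GolayPt → ℤ) →+ (GolayPt → ℤ) := nsmulAddMonoidHom 2

/-- Twice the lattice inside the lattice. -/
def twice : AddSubgroup leechLattice := (leechLattice.map doubleHom).addSubgroupOf leechLattice

theorem mem_twice {v : leechLattice} :
    v ∈ twice ↔ ∃ z ∈ leechLattice, (v : GolayPt → ℤ) = 2 • z := by
  simp only [twice, AddSubgroup.mem_addSubgroupOf, AddSubgroup.mem_map, doubleHom,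
    nsmulAddMonoidHom_apply]
  exact ⟨fun ⟨z, hz, e⟩ => ⟨z, hz, e.symm⟩, fun ⟨z, hz, e⟩ => ⟨z, hz, e.symm⟩⟩

theorem double_range_index : (doubleHom.range).index = 2 ^ 24 := by
  let π : (GolayPt → ℤ) →+ (GolayPt → ZMod 2) := (Int.castAddHom (ZMod 2)).compLeft GolayPt
  have h : doubleHom.range = π.ker := by
    ext x
    rw [AddMonoidHom.mem_range, AddMonoidHom.mem_ker]
    constructor
    · rintro ⟨y, rfl⟩
      funext i
      simp [π, doubleHom]
      exact Or.inl (by decide)
    · intro hx
      refine ⟨fun i => x i / 2, funext fun i => ?_⟩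
      have : ((x i : ℤ) : ZMod 2) = 0 := congrFun hx i
      rw [ZMod.intCast_zmod_eq_zero_iff_dvd] at this
      simp only [doubleHom, nsmulAddMonoidHom_apply, Pi.smul_apply, smul_eq_mul, nsmul_eq_mul]
      omega
  have hs : Function.Surjective π := fun w => ⟨fun i => ((w i).val : ℤ), funext fun i => by simp [π]⟩
  rw [h, AddSubgroup.index_ker, AddMonoidHom.range_eq_top.2 hs, AddSubgroup.card_top]
  simp [Nat.card_eq_fintype_card, ZMod.card]

theorem twice_index : twice.index = 2 ^ 24 := by
  have hinj : Function.Injective doubleHom := fun a b h => funext fun i => by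
    have := congrFun h i
    simp [doubleHom] at this
    omega
  have hle : leechLattice.map doubleHom ≤ leechLattice := by
    rintro _ ⟨z, hz, rfl⟩; exact nsmul_mem hz 2
  have h := AddSubgroup.relIndex_mul_index hle
  rw [AddSubgroup.index_map, (AddMonoidHom.ker_eq_bot_iff _).2 hinj, sup_bot_eq, double_range_index,
    lattice_index] at h
  unfold twice
  show (leechLattice.map doubleHom).relIndex leechLattice = _
  exact Nat.eq_of_mul_eq_mul_right (by positivity) (h.trans (Nat.mul_comm _ _))

theorem quot_card : Nat.card (leechLattice ⧸ twice) = 16777216 := by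
  rw [← AddSubgroup.index_eq_card, twice_index]; norm_num

/-- The class of a lattice vector. -/
def cls (v : leechLattice) : leechLattice ⧸ twice := QuotientAddGroup.mk v

theorem cls_eq_iff {v w : leechLattice} :
    cls v = cls w ↔ ∃ z ∈ leechLattice, (v : GolayPt → ℤ) - w = 2 • z := by
  rw [cls, cls, eq_comm, QuotientAddGroup.eq, mem_twice]
  simp [sub_eq_add_neg, add_comm]

/-- The vectors of a given norm. -/
noncomputable def shell (N : ℕ) (hN : N ≤ 64) : Finset leechLattice :=
  ((finite_norm N hN).preimage Subtype.val_injective.injOn).toFinset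

theorem mem_shell {N : ℕ} {hN : N ≤ 64} {v : leechLattice} :
    v ∈ shell N hN ↔ sqNorm (v : GolayPt → ℤ) = N := by
  simp [shell]

theorem card_shell (N : ℕ) (hN : N ≤ 64) :
    (shell N hN).card = {x : GolayPt → ℤ | x ∈ leechLattice ∧ sqNorm x = N}.ncard := by
  rw [shell, ← Set.ncard_eq_toFinset_card _ ((finite_norm N hN).preimage Subtype.val_injective.injOn),
    Set.ncard_preimage_of_injective_subset_range Subtype.val_injective]
  rintro x ⟨hx, -⟩
  exact ⟨⟨x, hx⟩, rfl⟩

theorem fiber_le_two {N : ℕ} {hN : N ≤ 64} (hlt : N < 64) (a : leechLattice) (ha : a ∈ shell N hN)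
    [DecidableEq (leechLattice ⧸ twice)] :
    ((shell N hN).filter fun v => cls v = cls a).card ≤ 2 := by
  classical
  refine le_trans (Finset.card_le_card (t := {a, -a}) fun v hv => ?_) Finset.card_le_two
  obtain ⟨hv, he⟩ := Finset.mem_filter.1 hv
  rw [mem_shell] at hv ha
  by_cases hva : v = a
  · simp [hva]
  rcases congr_cases v.2 (fun e => hva (Subtype.ext e)) (by omega) (by omega) (cls_eq_iff.1 he) with h | h
  · simp [show v = -a from Subtype.ext h]
  · omega

theorem fiber_eq_cross (a : leechLattice) (ha : sqNorm (a : GolayPt → ℤ) = 64)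
    [DecidableEq (leechLattice ⧸ twice)] :
    ((shell 64 le_rfl).filter fun v => cls v = cls a).card = (cross (a : GolayPt → ℤ)).ncard := by
  classical
  rw [← Set.ncard_coe_finset, ← Set.ncard_image_of_injective _ Subtype.val_injective]
  congr 1
  ext y
  simp only [Set.mem_image, Finset.coe_filter, Set.mem_ofPred_eq, mem_shell, cross, ha]
  constructor
  · rintro ⟨v, ⟨h1, h2⟩, rfl⟩
    exact ⟨v.2, by exact_mod_cast h1, cls_eq_iff.1 h2.symm⟩
  · rintro ⟨h1, h2, h3⟩
    exact ⟨⟨y, h1⟩, ⟨by exact_mod_cast h2, (cls_eq_iff.2 h3).symm⟩, rfl⟩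

theorem class_data : (∀ x : leechLattice, ∃ y : leechLattice, sqNorm (y : GolayPt → ℤ) ≤ 64 ∧ cls x = cls y) ∧
    (∀ a : leechLattice, sqNorm (a : GolayPt → ℤ) = 64 → (cross (a : GolayPt → ℤ)).ncard = 48) := by
  classical
  have : Finite (leechLattice ⧸ twice) := Nat.finite_of_card_ne_zero (by rw [quot_card]; omega)
  letI := Fintype.ofFinite (leechLattice ⧸ twice)
  set s2 := shell 32 (by omega)
  set s3 := shell 48 (by omega)
  set s4 := shell 64 le_rfl with hs4
  have c2 : s2.card = 196560 := by rw [card_shell]; exact_mod_cast ncard32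
  have c3 : s3.card = 16773120 := by rw [card_shell]; exact_mod_cast ncard48
  have c4 : s4.card = 398034000 := by rw [hs4, card_shell]; exact_mod_cast ncard64
  have f4 : ∀ q ∈ s4.image cls, (s4.filter fun v => cls v = q).card ≤ 48 := by
    intro q hq
    obtain ⟨a, ha, rfl⟩ := Finset.mem_image.1 hq
    rw [fiber_eq_cross a (by exact_mod_cast mem_shell.1 ha)]
    exact cross_card_le _ (by exact_mod_cast mem_shell.1 ha)
  have i2 : 196560 ≤ 2 * (s2.image cls).card := by
    rw [← c2]
    refine Finset.card_le_mul_card_image _ 2 fun q hq => ?_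
    obtain ⟨a, ha, rfl⟩ := Finset.mem_image.1 hq
    exact fiber_le_two (by omega) a ha
  have i3 : 16773120 ≤ 2 * (s3.image cls).card := by
    rw [← c3]
    refine Finset.card_le_mul_card_image _ 2 fun q hq => ?_
    obtain ⟨a, ha, rfl⟩ := Finset.mem_image.1 hq
    exact fiber_le_two (by omega) a ha
  have i4 : 398034000 ≤ 48 * (s4.image cls).card := by
    rw [← c4]
    exact Finset.card_le_mul_card_image _ 48 f4
  have hdis : ∀ a b : leechLattice, sqNorm (a : GolayPt → ℤ) ≤ 64 → sqNorm (b : GolayPt → ℤ) ≤ 64 →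
      cls a = cls b → sqNorm (a : GolayPt → ℤ) = sqNorm (b : GolayPt → ℤ) := by
    intro a b ha hb e
    by_cases hab : (a : GolayPt → ℤ) = b
    · rw [hab]
    rcases congr_cases a.2 hab ha hb (cls_eq_iff.1 e) with h | h
    · rw [h, neg_norm]
    · omega
  set s0 : Finset leechLattice := {0}
  set U := s0.image cls ∪ s2.image cls ∪ s3.image cls ∪ s4.image cls with hU
  have hn0 : ∀ a ∈ s0, sqNorm (a : GolayPt → ℤ) = 0 := fun a ha => by
    rw [Finset.mem_singleton.1 ha]; simp [sqNorm]
  have hn2 : ∀ a ∈ s2, sqNorm (a : GolayPt → ℤ) = 32 := fun a ha => by exact_mod_cast mem_shell.1 ha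
  have hn3 : ∀ a ∈ s3, sqNorm (a : GolayPt → ℤ) = 48 := fun a ha => by exact_mod_cast mem_shell.1 ha
  have hn4 : ∀ a ∈ s4, sqNorm (a : GolayPt → ℤ) = 64 := fun a ha => by exact_mod_cast mem_shell.1 ha
  have hUcard : U.card = 1 + (s2.image cls).card + (s3.image cls).card + (s4.image cls).card := by
    rw [hU, Finset.card_union_of_disjoint, Finset.card_union_of_disjoint, Finset.card_union_of_disjoint,
      Finset.image_singleton, Finset.card_singleton]
    all_goals
      rw [Finset.disjoint_left]
      intro q hq hq'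
      simp only [Finset.mem_union, Finset.mem_image] at hq hq'
      obtain ⟨b, hb, rfl⟩ := hq'
    · obtain ⟨a, ha, e⟩ := hq
      have := hdis a b (by rw [hn0 a ha]; omega) (by rw [hn2 b hb]; omega) e
      rw [hn0 a ha, hn2 b hb] at this; omega
    · rcases hq with ⟨a, ha, e⟩ | ⟨a, ha, e⟩
      · have := hdis a b (by rw [hn0 a ha]; omega) (by rw [hn3 b hb]; omega) e
        rw [hn0 a ha, hn3 b hb] at this; omega
      · have := hdis a b (by rw [hn2 a ha]; omega) (by rw [hn3 b hb]; omega) e
        rw [hn2 a ha, hn3 b hb] at this; omega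
    · rcases hq with (⟨a, ha, e⟩ | ⟨a, ha, e⟩) | ⟨a, ha, e⟩
      · have := hdis a b (by rw [hn0 a ha]; omega) (by rw [hn4 b hb]) e
        rw [hn0 a ha, hn4 b hb] at this; omega
      · have := hdis a b (by rw [hn2 a ha]; omega) (by rw [hn4 b hb]) e
        rw [hn2 a ha, hn4 b hb] at this; omega
      · have := hdis a b (by rw [hn3 a ha]; omega) (by rw [hn4 b hb]) e
        rw [hn3 a ha, hn4 b hb] at this; omega
  have hq : Fintype.card (leechLattice ⧸ twice) = 16777216 := by
    rw [← Nat.card_eq_fintype_card, quot_card]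
  have hUle := Finset.card_le_univ U
  have hUall : U = Finset.univ := Finset.eq_univ_of_card U (by omega)
  refine ⟨fun x => ?_, fun a ha => ?_⟩
  · have hx : cls x ∈ U := hUall ▸ Finset.mem_univ _
    simp only [hU, Finset.mem_union, Finset.mem_image] at hx
    rcases hx with ((⟨y, hy, e⟩ | ⟨y, hy, e⟩) | ⟨y, hy, e⟩) | ⟨y, hy, e⟩
    · exact ⟨y, by rw [hn0 y hy]; omega, e.symm⟩
    · exact ⟨y, by rw [hn2 y hy]; omega, e.symm⟩
    · exact ⟨y, by rw [hn3 y hy]; omega, e.symm⟩
    · exact ⟨y, by rw [hn4 y hy], e.symm⟩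
  · have hmem : a ∈ s4 := mem_shell.2 (by exact_mod_cast ha)
    rw [← fiber_eq_cross a ha]
    refine le_antisymm (f4 _ (Finset.mem_image_of_mem cls hmem)) ?_
    by_contra hlt
    have hsum : (∑ q ∈ s4.image cls, (s4.filter fun v => cls v = q).card) <
        ∑ _q ∈ s4.image cls, 48 :=
      Finset.sum_lt_sum f4 ⟨cls a, Finset.mem_image_of_mem cls hmem, lt_of_not_ge hlt⟩
    rw [← Finset.card_eq_sum_card_image, c4, Finset.sum_const, smul_eq_mul] at hsum
    omega

end Cfsg.Lib.Leech
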