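import Mathlib
import Cfsg.Agent.Lib.Leech.Perp

/-!
The stabilizer of a minimal vector has no normal `2`-subgroup: such a subgroup fixes each of the
orthogonal minimal vectors up to sign.
-/

set_option autoImplicit false

namespace Cfsg.Lib.Leech

open Cfsg Cfsg.Lib.Golay
open scoped Pointwise

/-- The stabilizer of `baseVec`. -/
abbrev baseStab : Subgroup Co0 := MulAction.stabilizer Co0 baseVec

theorem baseVec_eq_leechU : baseVec = Spor.leechU := by
  refine Subtype.ext (funext fun i => ?_)
  revert i
  show ∀ i : GolayPt, (if i = none then (4 : ℤ) else 0) + (if i = some 0 then 4 else 0) = Spor.vecU i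
  decide +kernel

theorem perp_set_card : {y : leechLattice | sqNorm (y : GolayPt → ℤ) = 32 ∧
    dotInt (baseVec : GolayPt → ℤ) y = 0}.ncard = 93150 := by
  rw [← (dot_counts baseVec baseVec_norm).2.2,
    ← Set.ncard_image_of_injective _ (Subtype.val_injective (p := fun v => v ∈ leechLattice))]
  congr 1
  ext w
  constructor
  · rintro ⟨y, ⟨h1, h2⟩, rfl⟩; exact ⟨y.2, h1, h2⟩
  · rintro ⟨h0, h1, h2⟩; exact ⟨⟨w, h0⟩, ⟨h1, h2⟩, rfl⟩

/-- A normal `2`-subgroup of the stabilizer is trivial. -/
theorem baseStab_two_trivial [Finite baseStab] (N : Subgroup baseStab) [N.Normal] (hN : IsPGroup 2 N) :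
    N = ⊥ := by
  rw [Subgroup.eq_bot_iff_forall]
  intro n hn
  refine Subtype.ext (trivial_of_perp n.2 fun y hy hd => ?_)
  -- the stabilizer of `y` has index twice that of the stabilizer of `{y, -y}`
  have hne : y ≠ -y := fun e => by
    have h : ∀ i, (y : GolayPt → ℤ) i = 0 := fun i => by
      have := congrFun (congrArg Subtype.val e) i
      simp only [AddSubgroup.coe_neg, Pi.neg_apply] at this
      omega
    rw [show (y : GolayPt → ℤ) = 0 from funext h] at hy
    simp [sqNorm] at hy
  have hnn : sqNorm ((-y : leechLattice) : GolayPt → ℤ) = 32 := by rw [AddSubgroup.coe_neg, neg_norm, hy]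
  have hnd : dotInt (baseVec : GolayPt → ℤ) ((-y : leechLattice) : GolayPt → ℤ) = 0 := by
    rw [AddSubgroup.coe_neg, dotInt_comm', dotInt_neg_left, dotInt_comm', hd, neg_zero]
  set H := MulAction.stabilizer baseStab y with hH
  set P : Set leechLattice := {y, -y} with hP
  set H' := MulAction.stabilizer baseStab P with hH'
  have hHH : H ≤ H' := by
    intro g hg
    rw [hH, MulAction.mem_stabilizer_iff] at hg
    rw [hH', MulAction.mem_stabilizer_iff, hP, Set.smul_set_insert, Set.smul_set_singleton, hg]
    congr 2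
    show (g : Co0) • -y = -y
    rw [co0_neg]
    exact congrArg Neg.neg hg
  have horb : MulAction.orbit baseStab y = {y : leechLattice | sqNorm (y : GolayPt → ℤ) = 32 ∧
      dotInt (baseVec : GolayPt → ℤ) y = 0} := by
    ext w
    constructor
    · rintro ⟨g, rfl⟩
      refine ⟨(co0_norm (g : Co0) y).trans hy, ?_⟩
      show dotInt _ (((g : Co0) • y : leechLattice) : GolayPt → ℤ) = 0
      conv_lhs => rw [← (g.2 : (g : Co0) • baseVec = baseVec), co0_dot]
      exact hd
    · rintro ⟨hw, hwd⟩
      obtain ⟨g, hg1, hg2⟩ := trans_pair baseVec_norm hy baseVec_norm hw (Or.inr (Or.inr rfl)) hd hwd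
      exact ⟨⟨g, hg1⟩, hg2⟩
  have hidx : H.index = 93150 := by
    rw [hH, MulAction.index_stabilizer, horb, perp_set_card]
  have hrel : H.relIndex H' = 2 := by
    have e : H.subgroupOf H' = MulAction.stabilizer H' y := by
      ext g; rw [Subgroup.mem_subgroupOf, hH, MulAction.mem_stabilizer_iff, MulAction.mem_stabilizer_iff]; rfl
    rw [Subgroup.relIndex, e, MulAction.index_stabilizer]
    have : MulAction.orbit H' y = P := by
      ext w
      constructor
      · rintro ⟨g, rfl⟩
        have h1 : (g : baseStab) • y ∈ (g : baseStab) • P := Set.smul_mem_smul_set (Or.inl rfl)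
        rwa [MulAction.mem_stabilizer_iff.1 g.2] at h1
      · rintro (rfl | rfl)
        · exact MulAction.mem_orbit_self _
        · obtain ⟨g, hg1, hg2⟩ := trans_pair baseVec_norm hy baseVec_norm hnn (Or.inr (Or.inr rfl)) hd hnd
          refine ⟨⟨⟨g, hg1⟩, ?_⟩, hg2⟩
          rw [hH', MulAction.mem_stabilizer_iff, hP, Set.smul_set_insert, Set.smul_set_singleton]
          show ({g • y, g • -y} : Set leechLattice) = _
          rw [co0_neg, hg2, neg_neg, Set.pair_comm]
    rw [this, hP, Set.ncard_pair hne]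
  have hodd : ¬ 2 ∣ H'.index := by
    have h := Subgroup.relIndex_mul_index hHH
    rw [hrel, hidx] at h
    omega
  haveI : Fact (Nat.Prime 2) := ⟨Nat.prime_two⟩
  obtain ⟨k, hk⟩ := hN.nonempty_fixed_point_of_prime_not_dvd_card (baseStab ⧸ H')
    (by rwa [← Subgroup.index_eq_card])
  obtain ⟨g, rfl⟩ := QuotientGroup.mk_surjective k
  have hmem : n ∈ H' := by
    have hn' : g * n * g⁻¹ ∈ N := (inferInstance : N.Normal).conj_mem n hn g
    have h1 : (QuotientGroup.mk (g * n * g⁻¹ * g) : baseStab ⧸ H') = QuotientGroup.mk g := hk ⟨_, hn'⟩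
    rw [inv_mul_cancel_right, QuotientGroup.eq, mul_inv_rev, mul_assoc, inv_mul_cancel, mul_one] at h1
    simpa using h1
  have h1 : n • y ∈ n • P := Set.smul_mem_smul_set (Or.inl rfl)
  rw [MulAction.mem_stabilizer_iff.1 hmem] at h1
  exact h1

end Cfsg.Lib.Leech
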