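import Mathlib
import Cfsg.Prelude.Def_MonsterType
import Cfsg.Agent.Lib.Leech.Basic

/-!
An invariant quadratic form on the lattice modulo 2 vanishes on the image of the frame sublattice.
-/

set_option autoImplicit false

namespace Cfsg.Lib.Leech

open Cfsg Cfsg.Lib.Golay
open scoped Pointwise

/-- `s` times the unit vector at `p`. -/
def single (p : GolayPt) (s : ℤ) : GolayPt → ℤ := fun i => if i = p then s else 0

theorem fourPair_mem (p q : GolayPt) :
    single p 4 + single q 4 ∈ leechLattice := by
  apply AddSubgroup.subset_closure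
  refine Spor.mem_leechSet_of_const_mod_four _ 0 0 (Int.ModEq.refl _) (fun i => ?_) ?_
  · simp only [single, Pi.add_apply]
    split <;> split <;> decide
  · simp [single, Finset.sum_add_distrib, Int.ModEq]

/-- `4 e_p + 4 e_q` in the lattice. -/
def pairVec (p q : GolayPt) : leechLattice := ⟨single p 4 + single q 4, fourPair_mem p q⟩

/-- The integer vector of a list of 24 numbers. -/
def vecOf (l : List ℤ) : GolayPt → ℤ := fun p => l.getD (idx p) 0

theorem vecOf_mem {l : List ℤ} {n : ℕ} (hn : inCode n = true)
    (h : ∀ i : GolayPt, vecOf l i % 4 = if n.testBit (idx i) then 2 else 0)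
    (hs : (∑ i, vecOf l i) % 8 = 0) : vecOf l ∈ leechLattice := by
  refine AddSubgroup.subset_closure ⟨0, fun i => ?_, ?_, fun k => ?_⟩
  · have := h i
    unfold Int.ModEq
    split at this <;> omega
  · unfold Int.ModEq
    omega
  · rw [mem_supports_iff]
    have h2 : toSet n ∈ supports (golayCode : Set (GolayPt → ZMod 2)) := by
      rw [mem_supports_iff, setNat_toSet (lt_of_inCode hn)]; exact hn
    have hall : inCode 16777215 = true := by decide +kernel
    have h3 : toSet (n ^^^ 16777215) ∈ supports (golayCode : Set (GolayPt → ZMod 2)) := by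
      rw [mem_supports_iff, setNat_toSet (lt_of_inCode (inCode_xor hn hall))]; exact inCode_xor hn hall
    rw [← mem_supports_iff]
    by_cases hk2 : k % 4 = 2
    · convert h2 using 1
      ext i
      rw [Finset.mem_filter, mem_toSet]
      have := h i
      unfold Int.ModEq
      simp only [Finset.mem_univ, true_and]
      cases hb : n.testBit (idx i) <;> simp only [hb, if_true, if_false, Bool.false_eq_true] at this ⊢ <;>
        simp only [iff_true, iff_false] <;> omega
    · by_cases hk0 : k % 4 = 0
      · convert h3 using 1
        ext i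
        rw [Finset.mem_filter, mem_toSet, Nat.testBit_xor]
        have hone : (16777215 : ℕ).testBit (idx i) = true := by
          have : ∀ j < 24, (16777215 : ℕ).testBit j = true := by decide
          exact this _ (idx_lt i)
        have := h i
        unfold Int.ModEq
        simp only [Finset.mem_univ, true_and, hone]
        cases hb : n.testBit (idx i) <;> simp only [hb, if_true, if_false, Bool.false_eq_true] at this <;>
          simp <;> omega
      · convert flip_mem_set.empty_mem_supports using 1
        apply Finset.filter_false_of_mem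
        intro i _ hh
        have := h i
        unfold Int.ModEq at hh
        split at this <;> omega

/-- `2 · 1_O` for the octad `O` with mask 5279. -/
def lPlus : List ℤ := (List.range 24).map fun i => if (5279 : ℕ).testBit i then 2 else 0

/-- The same vector with the signs of the first two coordinates changed. -/
def lS : List ℤ :=
  (List.range 24).map fun i => if (5279 : ℕ).testBit i then (if i < 2 then -2 else 2) else 0

/-- A signed vector on the octad with mask 15777. -/
def l1 : List ℤ :=
  (List.range 24).map fun i =>
    if (15777 : ℕ).testBit i then (if i = 0 ∨ i = 5 then -2 else 2) else 0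

/-- The difference of the two previous vectors. -/
def l2 : List ℤ := (List.range 24).map fun i => lS.getD i 0 - l1.getD i 0

theorem lPlus_mem : vecOf lPlus ∈ leechLattice :=
  vecOf_mem (n := 5279) (by decide +kernel) (by decide) (by decide)
theorem lS_mem : vecOf lS ∈ leechLattice :=
  vecOf_mem (n := 5279) (by decide +kernel) (by decide) (by decide)
theorem l1_mem : vecOf l1 ∈ leechLattice :=
  vecOf_mem (n := 15777) (by decide +kernel) (by decide) (by decide)
theorem l2_mem : vecOf l2 ∈ leechLattice :=
  vecOf_mem (n := 10558) (by decide +kernel) (by decide) (by decide)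

/-- The permutation exchanging the first two points and mapping the octad 15777 to 10558. -/
def piList : List ℕ :=
  [1, 0, 23, 9, 21, 2, 12, 13, 3, 6, 5, 4, 11, 8, 15, 18, 16, 10, 19, 7, 22, 14, 17, 20]

/-- An invariant quadratic form on the lattice modulo 2. -/
structure InvQuad (qf : leechLattice → ZMod 2) (bf : leechLattice → leechLattice → ZMod 2) : Prop where
  add : ∀ v w, qf (v + w) = qf v + qf w + bf v w
  bilin : ∀ u v w, bf u (v + w) = bf u v + bf u w
  per : ∀ v u, qf (v + (u + u)) = qf v
  inv : ∀ (g : Co0) (v : leechLattice), qf (g • v) = qf v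

namespace InvQuad

variable {qf : leechLattice → ZMod 2} {bf : leechLattice → leechLattice → ZMod 2}

theorem smul_add' (g : Co0) (v w : leechLattice) : g • (v + w) = g • v + g • w := g.2.1 v w

theorem zero (h : InvQuad qf bf) : qf 0 = 0 := by
  have hb : bf 0 0 = 0 := by
    have := h.bilin 0 0 0
    rw [add_zero] at this
    revert this
    generalize bf 0 0 = b
    revert b
    decide
  have := h.add 0 0
  rw [add_zero, hb] at this
  revert this
  generalize qf 0 = a
  revert a
  decide

theorem symm (h : InvQuad qf bf) (v w : leechLattice) : bf v w = bf w v := by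
  have h1 := h.add v w
  have h2 := h.add w v
  rw [add_comm v w, h2] at h1
  revert h1
  generalize qf v = a; generalize qf w = b; generalize bf v w = c; generalize bf w v = d
  revert a b c d
  decide

theorem self (h : InvQuad qf bf) (v : leechLattice) : bf v v = 0 := by
  have h1 := h.add v v
  have h2 := h.per 0 v
  rw [zero_add, h.zero, h1] at h2
  revert h2
  generalize qf v = a; generalize bf v v = c
  revert a c
  decide

theorem bf_zero (h : InvQuad qf bf) (v : leechLattice) : bf v 0 = 0 := by
  have := h.bilin v 0 0
  rw [add_zero] at this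
  revert this
  generalize bf v 0 = b
  revert b
  decide

theorem qf_neg (h : InvQuad qf bf) (v : leechLattice) : qf (-v) = qf v := by
  rw [← h.per (-v) v, ← add_assoc, neg_add_cancel, zero_add]

theorem bf_neg (h : InvQuad qf bf) (v w : leechLattice) : bf v (-w) = bf v w := by
  have := h.bilin v (-w) w
  rw [neg_add_cancel, h.bf_zero] at this
  revert this
  generalize bf v (-w) = a; generalize bf v w = b
  revert a b
  decide

theorem bf_inv (h : InvQuad qf bf) (g : Co0) (v w : leechLattice) : bf (g • v) (g • w) = bf v w := by
  have h1 := h.add v w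
  have h2 := h.add (g • v) (g • w)
  rw [← smul_add', h.inv, h.inv, h.inv, h1] at h2
  exact (add_left_cancel h2).symm

theorem base_pair (h : InvQuad qf bf) : qf (pairVec (pt 0) (pt 1)) = 0 := by
  set v := pairVec (pt 0) (pt 1) with hv
  set wp : leechLattice := ⟨_, lPlus_mem⟩ with hwp
  set ws : leechLattice := ⟨_, lS_mem⟩ with hws
  set w1 : leechLattice := ⟨_, l1_mem⟩ with hw1
  set w2 : leechLattice := ⟨_, l2_mem⟩ with hw2
  have e1 : v + ws = wp := by
    apply Subtype.ext
    show (single (pt 0) 4 + single (pt 1) 4) + vecOf lS = vecOf lPlus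
    funext i; revert i; decide
  have e2 : w1 + w2 = ws := by
    apply Subtype.ext
    show vecOf l1 + vecOf l2 = vecOf lS
    funext i; revert i; decide
  have hc1 : toSet 352547 ∈ supports (golayCode : Set (GolayPt → ZMod 2)) := by
    rw [mem_supports_iff, setNat_toSet (by norm_num)]; decide +kernel
  have hc2 : toSet (16777215 ^^^ 480827) ∈ supports (golayCode : Set (GolayPt → ZMod 2)) := by
    rw [mem_supports_iff, setNat_toSet (by decide)]; decide +kernel
  have e3 : flipElt _ hc1 • wp = ws := by
    apply Subtype.ext
    funext i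
    rw [flipElt_apply]
    show (if i ∈ toSet 352547 then -vecOf lPlus i else vecOf lPlus i) = vecOf lS i
    simp only [mem_toSet]
    revert i; decide
  have hpi : permOf piList ∈ M24 := permOf_mem_M24 (by decide +kernel)
  have hperm : isPermList piList = true := by decide +kernel
  set g : Co0 := flipElt _ hc2 * permElt _ hpi with hg
  have happ : ∀ (x : leechLattice) (i : GolayPt), ((g • x : leechLattice) : GolayPt → ℤ) (pt (piList.getD (idx i) 0)) =
      (if (16777215 ^^^ 480827 : ℕ).testBit (idx (pt (piList.getD (idx i) 0))) then -(x : GolayPt → ℤ) i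
        else (x : GolayPt → ℤ) i) := by
    intro x i
    rw [hg, mul_smul, flipElt_apply, permElt_apply]
    have : (permOf piList)⁻¹ (pt (piList.getD (idx i) 0)) = i := by
      rw [Equiv.Perm.inv_eq_iff_eq, permOf_apply hperm]

    simp only [this, mem_toSet]
  have hsurj : ∀ j : GolayPt, ∃ i, pt (piList.getD (idx i) 0) = j := by decide
  have e4 : g • v = v := by
    apply Subtype.ext
    funext j
    obtain ⟨i, rfl⟩ := hsurj j
    rw [happ]
    show (if (16777215 ^^^ 480827 : ℕ).testBit (idx (pt (piList.getD (idx i) 0))) then
      -(single (pt 0) 4 + single (pt 1) 4) i else (single (pt 0) 4 + single (pt 1) 4) i) =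
      (single (pt 0) 4 + single (pt 1) 4) (pt (piList.getD (idx i) 0))
    revert i; decide
  have e5 : g • w1 = w2 := by
    apply Subtype.ext
    funext j
    obtain ⟨i, rfl⟩ := hsurj j
    rw [happ]
    show (if (16777215 ^^^ 480827 : ℕ).testBit (idx (pt (piList.getD (idx i) 0))) then
      -vecOf l1 i else vecOf l1 i) = vecOf l2 (pt (piList.getD (idx i) 0))
    revert i; decide
  have h1 := h.add v ws
  rw [e1] at h1
  have h2 : qf ws = qf wp := by rw [← e3, h.inv]
  have h3 : bf v w2 = bf v w1 := by
    conv_lhs => rw [← e4, ← e5]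
    exact h.bf_inv g v w1
  have h4 : bf v ws = 0 := by
    rw [← e2, h.bilin, h3]
    exact CharTwo.add_self_eq_zero _
  rw [h2, h4] at h1
  revert h1
  generalize qf v = a; generalize qf wp = b
  revert a b
  decide

theorem pair_zero (h : InvQuad qf bf) {p q : GolayPt} (hpq : p ≠ q) : qf (pairVec p q) = 0 := by
  haveI := five_transitive
  haveI h2t : MulAction.IsMultiplyPretransitive M24 GolayPt 2 :=
    MulAction.isMultiplyPretransitive_of_le (n := 5) (by norm_num) (by
      rw [Nat.card_eq_fintype_card]; decide)
  rw [MulAction.is_two_pretransitive_iff] at h2t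
  obtain ⟨σ, hσp, hσq⟩ := h2t (a := pt 0) (b := pt 1) (c := p) (d := q) (by decide) hpq
  rw [← h.base_pair, ← h.inv (permElt σ.1 σ.2) (pairVec (pt 0) (pt 1))]
  refine congrArg qf ?_
  apply Subtype.ext
  funext i
  rw [permElt_apply]
  show (single p 4 + single q 4) i = (single (pt 0) 4 + single (pt 1) 4) ((σ : Equiv.Perm GolayPt)⁻¹ i)
  have hp' : ∀ r : GolayPt, ((σ : Equiv.Perm GolayPt)⁻¹ i = r) ↔ i = (σ : Equiv.Perm GolayPt) r :=
    fun r => Equiv.Perm.inv_eq_iff_eq.trans Iff.rfl
  have hσp' : (σ : Equiv.Perm GolayPt) (pt 0) = p := hσp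
  have hσq' : (σ : Equiv.Perm GolayPt) (pt 1) = q := hσq
  simp only [Pi.add_apply, single, hp', hσp', hσq']

theorem minus_mem (p q : GolayPt) : single p 4 + single q (-4) ∈ leechLattice := by
  have h8 : (fun i => if i = q then (8 : ℤ) else 0) ∈ leechLattice := by
    have := fourPair_mem q q
    convert this using 1
    funext i; simp only [single, Pi.add_apply]; split <;> norm_num
  convert leechLattice.sub_mem (fourPair_mem p q) h8 using 1
  funext i; simp only [single, Pi.add_apply, Pi.sub_apply]; split <;> split <;> norm_num

theorem minus_zero (h : InvQuad qf bf) {p q : GolayPt} (hpq : p ≠ q) :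
    qf ⟨_, minus_mem p q⟩ = 0 := by
  haveI := five_transitive
  haveI h2t : MulAction.IsMultiplyPretransitive M24 GolayPt 2 :=
    MulAction.isMultiplyPretransitive_of_le (n := 5) (by norm_num) (by
      rw [Nat.card_eq_fintype_card]; decide)
  rw [MulAction.is_two_pretransitive_iff] at h2t
  obtain ⟨σ, hσp, hσq⟩ := h2t (a := pt 23) (b := pt 0) (c := p) (d := q) (by decide) hpq
  have hc : toSet 340831 ∈ supports (golayCode : Set (GolayPt → ZMod 2)) := by
    rw [mem_supports_iff, setNat_toSet (by norm_num)]; decide +kernel
  have hc' := Lib.Golay.smul_mem_supports σ.2 hc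
  have hq : q ∈ (σ : Equiv.Perm GolayPt) • toSet 340831 :=
    Finset.mem_smul_finset.2 ⟨pt 0, by rw [mem_toSet]; decide, hσq⟩
  have hp : p ∉ (σ : Equiv.Perm GolayPt) • toSet 340831 := by
    intro hp
    obtain ⟨r, hr, hrp⟩ := Finset.mem_smul_finset.1 hp
    have : r = pt 23 := (σ : Equiv.Perm GolayPt).injective (hrp.trans hσp.symm)
    rw [this, mem_toSet] at hr
    revert hr; decide
  rw [← h.pair_zero hpq, ← h.inv (flipElt _ hc') (pairVec p q)]
  refine congrArg qf ?_
  apply Subtype.ext
  funext i
  rw [flipElt_apply]
  show (single p 4 + single q (-4)) i = if i ∈ _ then -(single p 4 + single q 4) i else (single p 4 + single q 4) i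
  simp only [Pi.add_apply, single]
  by_cases hip : i = p
  · subst hip; simp [hp, hpq]
  · by_cases hiq : i = q
    · subst hiq; simp [hq, hip]
    · simp [hip, hiq]

/-- `8 e_p`. -/
def eightVec (p : GolayPt) : leechLattice := pairVec p p

theorem bf_pair_eight (h : InvQuad qf bf) {p q : GolayPt} (hpq : p ≠ q) :
    bf (pairVec p q) (eightVec q) = qf (eightVec q) := by
  have e : pairVec p q + -eightVec q = ⟨_, minus_mem p q⟩ := by
    apply Subtype.ext
    funext i
    show (single p 4 + single q 4) i + -((single q 4 + single q 4) i) = (single p 4 + single q (-4)) i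
    simp only [Pi.add_apply, single]; split <;> split <;> norm_num
  have h1 := h.add (pairVec p q) (-eightVec q)
  rw [e, h.minus_zero hpq, h.pair_zero hpq, h.qf_neg, h.bf_neg] at h1
  revert h1
  generalize qf (eightVec q) = a; generalize bf (pairVec p q) (eightVec q) = b
  revert a b
  decide

theorem eight_congr (h : InvQuad qf bf) (v : leechLattice) (p q : GolayPt) :
    qf (eightVec p) = qf (eightVec q) ∧ bf v (eightVec p) = bf v (eightVec q) := by
  have e : eightVec p = eightVec q + (⟨_, minus_mem p q⟩ + ⟨_, minus_mem p q⟩) := by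
    apply Subtype.ext
    funext i
    show (single p 4 + single p 4) i = (single q 4 + single q 4) i +
      ((single p 4 + single q (-4)) i + (single p 4 + single q (-4)) i)
    simp only [Pi.add_apply, single]; split <;> split <;> norm_num
  refine ⟨by rw [e, h.per], ?_⟩
  rw [e, h.bilin, h.bilin, CharTwo.add_self_eq_zero, add_zero]

theorem eight_zero (h : InvQuad qf bf) (p : GolayPt) : qf (eightVec p) = 0 := by
  obtain ⟨q, hq⟩ : ∃ q : GolayPt, q ≠ p := exists_ne p
  obtain ⟨r, hr, hrq⟩ : ∃ r : GolayPt, r ≠ p ∧ r ≠ q := by
    obtain ⟨r, hr⟩ := Finset.exists_mem_notMem_of_card_lt_card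
      (s := ({p, q} : Finset GolayPt)) (t := Finset.univ)
      (lt_of_le_of_lt Finset.card_le_two (by decide))
    exact ⟨r, fun e => hr.2 (by simp [e]), fun e => hr.2 (by simp [e])⟩
  have e : pairVec p r = pairVec p q + (pairVec q r + -eightVec q) := by
    apply Subtype.ext
    funext i
    show (single p 4 + single r 4) i = (single p 4 + single q 4) i +
      ((single q 4 + single r 4) i + -((single q 4 + single q 4) i))
    simp only [Pi.add_apply, single]; split <;> split <;> split <;> norm_num
  set f := eightVec q with hf
  have h0 := h.bilin f (pairVec p q) (pairVec q r + -f)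
  rw [← e, h.bilin, h.bf_neg, h.self, h.symm f (pairVec p r), h.symm f (pairVec p q),
    h.symm f (pairVec q r), h.bf_pair_eight hq.symm, (h.eight_congr (pairVec q r) q r).2,
    h.bf_pair_eight hrq.symm, (h.eight_congr 0 r q).1, (h.eight_congr (pairVec p r) q r).2,
    h.bf_pair_eight hr.symm, (h.eight_congr 0 r q).1] at h0
  rw [(h.eight_congr 0 p q).1]
  revert h0
  generalize qf f = a
  revert a
  decide

theorem pair_eight_zero (h : InvQuad qf bf) {p q : GolayPt} (hpq : p ≠ q) (r : GolayPt) :
    bf (pairVec p q) (eightVec r) = 0 := by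
  rw [(h.eight_congr _ r q).2, h.bf_pair_eight hpq, h.eight_zero]

theorem adjacent (h : InvQuad qf bf) {p q r : GolayPt} (hpq : p ≠ q) (hqr : q ≠ r) :
    bf (pairVec p q) (pairVec q r) = 0 := by
  by_cases hpr : p = r
  · subst hpr
    have : pairVec q p = pairVec p q := Subtype.ext (add_comm _ _)
    rw [this, h.self]
  have e : pairVec p q + (pairVec q r + -eightVec q) = pairVec p r := by
    apply Subtype.ext
    funext i
    show (single p 4 + single q 4) i + ((single q 4 + single r 4) i + -((single q 4 + single q 4) i))
      = (single p 4 + single r 4) i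
    simp only [Pi.add_apply, single]; split <;> split <;> split <;> norm_num
  have h1 := h.add (pairVec p q) (pairVec q r + -eightVec q)
  have h2 := h.add (pairVec q r) (-eightVec q)
  rw [h.pair_zero hqr, h.qf_neg, h.eight_zero, h.bf_neg, h.pair_eight_zero hqr] at h2
  rw [e, h.pair_zero hpr, h.pair_zero hpq, h2, h.bilin, h.bf_neg, h.pair_eight_zero hpq] at h1
  simpa using h1.symm

theorem pair_pair (h : InvQuad qf bf) {p q r s : GolayPt} (hpq : p ≠ q) (hrs : r ≠ s) :
    bf (pairVec p q) (pairVec r s) = 0 := by
  by_cases hqr : q = r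
  · subst hqr; exact h.adjacent hpq hrs
  by_cases hqs : q = s
  · subst hqs
    rw [show pairVec r q = pairVec q r from Subtype.ext (add_comm _ _)]
    exact h.adjacent hpq (Ne.symm hrs)
  have e : pairVec r s = pairVec q r + (pairVec q s + -eightVec q) := by
    apply Subtype.ext
    funext i
    show (single r 4 + single s 4) i = (single q 4 + single r 4) i +
      ((single q 4 + single s 4) i + -((single q 4 + single q 4) i))
    simp only [Pi.add_apply, single]; split <;> split <;> split <;> norm_num
  rw [e, h.bilin, h.bilin, h.bf_neg, h.adjacent hpq hqr, h.adjacent hpq hqs,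
    h.pair_eight_zero hpq, add_zero, add_zero]

/-- The frame sublattice. -/
def frame : AddSubgroup leechLattice :=
  AddSubgroup.closure {v | ∃ p q, p ≠ q ∧ v = pairVec p q}

theorem frame_singular (h : InvQuad qf bf) {v : leechLattice} (hv : v ∈ frame) :
    qf v = 0 ∧ ∀ p q, p ≠ q → bf (pairVec p q) v = 0 := by
  induction hv using AddSubgroup.closure_induction with
  | mem y hy =>
    obtain ⟨r, s, hrs, rfl⟩ := hy
    exact ⟨h.pair_zero hrs, fun p q hpq => h.pair_pair hpq hrs⟩
  | zero => exact ⟨h.zero, fun p q _ => h.bf_zero _⟩
  | add a b ha hb iha ihb =>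
    refine ⟨?_, fun p q hpq => by rw [h.bilin, iha.2 p q hpq, ihb.2 p q hpq, add_zero]⟩
    have key : ∀ y ∈ frame, bf y b = 0 := by
      intro y hy
      induction hy using AddSubgroup.closure_induction with
      | mem y hy => obtain ⟨r, s, hrs, rfl⟩ := hy; exact ihb.2 r s hrs
      | zero => rw [h.symm, h.bf_zero]
      | add c d _ _ hc hd => rw [h.symm, h.bilin, h.symm b c, h.symm b d, hc, hd, add_zero]
      | neg c _ hc => rw [h.symm, h.bf_neg, h.symm, hc]
    rw [h.add, iha.1, ihb.1, key a ha]; rfl
  | neg a _ iha => exact ⟨by rw [h.qf_neg, iha.1], fun p q hpq => by rw [h.bf_neg, iha.2 p q hpq]⟩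

end InvQuad

end Cfsg.Lib.Leech
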