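import Mathlib
import Cfsg.Prelude.Def_MonsterType
import Cfsg.Agent.Lib.Leech.FrameSingular

/-!
The extraspecial subgroup in a group of Monster type has plus type.
-/

set_option autoImplicit false

namespace Cfsg.Lib.Leech

open Cfsg Cfsg.Lib.Golay

/-- Twelve generators of the frame sublattice modulo twice the lattice. -/
def frameGen (i : Fin 12) : leechLattice :=
  if (i : ℕ) < 11 then pairVec (pt 0) (pt (i + 1)) else InvQuad.eightVec (pt 0)

theorem frameGen_mem (i : Fin 12) : frameGen i ∈ InvQuad.frame := by
  have hp : ∀ p q : GolayPt, p ≠ q → pairVec p q ∈ InvQuad.frame :=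
    fun p q h => AddSubgroup.subset_closure ⟨p, q, h, rfl⟩
  unfold frameGen
  split
  · rename_i h
    apply hp
    intro e
    have := congrArg idx e
    rw [idx_pt (by norm_num), idx_pt (by omega)] at this
    omega
  · have e : InvQuad.eightVec (pt 0) = pairVec (pt 0) (pt 1) + pairVec (pt 0) (pt 2) + -pairVec (pt 1) (pt 2) := by
      apply Subtype.ext
      show (single (pt 0) 4 + single (pt 0) 4 : GolayPt → ℤ) = (single (pt 0) 4 + single (pt 1) 4) +
        (single (pt 0) 4 + single (pt 2) 4) + -(single (pt 1) 4 + single (pt 2) 4)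
      funext i; revert i; decide
    rw [e]
    exact add_mem (add_mem (hp _ _ (by decide)) (hp _ _ (by decide))) (neg_mem (hp _ _ (by decide)))

/-- A quarter of the combination of `frameGen` with coefficients the binary digits of `n`. -/
def quarter (n : ℕ) (p : GolayPt) : ℤ :=
  if idx p = 0 then ((List.range 11).countP fun i => n.testBit i : ℕ) + (if n.testBit 11 then 2 else 0)
  else if idx p < 12 ∧ n.testBit (idx p - 1) then 1 else 0

/-- The finite check showing that the twelve generators are independent modulo twice the lattice. -/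
def indepCheck (n : ℕ) : Bool :=
  n == 0 || (∑ p, quarter n p) % 4 != 0 ||
    codeGens.any fun c => (∑ p ∈ toSet c, quarter n p) % 2 != 0

set_option maxRecDepth 100000 in
theorem indep_all : (List.range 4096).all indepCheck = true := by decide +kernel

theorem frame_codeGens_inCode : codeGens.all inCode = true := by decide +kernel

theorem countP_range_eq_sum (f : ℕ → Bool) :
    ∀ m, (List.range m).countP f = ∑ i : Fin m, if f i then 1 else 0
  | 0 => by simp
  | m + 1 => by
    rw [List.range_succ, List.countP_append, countP_range_eq_sum f m, Fin.sum_univ_castSucc]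
    simp [List.countP_cons]

theorem frameGen_apply (i : Fin 12) (p : GolayPt) :
    (frameGen i : GolayPt → ℤ) p =
      4 * ((if idx p = 0 then (if (i : ℕ) < 11 then 1 else 2) else 0) +
        (if idx p = (i : ℕ) + 1 ∧ (i : ℕ) < 11 then 1 else 0)) := by
  have key : ∀ i : Fin 12, ∀ p : GolayPt,
      ((if (i : ℕ) < 11 then single (pt 0) 4 + single (pt (i + 1)) 4 else single (pt 0) 4 + single (pt 0) 4 :
        GolayPt → ℤ)) p =
      4 * ((if idx p = 0 then (if (i : ℕ) < 11 then 1 else 2) else 0) +
        (if idx p = (i : ℕ) + 1 ∧ (i : ℕ) < 11 then 1 else 0)) := by decide +kernel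
  rw [← key i p]
  unfold frameGen
  split <;> rfl

theorem indep {b : Fin 12 → ZMod 2} {u : leechLattice}
    (hu : ∑ i, (b i).val • frameGen i = u + u) : b = 0 := by
  set n := Nat.ofBits fun i : Fin 12 => decide (b i = 1) with hn
  have hbit : ∀ i : Fin 12, n.testBit i = decide (b i = 1) := fun i => by
    rw [hn, Nat.testBit_ofBits_lt _ _ i.2]
  have hval : ∀ p, ((∑ i, (b i).val • frameGen i : leechLattice) : GolayPt → ℤ) p = 4 * quarter n p := by
    intro p
    rw [AddSubmonoidClass.coe_finsetSum, Finset.sum_apply]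
    simp only [AddSubmonoidClass.coe_nsmul, Pi.smul_apply, nsmul_eq_mul]
    have hv : ∀ i, ((b i).val : ℤ) = if n.testBit i then 1 else 0 := by
      intro i
      rw [hbit]
      generalize b i = x
      revert x; decide
    simp only [hv, frameGen_apply, Fin.sum_univ_castSucc (n := 11), Fin.val_castSucc, Fin.val_last,
      Fin.is_lt, if_true, lt_irrefl, if_false, and_true, and_false]
    rw [quarter, countP_range_eq_sum]
    rcases Nat.eq_zero_or_pos (idx p) with h0 | hpos
    · simp only [h0, if_true, Nat.zero_ne_add_one, if_false, add_zero]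
      push_cast
      rw [mul_add, Finset.mul_sum]
      split <;> simp [mul_comm, Finset.mul_sum]
    · simp only [hpos.ne', if_false, zero_add, mul_zero, add_zero]
      by_cases h12 : idx p < 12
      · rw [Finset.sum_eq_single (⟨idx p - 1, by omega⟩ : Fin 11)]
        · simp only [Nat.sub_add_cancel hpos, if_true, mul_one, h12, true_and]
          split <;> simp
        · intro j _ hj
          rw [if_neg (c := idx p = (j : ℕ) + 1) (fun h => hj (Fin.ext (by show (j : ℕ) = idx p - 1; omega))), mul_zero, mul_zero]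
        · intro h; exact absurd (Finset.mem_univ _) h
      · rw [if_neg (fun h => h12 h.1), mul_zero]
        refine Finset.sum_eq_zero fun j _ => ?_
        rw [if_neg (c := idx p = (j : ℕ) + 1) (fun h => h12 (by have := j.2; omega)), mul_zero, mul_zero]
  have hcoe : ∀ p, (u : GolayPt → ℤ) p = 2 * quarter n p := by
    intro p
    have := hval p
    rw [hu, AddSubgroup.coe_add, Pi.add_apply] at this
    omega
  obtain ⟨h1, h2⟩ := invariants u.2
  have hchk : indepCheck n = true :=
    List.all_eq_true.1 indep_all n (List.mem_range.2 (Nat.ofBits_lt_two_pow _))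
  rw [indepCheck, Bool.or_eq_true, Bool.or_eq_true] at hchk
  rcases hchk with (h | h) | h
  · rw [beq_iff_eq] at h
    funext i
    have := hbit i
    rw [h, Nat.zero_testBit] at this
    have h2 := of_decide_eq_false this.symm
    show b i = 0
    revert h2
    generalize b i = x
    revert x; decide
  · exfalso
    rw [bne_iff_ne] at h
    simp only [hcoe, ← Finset.mul_sum] at h2
    omega
  · exfalso
    rw [List.any_eq_true] at h
    obtain ⟨c, hc, hodd⟩ := h
    rw [bne_iff_ne] at hodd
    have hcc := List.all_eq_true.1 frame_codeGens_inCode c hc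
    have hsup : toSet c ∈ supports (golayCode : Set (GolayPt → ZMod 2)) := by
      rw [mem_supports_iff, setNat_toSet (lt_of_inCode hcc)]; exact hcc
    have := h1 _ hsup
    simp only [hcoe, ← Finset.mul_sum] at this
    omega

/-- Indicator of non-triviality. -/
noncomputable def nontrivInd {A : Type*} [One A] (x : A) : ZMod 2 :=
  haveI := Classical.propDecidable (x = 1)
  if x = 1 then 0 else 1

theorem monster_plus {G : Type*} [Group G] [Finite G] (z : G)
    (Q : Subgroup (Subgroup.centralizer ({z} : Set G))) [Q.Normal] (hM : IsOfMonsterType z Q) :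
    ∃ E : Subgroup Q, IsElementaryAbelian 2 E ∧ Nat.card E = 2 ^ 13 := by
  classical
  obtain ⟨⟨-, -, ⟨-, hZ2⟩, hQc, -⟩, e, ψ, hadd, hsurj, hker, heq⟩ := hM
  haveI : Finite Q := inferInstance
  -- basic facts about the centre
  obtain ⟨z0, hz0⟩ : ∃ z0 : (Subgroup.center Q), z0 ≠ 1 := by
    haveI : Nontrivial (Subgroup.center Q) := Finite.one_lt_card_iff_nontrivial.1 (by omega)
    exact exists_ne 1
  have htwo : ∀ a : Q, a ∈ (Subgroup.center Q) → a = 1 ∨ a = (z0 : Q) := by
    intro a ha
    by_contra hc
    push Not at hc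
    haveI := Fintype.ofFinite (Subgroup.center Q)
    have : ({1, z0, ⟨a, ha⟩} : Finset (Subgroup.center Q)).card = 3 := by
      rw [Finset.card_insert_of_notMem, Finset.card_pair]
      · intro h; exact hc.2 (congrArg Subtype.val h).symm
      · simp only [Finset.mem_insert, Finset.mem_singleton, not_or]
        exact ⟨Ne.symm hz0, fun h => hc.1 (congrArg Subtype.val h).symm⟩
    have h2 := Finset.card_le_univ ({1, z0, ⟨a, ha⟩} : Finset (Subgroup.center Q))
    rw [Nat.card_eq_fintype_card] at hZ2
    omega
  have hz0sq : (z0 : Q) * z0 = 1 := by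
    have h := pow_card_eq_one' (x := z0)
    rw [hZ2, pow_two] at h
    exact congrArg Subtype.val h
  have hz0ne : (z0 : Q) ≠ 1 := fun h => hz0 (Subtype.ext h)
  have hind : ∀ a b : Q, a ∈ (Subgroup.center Q) → b ∈ (Subgroup.center Q) → nontrivInd (a * b) = nontrivInd a + nontrivInd b := by
    intro a b ha hb
    rcases htwo a ha with rfl | rfl <;> rcases htwo b hb with rfl | rfl <;>
      simp [nontrivInd, hz0ne, hz0sq] <;> decide
  -- the quotient
  have hψ0 : ψ 0 = 1 := (hker 0).2 ⟨0, by simp⟩
  have hcommq : ∀ a b : Q ⧸ (Subgroup.center Q), a * b = b * a := by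
    intro a b
    obtain ⟨v, rfl⟩ := hsurj a
    obtain ⟨w, rfl⟩ := hsurj b
    rw [← hadd, ← hadd, add_comm]
  have hsqq : ∀ a : Q ⧸ (Subgroup.center Q), a * a = 1 := by
    intro a
    obtain ⟨v, rfl⟩ := hsurj a
    rw [← hadd]; exact (hker _).2 ⟨v, rfl⟩
  have hsqZ : ∀ x : Q, x * x ∈ (Subgroup.center Q) := by
    intro x
    rw [← QuotientGroup.eq_one_iff, QuotientGroup.mk_mul, hsqq]
  have hcomZ : ∀ x y : Q, x⁻¹ * y * x * y⁻¹ ∈ (Subgroup.center Q) := by
    intro x y
    rw [← QuotientGroup.eq_one_iff, QuotientGroup.mk_mul, QuotientGroup.mk_mul, QuotientGroup.mk_mul,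
      QuotientGroup.mk_inv, QuotientGroup.mk_inv, hcommq ((x : Q ⧸ (Subgroup.center Q)))⁻¹ (y : Q ⧸ (Subgroup.center Q))]
    group
  have hsq_wd : ∀ x y : Q, (QuotientGroup.mk x : Q ⧸ (Subgroup.center Q)) = QuotientGroup.mk y → x * x = y * y := by
    intro x y h
    rw [QuotientGroup.eq] at h
    set k := x⁻¹ * y with hk
    have hy : y = x * k := by rw [hk]; group
    have hkk : k * k = 1 := by
      rcases htwo k h with e | e <;> rw [e]
      · rw [one_mul]
      · exact hz0sq
    rw [hy]
    have hc : k * x = x * k := (Subgroup.mem_center_iff.1 h x).symm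
    calc x * x = x * x * (k * k) := by rw [hkk, mul_one]
      _ = x * (x * k) * k := by group
      _ = x * (k * x) * k := by rw [hc]
      _ = x * k * (x * k) := by group
  set rep : leechLattice → Q := fun v => Quotient.out (ψ v) with hrep
  have hrepspec : ∀ v, (QuotientGroup.mk (rep v) : Q ⧸ (Subgroup.center Q)) = ψ v := fun v => QuotientGroup.out_eq' _
  set qf : leechLattice → ZMod 2 := fun v => nontrivInd (rep v * rep v) with hqf
  set bf : leechLattice → leechLattice → ZMod 2 :=
    fun v w => nontrivInd ((rep v)⁻¹ * rep w * rep v * (rep w)⁻¹) with hbf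
  have hqf' : ∀ v x, (QuotientGroup.mk x : Q ⧸ (Subgroup.center Q)) = ψ v → qf v = nontrivInd (x * x) := by
    intro v x hx
    show nontrivInd (rep v * rep v) = _
    rw [hsq_wd (rep v) x (by rw [hrepspec, hx])]
  have hbf' : ∀ v w y, (QuotientGroup.mk y : Q ⧸ (Subgroup.center Q)) = ψ w →
      bf v w = nontrivInd ((rep v)⁻¹ * y * rep v * y⁻¹) := by
    intro v w y hy
    show nontrivInd ((rep v)⁻¹ * rep w * rep v * (rep w)⁻¹) = _
    have h : (rep w)⁻¹ * y ∈ (Subgroup.center Q) := QuotientGroup.eq.1 (by rw [hrepspec, hy])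
    set k := (rep w)⁻¹ * y with hk
    have hy' : y = rep w * k := by rw [hk]; group
    have hc : k * rep v = rep v * k := (Subgroup.mem_center_iff.1 h (rep v)).symm
    rw [hy']
    congr 1
    calc (rep v)⁻¹ * rep w * rep v * (rep w)⁻¹
        = (rep v)⁻¹ * rep w * (rep v * k) * k⁻¹ * (rep w)⁻¹ := by group
      _ = (rep v)⁻¹ * rep w * (k * rep v) * k⁻¹ * (rep w)⁻¹ := by rw [hc]
      _ = (rep v)⁻¹ * (rep w * k) * rep v * (rep w * k)⁻¹ := by group
  have hquad : InvQuad qf bf := by
    refine ⟨fun v w => ?_, fun u v w => ?_, fun v u => ?_, fun g v => ?_⟩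
    · rw [hqf' (v + w) (rep v * rep w) (by rw [QuotientGroup.mk_mul, hrepspec, hrepspec, hadd])]
      show nontrivInd _ = nontrivInd _ + nontrivInd _ + nontrivInd _
      set x := rep v
      set y := rep w
      have hk := hcomZ x y
      set k := x⁻¹ * y * x * y⁻¹ with hk'
      have e : x * y * (x * y) = x * x * (y * y) * k := by
        have hc : k * (y * y) = (y * y) * k := (Subgroup.mem_center_iff.1 hk _).symm
        calc x * y * (x * y) = x * x * (k * (y * y)) := by rw [hk']; group
          _ = x * x * ((y * y) * k) := by rw [hc]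
          _ = x * x * (y * y) * k := by group
      rw [e, hind _ _ (mul_mem (hsqZ x) (hsqZ y)) hk, hind _ _ (hsqZ x) (hsqZ y)]
    · rw [hbf' u (v + w) (rep v * rep w) (by rw [QuotientGroup.mk_mul, hrepspec, hrepspec, hadd])]
      show nontrivInd _ = nontrivInd _ + nontrivInd _
      set x := rep u
      set y := rep v
      set y' := rep w
      have hk := hcomZ x y'
      set k := x⁻¹ * y' * x * y'⁻¹ with hk'
      have hc : k * y⁻¹ = y⁻¹ * k := (Subgroup.mem_center_iff.1 hk _).symm
      have e : x⁻¹ * (y * y') * x * (y * y')⁻¹ = (x⁻¹ * y * x * y⁻¹) * k := by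
        calc x⁻¹ * (y * y') * x * (y * y')⁻¹ = x⁻¹ * y * x * (k * y⁻¹) := by rw [hk']; group
          _ = x⁻¹ * y * x * (y⁻¹ * k) := by rw [hc]
          _ = (x⁻¹ * y * x * y⁻¹) * k := by group
      rw [e, hind _ _ (hcomZ x y) hk]
    · exact (hqf' _ (rep v) (by rw [hrepspec, hadd, (hker (u + u)).2 ⟨u, rfl⟩, mul_one])).trans rfl
    · obtain ⟨hq, hhq⟩ := e.surjective (QuotientGroup.mk g : Spor.Co1)
      obtain ⟨h, rfl⟩ := QuotientGroup.mk_surjective hq
      have hs := heq h g hhq.symm v (rep v) (hrepspec v).symm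
      rw [hqf' (g • v) _ hs.symm]
      show nontrivInd _ = nontrivInd (rep v * rep v)
      set φ : Q →* Q := {
        toFun := fun q => ⟨h * q * h⁻¹, (inferInstance : Q.Normal).conj_mem q q.2 h⟩
        map_one' := Subtype.ext (by simp)
        map_mul' := fun a b => Subtype.ext (by simp [mul_assoc]) } with hφ
      show nontrivInd (φ (rep v) * φ (rep v)) = _
      rw [← map_mul]
      have hφinj : Function.Injective φ := fun a b hab => by
        have := congrArg Subtype.val hab
        exact Subtype.ext (mul_left_cancel (mul_right_cancel this))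
      simp only [nontrivInd]
      congr 1
      exact propext (map_eq_one_iff φ hφinj)
  -- the elementary abelian subgroup
  letI : CommGroup (Q ⧸ (Subgroup.center Q)) := { (inferInstance : Group (Q ⧸ (Subgroup.center Q))) with mul_comm := hcommq }
  let Ψ : leechLattice →+ Additive (Q ⧸ (Subgroup.center Q)) :=
    { toFun := fun v => Additive.ofMul (ψ v)
      map_zero' := by rw [hψ0]; rfl
      map_add' := fun v w => by rw [hadd]; rfl }
  let Φ : (Fin 12 → ZMod 2) →+ Additive (Q ⧸ (Subgroup.center Q)) :=
    { toFun := fun b => Ψ (∑ i, (b i).val • frameGen i)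
      map_zero' := by simp
      map_add' := fun a b => by
        rw [map_sum, map_sum, map_sum, ← Finset.sum_add_distrib]
        refine Finset.sum_congr rfl fun i _ => ?_
        rw [map_nsmul, map_nsmul, map_nsmul, ← add_nsmul, Pi.add_apply]
        have h2 : 2 • Ψ (frameGen i) = 0 := by
          rw [two_nsmul]
          exact hsqq (ψ (frameGen i))
        have hdec : ∀ x y : ZMod 2, x.val + y.val = (x + y).val + 2 * (x.val * y.val) := by decide
        rw [hdec, add_nsmul, mul_comm 2, mul_nsmul', h2, nsmul_zero, add_zero] }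
  have hΦinj : Function.Injective Φ := by
    rw [injective_iff_map_eq_zero]
    intro b hb
    obtain ⟨u, hu⟩ := (hker _).1 (Additive.ofMul.injective hb)
    exact indep hu
  set R : Subgroup (Q ⧸ (Subgroup.center Q)) := AddSubgroup.toSubgroup' Φ.range with hR
  have hRcard : Nat.card R = 4096 := by
    have : Nat.card R = Nat.card Φ.range := rfl
    rw [this, ← Nat.card_congr (AddMonoidHom.ofInjective hΦinj).toEquiv, Nat.card_pi]
    simp
  set E := R.comap (QuotientGroup.mk' (Subgroup.center Q)) with hE
  have hsq1 : ∀ x ∈ E, x * x = 1 := by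
    intro x hx
    obtain ⟨b, hb⟩ := hx
    have hw : (∑ i, (b i).val • frameGen i) ∈ InvQuad.frame :=
      sum_mem fun i _ => nsmul_mem (frameGen_mem i) _
    have h0 := (hquad.frame_singular hw).1
    have hmk : (QuotientGroup.mk x : Q ⧸ (Subgroup.center Q)) = ψ (∑ i, (b i).val • frameGen i) :=
      (Additive.ofMul.injective hb).symm
    rw [hqf' _ x hmk, nontrivInd] at h0
    by_contra hne
    rw [if_neg hne] at h0
    exact one_ne_zero h0
  refine ⟨E, ⟨⟨⟨fun a b => Subtype.ext ?_⟩⟩, fun a ha => by rw [pow_two]; exact hsq1 a ha⟩, ?_⟩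
  · have hi : ∀ x ∈ E, x⁻¹ = x := fun x hx => inv_eq_of_mul_eq_one_right (hsq1 x hx)
    show (a : Q) * b = b * a
    calc (a : Q) * b = ((a : Q) * b)⁻¹ := (hi _ (mul_mem a.2 b.2)).symm
      _ = (b : Q) * a := by rw [mul_inv_rev, hi _ a.2, hi _ b.2]
  · have h1 := E.card_mul_index
    have h2 := R.card_mul_index
    have h3 : E.index = R.index := R.index_comap_of_surjective (QuotientGroup.mk'_surjective (Subgroup.center Q))
    have h4 := (Subgroup.center Q).card_mul_index
    rw [show (Subgroup.center Q).index = Nat.card (Q ⧸ (Subgroup.center Q)) from rfl, hZ2] at h4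
    rw [hRcard] at h2
    rw [h3] at h1
    rw [hQc] at h1 h4
    norm_num at h1 h4 ⊢
    have hpos : 0 < R.index := Nat.pos_of_ne_zero Subgroup.index_ne_zero_of_finite
    have h5 : R.index = 4096 := by omega
    rw [h5] at h1
    omega

end Cfsg.Lib.Leech
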