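import Mathlib
import Cfsg.Agent.Lib.Leech.Perp
import Cfsg.Agent.Lib.Leech.MonsterPlus
import Cfsg.Agent.Lib.Golay.Module

/-!
The stabilizer of the standard cross acting on the classes orthogonal to it.
-/

set_option autoImplicit false

namespace Cfsg.Lib.Leech

open Cfsg Cfsg.Lib.Golay
open scoped Pointwise

local notation "CC" => supports (golayCode : Set (GolayPt → ZMod 2))

/-- All coordinates are divisible by four. -/
def IsFour (x : leechLattice) : Prop := ∀ i, (x : GolayPt → ℤ) i % 4 = 0

theorem cross_stab {g : Co0} (h : cls (g • eight none) = cls (eight none)) : ∃ p : M24 × CC, monoElt p = g := by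
  obtain ⟨σ, hσ, c, hc, happ⟩ := cross_stab_monomial g (by
    intro v hv
    have hc : cls v = cls (eight none) := by
      obtain ⟨i, rfl | rfl⟩ := (mem_stdCross_iff v).1 hv
      · exact (eight_cls i).1
      · exact (eight_cls i).2
    have hn : sqNorm (v : GolayPt → ℤ) = 64 := by
      obtain ⟨i, rfl | rfl⟩ := (mem_stdCross_iff v).1 hv
      · exact eight_norm i
      · rw [AddSubgroup.coe_neg, neg_norm, eight_norm]
    have : g • v ∈ crossSet (eight none) := ⟨by rw [co0_norm, hn], by rw [cls_smul g hc, h]⟩
    rw [crossSet_eight] at this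
    exact this)
  exact ⟨(⟨σ, hσ⟩, ⟨c, hc⟩), co0_ext fun v => by rw [monoElt_apply, happ v]⟩

theorem perm_eight_cls (σ : Equiv.Perm GolayPt) (hσ : σ ∈ M24) :
    cls (permElt σ hσ • eight none) = cls (eight none) := by
  rw [permElt_eight]; exact (eight_cls _).1

theorem flip_eight_cls (c : Finset GolayPt) (hc : c ∈ CC) :
    cls (flipElt c hc • eight none) = cls (eight none) := by
  by_cases h : none ∈ c
  · rw [show flipElt c hc • eight none = -eight none from Subtype.ext (funext fun i => by
      rw [flipElt_apply, AddSubgroup.coe_neg, Pi.neg_apply, eight_apply]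
      by_cases hi : i = none <;> simp [hi, h])]
    exact cls_neg_self _
  · rw [show flipElt c hc • eight none = eight none from Subtype.ext (funext fun i => by
      rw [flipElt_apply, eight_apply]
      by_cases hi : i = none <;> simp [hi, h])]

theorem min_cls_eq {x y : leechLattice} (hx : sqNorm (x : GolayPt → ℤ) = 32) (hy : sqNorm (y : GolayPt → ℤ) = 32)
    (h : cls x = cls y) : x = y ∨ x = -y := by
  by_cases e : x = y
  · exact Or.inl e
  rcases congr_cases x.2 (fun e' => e (Subtype.ext e')) (by omega) (by omega) (cls_eq_iff.1 h) with h' | h'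
  · exact Or.inr (Subtype.ext h')
  · omega

/-- A set of classes orthogonal to the standard cross, invariant under its stabilizer. -/
structure FourInv (L : AddSubgroup leechLattice) : Prop where
  dbl : ∀ u : leechLattice, u + u ∈ L
  base : eight none ∈ L
  inv : ∀ g : Co0, cls (g • eight none) = cls (eight none) → ∀ w ∈ L, g • w ∈ L
  even : ∀ w ∈ L, sqNorm (w : GolayPt → ℤ) % 32 = 0

/-- Half of a vector modulo two. -/
def halfWord (w : leechLattice) : GolayPt → ZMod 2 := fun i => (((w : GolayPt → ℤ) i / 2 : ℤ) : ZMod 2)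

/-- Reduction of the coordinates modulo eight. -/
def redEight (x : leechLattice) : leechLattice := x - ∑ i, ((x : GolayPt → ℤ) i / 8) • eight i

theorem redEight_apply (x : leechLattice) (j : GolayPt) :
    (redEight x : GolayPt → ℤ) j = (x : GolayPt → ℤ) j % 8 := by
  simp only [redEight, AddSubgroup.coe_sub, AddSubgroup.val_finsetSum, AddSubgroup.coe_zsmul, Pi.sub_apply,
    Finset.sum_apply, Pi.smul_apply, smul_eq_mul, eight_apply, mul_ite, mul_zero, Finset.sum_ite_eq,
    Finset.mem_univ, if_true]
  omega

/-- The base point of the decomposition of frame vectors. -/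
def pt0 : GolayPt := pt 0

theorem plus_apply {a b : GolayPt} (h : a ≠ b) (i : GolayPt) :
    (plusVec a b : GolayPt → ℤ) i = if i ∈ ({a, b} : Finset GolayPt) then 4 else 0 := by
  simp only [plusVec]
  by_cases h1 : i = a <;> by_cases h2 : i = b <;> simp_all

theorem four_decomp {x : leechLattice} (hx : IsFour x) :
    x = (∑ p, ((x : GolayPt → ℤ) p / 4) • plusVec pt0 p) +
      (-((∑ p, (x : GolayPt → ℤ) p / 4) / 2)) • eight pt0 := by
  refine Subtype.ext (funext fun j => ?_)
  have hsum := (mem_lattice_iff.1 x.2).2.2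
  have h4 : ∀ p, (x : GolayPt → ℤ) p = 4 * ((x : GolayPt → ℤ) p / 4) := fun p => by have := hx p; omega
  have hs : (∑ p, (x : GolayPt → ℤ) p) = 4 * ∑ p, (x : GolayPt → ℤ) p / 4 := by
    rw [Finset.mul_sum]; exact Finset.sum_congr rfl fun p _ => h4 p
  rw [hs] at hsum
  have hn := h4 none
  simp only [AddSubgroup.coe_add, AddSubgroup.val_finsetSum, AddSubgroup.coe_zsmul, Pi.add_apply,
    Finset.sum_apply, Pi.smul_apply, smul_eq_mul, plusVec, eight_apply, mul_add, Finset.sum_add_distrib,
    mul_ite, mul_zero, Finset.sum_ite_eq, Finset.mem_univ, if_true]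
  by_cases hj : j = pt0
  · subst hj
    simp only [if_true]
    rw [← Finset.sum_mul]
    have := h4 pt0
    omega
  · simp only [hj, if_false, Finset.sum_const_zero]
    have := h4 j
    omega

theorem uVec_odd : ∀ i : GolayPt, uVec i % 2 = 1 := by decide +kernel

theorem triple_odd : ∀ a b : ZMod 2, ∑ i ∈ toSet 18147, (toWord 5279 i + a) * (toWord 10558 i + b) = 1 := by
  decide +kernel

theorem triple_code : inCode 5279 = true ∧ inCode 10558 = true ∧ inCode 18147 = true := by decide +kernel

theorem cls_ne_zero64 {v : leechLattice} (hv : sqNorm (v : GolayPt → ℤ) = 64) : cls v ≠ cls 0 := by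
  intro h
  obtain ⟨z, hz, e'⟩ := cls_eq_iff.1 h
  have h0 : (v : GolayPt → ℤ) ≠ 0 := fun e0 => by rw [e0] at hv; simp [sqNorm] at hv
  rcases congr_cases (y := (0 : GolayPt → ℤ)) v.2 h0 (by omega) (by simp [sqNorm]) ⟨z, hz, by simpa using e'⟩ with
    q | ⟨-, q, -⟩
  · exact h0 (by rw [q, neg_zero])
  · simp [sqNorm] at q

theorem norm_cases' (x : leechLattice) : ∃ y : leechLattice, cls x = cls y ∧
    ((y : GolayPt → ℤ) = 0 ∨ sqNorm (y : GolayPt → ℤ) = 32 ∨ sqNorm (y : GolayPt → ℤ) = 48 ∨
      sqNorm (y : GolayPt → ℤ) = 64) := by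
  obtain ⟨y, hy, hxy⟩ := class_data.1 x
  refine ⟨y, hxy, ?_⟩
  by_cases h0 : (y : GolayPt → ℤ) = 0
  · exact Or.inl h0
  have := norm_dvd y.2
  have := min_norm y.2 h0
  omega

namespace FourInv

variable {L : AddSubgroup leechLattice}

theorem congr (hL : FourInv L) {v w : leechLattice} (h : cls v = cls w) (hv : v ∈ L) : w ∈ L := by
  obtain ⟨z, hz, e⟩ := cls_eq_iff.1 h
  have : w = v - ((⟨z, hz⟩ : leechLattice) + ⟨z, hz⟩) := Subtype.ext (by
    rw [AddSubgroup.coe_sub, AddSubgroup.coe_add, ← two_nsmul]
    show (w : GolayPt → ℤ) = (v : GolayPt → ℤ) - 2 • z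
    rw [← e]; abel)
  rw [this]
  exact sub_mem hv (hL.dbl _)

theorem eight_mem (hL : FourInv L) (i : GolayPt) : eight i ∈ L := hL.congr (eight_cls i).1.symm hL.base

theorem red_mem (hL : FourInv L) {x : leechLattice} (hx : x ∈ L) : redEight x ∈ L :=
  sub_mem hx (sum_mem fun i _ => zsmul_mem (hL.eight_mem i) _)

theorem dot_even (hL : FourInv L) {a b : leechLattice} (ha : a ∈ L) (hb : b ∈ L) :
    dotInt (a : GolayPt → ℤ) b % 16 = 0 := by
  have h := hL.even _ (add_mem ha hb)
  rw [norm_sum] at h
  have := hL.even a ha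
  have := hL.even b hb
  omega

theorem all_even (hL : FourInv L) {w : leechLattice} (hw : w ∈ L) (i : GolayPt) : (w : GolayPt → ℤ) i % 2 = 0 := by
  have h := hL.dot_even hw hL.base
  have e : dotInt (w : GolayPt → ℤ) (eight none : leechLattice) = 8 * (w : GolayPt → ℤ) none := by
    simp [dotInt, eight_apply, mul_comm]
  rw [e] at h
  rw [parity w.2 i]
  omega

theorem half_code (hL : FourInv L) {w : leechLattice} (hw : w ∈ L) : halfWord w ∈ golayCode := by
  obtain ⟨-, ⟨v, hv, hs⟩, -⟩ := even_norm w.2 (y := fun i => (w : GolayPt → ℤ) i / 2)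
    (fun i => by have := hL.all_even hw i; omega)
  suffices e : halfWord w = v by rw [e]; exact hv
  funext i
  have hi : i ∈ support₂ v ↔ ((w : GolayPt → ℤ) i / 2) % 2 ≠ 0 := by rw [hs]; simp
  simp only [support₂, Finset.mem_filter, Finset.mem_univ, true_and] at hi
  have hh : halfWord w i ≠ 0 ↔ ((w : GolayPt → ℤ) i / 2) % 2 ≠ 0 := by
    simp only [halfWord, ne_eq, ZMod.intCast_zmod_eq_zero_iff_dvd]; omega
  have : ∀ a b : ZMod 2, (a ≠ 0 ↔ b ≠ 0) → a = b := by decide
  exact this _ _ (hh.trans hi.symm)

theorem half_add (hL : FourInv L) {a b : leechLattice} (ha : a ∈ L) (hb : b ∈ L) :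
    halfWord (a + b) = halfWord a + halfWord b := by
  funext i
  have := hL.all_even ha i
  have := hL.all_even hb i
  simp only [halfWord, AddSubgroup.coe_add, Pi.add_apply]
  rw [← Int.cast_add]
  congr 1
  omega

/-- Every class has a representative with all coordinates divisible by four. -/
theorem exists_four (hL : FourInv L) {w : leechLattice} (hw : w ∈ L) :
    ∃ w' : leechLattice, cls w' = cls w ∧ IsFour w' ∧ w' ∈ L := by
  let T : Submodule (ZMod 2) (GolayPt → ZMod 2) :=
    { carrier := {u | ∃ w ∈ L, halfWord w = u}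
      zero_mem' := ⟨0, zero_mem L, funext fun i => by simp [halfWord]⟩
      add_mem' := by
        rintro _ _ ⟨a, ha, rfl⟩ ⟨b, hb, rfl⟩
        exact ⟨a + b, add_mem ha hb, hL.half_add ha hb⟩
      smul_mem' := by
        rintro c _ ⟨a, ha, rfl⟩
        have : c = 0 ∨ c = 1 := by revert c; decide
        rcases this with rfl | rfl
        · exact ⟨0, zero_mem L, funext fun i => by simp [halfWord]⟩
        · exact ⟨a, ha, by simp⟩ }
  set T' := T ⊔ Submodule.span (ZMod 2) {fun _ : GolayPt => (1 : ZMod 2)} with hT'
  have hone : (fun _ : GolayPt => (1 : ZMod 2)) ∈ golayCode := Submodule.subset_span (Or.inr rfl)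
  rcases code_irreducible T' (Submodule.mem_sup_right (Submodule.subset_span rfl))
      (sup_le (by rintro _ ⟨a, ha, rfl⟩; exact hL.half_code ha) (Submodule.span_le.2 (by simpa using hone)))
      (by
        intro σ hσ u hu
        obtain ⟨t, ⟨a, ha, rfl⟩, o, ho, rfl⟩ := Submodule.mem_sup.1 hu
        obtain ⟨k, rfl⟩ := Submodule.mem_span_singleton.1 ho
        refine Submodule.mem_sup.2 ⟨_, ⟨_, hL.inv _ (perm_eight_cls σ hσ) a ha, rfl⟩, _, ho, ?_⟩
        funext i
        simp only [Pi.add_apply, halfWord, permElt_apply, Equiv.Perm.inv_def, Pi.smul_apply]) with h | h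
  · have hw' : halfWord w ∈ T' := Submodule.mem_sup_left ⟨w, hw, rfl⟩
    rw [h, Submodule.mem_span_singleton] at hw'
    obtain ⟨a, ha⟩ := hw'
    have hev := hL.all_even hw
    have hval : ∀ i, (((w : GolayPt → ℤ) i / 2 : ℤ) : ZMod 2) = a := fun i => by
      have := (congrFun ha i).symm
      simpa [halfWord] using this
    rcases (show ∀ k : ZMod 2, k = 0 ∨ k = 1 by decide) a with rfl | rfl
    · refine ⟨w, rfl, fun i => ?_, hw⟩
      have h2 := hval i
      rw [ZMod.intCast_zmod_eq_zero_iff_dvd] at h2
      have := hev i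
      omega
    · let u : leechLattice := ⟨uVec, mem_of_check check_uVec⟩
      have hc : cls (w + (u + u)) = cls w :=
        cls_eq_iff.2 ⟨uVec, mem_of_check check_uVec, by
          rw [AddSubgroup.coe_add, AddSubgroup.coe_add, two_nsmul]; abel⟩
      refine ⟨w + (u + u), hc, fun i => ?_, hL.congr hc.symm hw⟩
      have h2 : (((w : GolayPt → ℤ) i / 2 : ℤ) : ZMod 2) = ((1 : ℤ) : ZMod 2) := by simpa using hval i
      rw [ZMod.intCast_eq_intCast_iff'] at h2
      have := hev i
      have := uVec_odd i
      show ((w : GolayPt → ℤ) i + (uVec i + uVec i)) % 4 = 0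
      omega
  · exfalso
    obtain ⟨c1, c2, c3⟩ := triple_code
    have key : ∀ n, inCode n = true → ∃ (a : leechLattice) (k : ZMod 2), a ∈ L ∧
        ∀ i, halfWord a i = toWord n i + k := by
      intro n hn
      have : toWord n ∈ T' := h ▸ toWord_mem_golayCode hn
      obtain ⟨t, ⟨a, ha, rfl⟩, o, ho, e⟩ := Submodule.mem_sup.1 this
      obtain ⟨k, rfl⟩ := Submodule.mem_span_singleton.1 ho
      refine ⟨a, k, ha, fun i => ?_⟩
      have := congrFun e i
      simp only [Pi.add_apply, Pi.smul_apply, smul_eq_mul, mul_one] at this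
      rw [← this, add_assoc, CharTwo.add_self_eq_zero, add_zero]
    obtain ⟨a, ka, ha, hha⟩ := key _ c1
    obtain ⟨b, kb, hb, hhb⟩ := key _ c2
    have hcc : toSet 18147 ∈ CC := toSet_mem_CC c3
    have hd := hL.dot_even (sub_mem (hL.inv _ (flip_eight_cls _ hcc) a ha) ha) hb
    have e : dotInt ((flipElt (toSet 18147) hcc • a - a : leechLattice) : GolayPt → ℤ) b =
        -8 * ∑ i ∈ toSet 18147, ((a : GolayPt → ℤ) i / 2) * ((b : GolayPt → ℤ) i / 2) := by
      unfold dotInt
      rw [Finset.mul_sum, ← Finset.sum_subset (Finset.subset_univ (toSet 18147))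
        (fun i _ hi => by simp [flipElt_apply, hi])]
      refine Finset.sum_congr rfl fun i hi => ?_
      obtain ⟨x, hx⟩ : ∃ x, (a : GolayPt → ℤ) i = 2 * x :=
        ⟨(a : GolayPt → ℤ) i / 2, by have := hL.all_even ha i; omega⟩
      obtain ⟨y, hy⟩ : ∃ y, (b : GolayPt → ℤ) i = 2 * y :=
        ⟨(b : GolayPt → ℤ) i / 2, by have := hL.all_even hb i; omega⟩
      simp only [AddSubgroup.coe_sub, Pi.sub_apply, flipElt_apply, hi, if_true, hx, hy,
        Int.mul_ediv_cancel_left _ (two_ne_zero : (2 : ℤ) ≠ 0)]
      ring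
    have h1 : ((∑ i ∈ toSet 18147, ((a : GolayPt → ℤ) i / 2) * ((b : GolayPt → ℤ) i / 2) : ℤ) : ZMod 2) = 1 := by
      rw [Int.cast_sum, ← triple_odd ka kb]
      refine Finset.sum_congr rfl fun i _ => ?_
      rw [Int.cast_mul]
      exact congrArg₂ (· * ·) (hha i) (hhb i)
    have h0 : ((∑ i ∈ toSet 18147, ((a : GolayPt → ℤ) i / 2) * ((b : GolayPt → ℤ) i / 2) : ℤ) : ZMod 2) = 0 := by
      rw [ZMod.intCast_zmod_eq_zero_iff_dvd]
      omega
    rw [h0] at h1
    exact zero_ne_one h1

/-- Either only the cross class, or every frame class. -/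
theorem cases (hL : FourInv L) :
    (∀ w ∈ L, cls w = cls 0 ∨ cls w = cls (eight none)) ∨ ∀ x : leechLattice, IsFour x → x ∈ L := by
  by_cases hpair : ∃ a b : GolayPt, a ≠ b ∧ plusVec a b ∈ L
  · right
    obtain ⟨a, b, hab, habL⟩ := hpair
    have hall : ∀ p : GolayPt, plusVec pt0 p ∈ L := by
      intro p
      by_cases hp : p = pt0
      · subst hp
        exact hL.congr (by rw [show plusVec pt0 pt0 = eight pt0 from Subtype.ext (funext fun i => by
          simp only [plusVec, eight_apply]; split <;> norm_num)]) (hL.eight_mem _)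
      obtain ⟨σ, hσ, -, hs⟩ := exists_perm_sets ∅ {a, b} {pt0, p} (by simp) (by simp)
        (by rw [Finset.card_pair hab, Finset.card_pair (Ne.symm hp)]) (by simp [Finset.card_pair hab])
      have h := hL.inv _ (perm_eight_cls σ hσ) _ habL
      convert h using 1
      refine Subtype.ext (funext fun i => ?_)
      rw [permElt_apply]
      have hmem : i ∈ ({pt0, p} : Finset GolayPt) ↔ σ⁻¹ i ∈ ({a, b} : Finset GolayPt) := by
        rw [← hs, ← Finset.inv_smul_mem_iff]; rfl
      rw [plus_apply (Ne.symm hp), plus_apply hab]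
      simp only [hmem]
    intro x hx
    rw [four_decomp hx]
    exact add_mem (sum_mem fun p _ => zsmul_mem (hall p) _) (zsmul_mem (hL.eight_mem _) _)
  left
  intro w hw
  obtain ⟨x, hxc, hx, hxL⟩ := hL.exists_four hw
  rw [← hxc]
  obtain ⟨y, hyc, hy⟩ := norm_cases' x
  have hyL := hL.congr hyc hxL
  rw [hyc]
  by_cases hy0 : (y : GolayPt → ℤ) = 0
  · exact Or.inl (congrArg cls (Subtype.ext hy0 : y = 0))
  have hev := hL.even y hyL
  have hye : ∀ i, (y : GolayPt → ℤ) i % 2 = 0 := hL.all_even hyL
  have hy2 : sqNorm (y : GolayPt → ℤ) = 32 ∨ sqNorm (y : GolayPt → ℤ) = 64 := by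
    rcases hy.resolve_left hy0 with h | h | h <;> omega
  rcases hy2 with hy | hy
  all_goals
    -- all coordinates are divisible by four
    obtain ⟨z, hz, e⟩ := cls_eq_iff.1 hyc
    have hy4 : IsFour y := by
      have hpz := parity (⟨z, hz⟩ : leechLattice).2
      by_cases hzn : z none % 2 = 0
      · intro i
        have := congrFun e i
        simp only [Pi.sub_apply, Pi.smul_apply, nsmul_eq_mul, Nat.cast_ofNat] at this
        have := hx i
        have h1 : z i % 2 = z none % 2 := hpz i
        omega
      · exfalso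
        have hge : ∀ i, 4 ≤ (y : GolayPt → ℤ) i ^ 2 := by
          intro i
          have := congrFun e i
          simp only [Pi.sub_apply, Pi.smul_apply, nsmul_eq_mul, Nat.cast_ofNat] at this
          have := hx i
          have h1 : z i % 2 = z none % 2 := hpz i
          rcases (show (y : GolayPt → ℤ) i ≤ -2 ∨ 2 ≤ (y : GolayPt → ℤ) i by omega) with h | h <;> nlinarith
        have : ∑ _i : GolayPt, (4 : ℤ) ≤ sqNorm (y : GolayPt → ℤ) := Finset.sum_le_sum fun i _ => hge i
        rw [Finset.sum_const, Finset.card_univ, card_golayPt] at this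
        norm_num at this
        omega
    set A := Finset.univ.filter fun i => (y : GolayPt → ℤ) i % 8 = 4 with hA
    obtain ⟨k, hk⟩ : ∃ k : GolayPt → ℤ, ∀ i, (y : GolayPt → ℤ) i = 4 * k i :=
      ⟨fun i => (y : GolayPt → ℤ) i / 4, fun i => by have := hy4 i; show _ = 4 * (_ / 4); omega⟩
    have hAk : ∀ i, i ∈ A ↔ k i % 2 ≠ 0 := fun i => by
      simp only [hA, Finset.mem_filter, Finset.mem_univ, true_and, hk i]; omega
    have hn : sqNorm (y : GolayPt → ℤ) = 16 * ∑ i, k i ^ 2 := by
      unfold sqNorm; rw [Finset.mul_sum]; exact Finset.sum_congr rfl fun i _ => by rw [hk]; ring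
    choose q hq using fun i => sq_mod_four (k i)
    have hcard : ∑ i, k i ^ 2 = (A.card : ℤ) + 4 * ∑ i, q i := by
      rw [Finset.sum_congr rfl (fun i _ => hq i), Finset.sum_add_distrib, ← Finset.mul_sum,
        show A = Finset.univ.filter fun i => ¬ k i % 2 = 0 from Finset.ext fun i => by simp [hAk]]
      congr 1
      rw [Finset.natCast_card_filter]
      exact Finset.sum_congr rfl fun i _ => by split <;> simp_all
    have hAle : (A.card : ℤ) ≤ ∑ i, k i ^ 2 := by
      rw [show A = Finset.univ.filter fun i => ¬ k i % 2 = 0 from Finset.ext fun i => by simp [hAk],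
        Finset.natCast_card_filter]
      refine Finset.sum_le_sum fun i _ => ?_
      split
      · have : k i ≠ 0 := fun h => by simp [h] at *
        rcases lt_or_gt_of_ne this with h | h <;> nlinarith
      · positivity
    rw [hy] at hn
    have hpv : ∀ a b, A = {a, b} → a ≠ b → False := by
      intro a b hab hne
      refine hpair ⟨a, b, hne, ?_⟩
      convert hL.red_mem hyL using 1
      refine Subtype.ext (funext fun i => ?_)
      rw [redEight_apply]
      rw [plus_apply hne, ← hab]
      have := hy4 i
      simp only [hA, Finset.mem_filter, Finset.mem_univ, true_and]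
      split <;> omega
  · exfalso
    obtain ⟨a, b, hne, hab⟩ := Finset.card_eq_two.1 (by omega : A.card = 2)
    exact hpv a b hab hne
  · rcases (show A.card = 0 ∨ A.card = 4 by omega) with hc | hc
    · right
      have hred : redEight y = 0 := Subtype.ext (funext fun i => by
        rw [redEight_apply, AddSubgroup.coe_zero, Pi.zero_apply]
        have hi : i ∉ A := by rw [Finset.card_eq_zero.1 hc]; simp
        simp only [hA, Finset.mem_filter, Finset.mem_univ, true_and] at hi
        have := hy4 i
        omega)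
      have hsum : ∀ s : Finset GolayPt,
          cls (∑ i ∈ s, ((y : GolayPt → ℤ) i / 8) • eight i) = cls 0 ∨
            cls (∑ i ∈ s, ((y : GolayPt → ℤ) i / 8) • eight i) = cls (eight none) := by
        intro s
        classical
        have h2 : cls (eight none + eight none) = cls 0 := cls_eq_iff.2 ⟨_, (eight none).2, by
          rw [AddSubgroup.coe_add, AddSubgroup.coe_zero, sub_zero, two_nsmul]⟩
        have hm : ∀ n : ℤ, cls (n • eight none) = cls 0 ∨ cls (n • eight none) = cls (eight none) := by
          intro n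
          rcases Int.even_or_odd' n with ⟨m, rfl | rfl⟩
          · refine Or.inl (cls_eq_iff.2 ⟨_, (m • eight none).2, ?_⟩)
            rw [AddSubgroup.coe_zero, sub_zero, AddSubgroup.coe_zsmul, AddSubgroup.coe_zsmul, mul_comm, mul_zsmul,
              two_zsmul, two_nsmul, ← zsmul_add]
          · refine Or.inr (cls_eq_iff.2 ⟨_, (m • eight none).2, ?_⟩)
            rw [AddSubgroup.coe_zsmul, AddSubgroup.coe_zsmul, add_zsmul, one_zsmul, add_sub_cancel_right, mul_comm,
              mul_zsmul, two_zsmul, two_nsmul, ← zsmul_add]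
        have e : cls (∑ i ∈ s, ((y : GolayPt → ℤ) i / 8) • eight i) =
            cls ((∑ i ∈ s, (y : GolayPt → ℤ) i / 8) • eight none) := by
          simp only [cls, QuotientAddGroup.mk_sum, QuotientAddGroup.mk_zsmul, Finset.sum_smul]
          exact Finset.sum_congr rfl fun i _ => congrArg _ (eight_cls i).1
        rw [e]; exact hm _
      rcases hsum Finset.univ with h | h
      · exfalso
        have : cls y = cls 0 := by
          rw [sub_eq_zero.1 hred, h]
        exact cls_ne_zero64 hy this
      · rw [sub_eq_zero.1 hred, h]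
    · exfalso
      obtain ⟨a, ha⟩ := Finset.card_pos.1 (by omega : 0 < A.card)
      obtain ⟨b, hb⟩ : ∃ b, b ∉ A := by
        by_contra h; push Not at h
        rw [Finset.eq_univ_iff_forall.2 h, Finset.card_univ, card_golayPt] at hc; omega
      obtain ⟨σ, hσ, -, hs⟩ := exists_perm_sets ∅ A (insert b (A.erase a)) (by simp) (by simp)
        (by rw [Finset.card_insert_of_notMem (fun h => hb (Finset.mem_of_mem_erase h)), Finset.card_erase_of_mem ha]
            omega)
        (by simp [hc])
      have hy' := hL.inv _ (perm_eight_cls σ hσ) _ hyL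
      refine hpair ⟨a, b, fun h => hb (h ▸ ha), ?_⟩
      convert hL.red_mem (add_mem hyL hy') using 1
      refine Subtype.ext (funext fun i => ?_)
      rw [redEight_apply, AddSubgroup.coe_add, Pi.add_apply, permElt_apply]
      have h1 : σ⁻¹ i ∈ A ↔ i = b ∨ (i ≠ a ∧ i ∈ A) := by
        have : i ∈ σ • A ↔ σ⁻¹ i ∈ A := by rw [← Finset.inv_smul_mem_iff]; rfl
        rw [← this, hs, Finset.mem_insert, Finset.mem_erase]
      simp only [hA, Finset.mem_filter, Finset.mem_univ, true_and] at h1 ha hb
      have := hy4 i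
      have := hy4 (σ⁻¹ i)
      simp only [plusVec, Equiv.Perm.inv_def] at *
      by_cases h2 : i = a <;> by_cases h3 : i = b
      · subst h2; subst h3; exact absurd ha hb
      · subst h2; simp [h3] at h1 ⊢; omega
      · subst h3; simp [h2] at h1 ⊢; omega
      · simp [h2, h3] at h1 ⊢; omega

end FourInv

/-- The mask expressing a frame pair in the standard generators. -/
def frameMask (p : GolayPt) : ℕ :=
  if idx p = 0 then 2048 else if idx p < 12 then 2 ^ (idx p - 1)
  else [2639, 1183, 2929, 1763, 3977, 3420, 2294, 493, 986, 1972, 3367, 3642].getD (idx p - 12) 0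

/-- The combination of frame generators selected by a mask. -/
def frameComb (n : ℕ) (i : GolayPt) : ℤ :=
  ∑ k : Fin 12, if n.testBit k then (frameGen k : GolayPt → ℤ) i else 0

theorem frame_cert : ∀ p : GolayPt,
    (∀ i, ((plusVec pt0 p : GolayPt → ℤ) i - frameComb (frameMask p) i) % 2 = 0) ∧
      CheckVec (fun i => ((plusVec pt0 p : GolayPt → ℤ) i - frameComb (frameMask p) i) / 2) := by
  decide +kernel

/-- The classes of combinations of frame generators. -/
noncomputable def frameHom : (Fin 12 → ZMod 2) →+ leechLattice ⧸ twice where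
  toFun b := cls (∑ i, (b i).val • frameGen i)
  map_zero' := by simp [cls]
  map_add' a b := by
    simp only [cls, QuotientAddGroup.mk_sum, QuotientAddGroup.mk_nsmul, ← Finset.sum_add_distrib]
    refine Finset.sum_congr rfl fun i _ => ?_
    have h2 : 2 • (QuotientAddGroup.mk (frameGen i) : leechLattice ⧸ twice) = 0 := by
      rw [← QuotientAddGroup.mk_nsmul, QuotientAddGroup.eq_zero_iff]
      exact mem_twice.2 ⟨_, (frameGen i).2, AddSubgroup.coe_nsmul _ _ _⟩
    have hdec : ∀ x y : ZMod 2, x.val + y.val = (x + y).val + 2 * (x.val * y.val) := by decide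
    rw [Pi.add_apply, ← add_nsmul, hdec, add_nsmul, mul_comm 2, mul_nsmul', h2, nsmul_zero, add_zero]

theorem frame_class {x : leechLattice} (hx : IsFour x) : cls x ∈ frameHom.range := by
  have hp : ∀ p, cls (plusVec pt0 p) ∈ frameHom.range := by
    intro p
    obtain ⟨hev, hchk⟩ := frame_cert p
    refine ⟨fun k => if (frameMask p).testBit k then 1 else 0, ?_⟩
    refine (cls_eq_iff.2 ⟨-(fun i => ((plusVec pt0 p : GolayPt → ℤ) i - frameComb (frameMask p) i) / 2),
      neg_mem (mem_of_check hchk), funext fun i => ?_⟩)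
    have := hev i
    simp only [Pi.sub_apply, Pi.smul_apply, Pi.neg_apply, nsmul_eq_mul, Nat.cast_ofNat,
      AddSubgroup.val_finsetSum, Finset.sum_apply, AddSubgroup.coe_nsmul, Pi.mul_apply, Pi.natCast_apply]
    have e : ∑ k : Fin 12, ((if (frameMask p).testBit k then (1 : ZMod 2) else 0).val : ℤ) *
        (frameGen k : GolayPt → ℤ) i = frameComb (frameMask p) i :=
      Finset.sum_congr rfl fun k _ => by split <;> simp [ZMod.val_one]
    rw [e]
    omega
  rw [four_decomp hx, show eight pt0 = plusVec pt0 pt0 from Subtype.ext (funext fun i => by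
    simp only [plusVec, eight_apply]; split <;> norm_num)]
  simp only [cls, QuotientAddGroup.mk_add, QuotientAddGroup.mk_sum, QuotientAddGroup.mk_zsmul]
  exact add_mem (sum_mem fun p _ => zsmul_mem (hp p) _) (zsmul_mem (hp _) _)

theorem frameHom_injective : Function.Injective frameHom := by
  rw [injective_iff_map_eq_zero]
  intro b hb
  obtain ⟨u, hu, e⟩ := mem_twice.1 ((QuotientAddGroup.eq_zero_iff _).1 hb)
  exact indep (u := ⟨u, hu⟩) (Subtype.ext (by rw [AddSubgroup.coe_add, ← two_nsmul]; exact e))

set_option maxRecDepth 100000 in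
theorem trivial_word_check : ∀ n ∈ spanL codeGens,
    (∀ o ∈ octBasis, n &&& o = 0 ∨ n &&& o = o) → n = 0 ∨ n = 16777215 := by decide +kernel

theorem two_vec_data : ∀ o ∈ octBasis, sqNorm (twoVec o) = 32 ∧ pop o = 8 := by decide +kernel

/-- Fixing every frame class up to the cross class makes the permutation trivial. -/
theorem perm_trivial_of_frame {σ : M24} {c : CC}
    (h : ∀ a b : GolayPt, a ≠ b → cls (monoElt (σ, c) • plusVec a b) = cls (plusVec a b) ∨
      cls (monoElt (σ, c) • plusVec a b) = cls (plusVec a b + eight none)) :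
    ∀ a, (σ : Equiv.Perm GolayPt) a = a := by
  have happ : ∀ (v : leechLattice) i, ((monoElt (σ, c) • v : leechLattice) : GolayPt → ℤ) i =
      if i ∈ (c : Finset GolayPt) then -(v : GolayPt → ℤ) ((σ : Equiv.Perm GolayPt).symm i)
      else (v : GolayPt → ℤ) ((σ : Equiv.Perm GolayPt).symm i) := by
    intro v i
    rw [monoElt_apply]
    simp only [signedPerm]
  intro a
  have hab : ∀ b, b ≠ a → (σ : Equiv.Perm GolayPt) a = a ∨ (σ : Equiv.Perm GolayPt) a = b := by
    intro b hb
    have hy := plusVec_norm a b hb.symm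
    have hgy : sqNorm ((monoElt (σ, c) • plusVec a b : leechLattice) : GolayPt → ℤ) = 32 := by rw [co0_norm, hy]
    have hev : ∀ i, (plusVec a b : GolayPt → ℤ) i % 2 = 0 := fun i => by
      simp only [plusVec]; split <;> split <;> norm_num
    have key : ∀ w : leechLattice, (∀ i, i ≠ a → i ≠ b → (w : GolayPt → ℤ) i = 0) →
        (monoElt (σ, c) • plusVec a b = w ∨ monoElt (σ, c) • plusVec a b = -w) →
        (σ : Equiv.Perm GolayPt) a = a ∨ (σ : Equiv.Perm GolayPt) a = b := by
      intro w hw hgw
      by_contra hc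
      push Not at hc
      have h1 := happ (plusVec a b) ((σ : Equiv.Perm GolayPt) a)
      have h2 := hw _ hc.1 hc.2
      rcases hgw with e | e <;> rw [e] at h1 <;>
        simp only [AddSubgroup.coe_neg, Pi.neg_apply, h2, plusVec, Equiv.symm_apply_apply, if_true,
          if_neg hb.symm, neg_zero, add_zero] at h1 <;> split at h1 <;> omega
    rcases h a b hb.symm with e | e
    · exact key _ (fun i h1 h2 => by simp [plusVec, h1, h2]) (min_cls_eq hgy hy e)
    · have e' : cls (plusVec a b + eight none) = cls (minusVec a b) := by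
        rw [cls_add rfl (eight_cls b).2.symm,
          show plusVec a b + -eight b = minusVec a b from Subtype.ext (funext fun i => by
            simp only [plusVec, minusVec, AddSubgroup.coe_add, AddSubgroup.coe_neg, Pi.add_apply, Pi.neg_apply,
              eight_apply]
            split <;> split <;> norm_num)]
      exact key _ (fun i h1 h2 => by simp [minusVec, h1, h2])
        (min_cls_eq hgy (minusVec_norm a b hb.symm) (e.trans e'))
  obtain ⟨b, hb⟩ := exists_ne a
  obtain ⟨b', hb', hbb⟩ : ∃ b', b' ≠ a ∧ b' ≠ b := by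
    obtain ⟨r, hr⟩ := Finset.exists_mem_notMem_of_card_lt_card
      (s := ({a, b} : Finset GolayPt)) (t := Finset.univ)
      (lt_of_le_of_lt Finset.card_le_two (by rw [Finset.card_univ, card_golayPt]; omega))
    exact ⟨r, fun e => hr.2 (by simp [e]), fun e => hr.2 (by simp [e])⟩
  rcases hab b hb with e | e
  · exact e
  rcases hab b' hb' with e' | e'
  · exact e'
  · exact absurd (e'.symm.trans e) hbb

/-- Trivial action on the classes orthogonal to the cross forces a scalar. -/
theorem trivial_of_cross {g : Co0} (hg : cls (g • eight none) = cls (eight none))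
    (h : ∀ y : leechLattice, sqNorm (y : GolayPt → ℤ) = 32 → (∀ i, (y : GolayPt → ℤ) i % 2 = 0) →
      cls (g • y) = cls y ∨ cls (g • y) = cls (y + eight none)) : g ∈ Subgroup.center Co0 := by
  obtain ⟨⟨σ, c⟩, rfl⟩ := cross_stab hg
  have happ : ∀ (v : leechLattice) i, ((monoElt (σ, c) • v : leechLattice) : GolayPt → ℤ) i =
      if i ∈ (c : Finset GolayPt) then -(v : GolayPt → ℤ) ((σ : Equiv.Perm GolayPt).symm i)
      else (v : GolayPt → ℤ) ((σ : Equiv.Perm GolayPt).symm i) := by
    intro v i
    rw [monoElt_apply]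
    simp only [signedPerm]
  have hσ : ∀ a, (σ : Equiv.Perm GolayPt) a = a :=
    perm_trivial_of_frame fun a b hab => h _ (plusVec_norm a b hab) fun i => by
      simp only [plusVec]; split <;> split <;> norm_num
  have hsymm : ∀ i, (σ : Equiv.Perm GolayPt).symm i = i := fun i => by
    rw [Equiv.symm_apply_eq]; exact (hσ i).symm
  have hoct : ∀ o ∈ octBasis, (∀ i ∈ toSet o, i ∈ (c : Finset GolayPt)) ∨ (∀ i ∈ toSet o, i ∉ (c : Finset GolayPt)) := by
    intro o ho
    obtain ⟨hn, hp⟩ := two_vec_data o ho
    let y : leechLattice := ⟨twoVec o, mem_of_check (check_twoVec o ho)⟩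
    have hgy : sqNorm ((monoElt (σ, c) • y : leechLattice) : GolayPt → ℤ) = 32 := by rw [co0_norm]; exact hn
    rcases h y hn (fun i => by show twoVec o i % 2 = 0; simp only [twoVec]; split <;> norm_num) with e | e
    · have hval : ∀ i ∈ toSet o, (y : GolayPt → ℤ) i = 2 := fun i hi => by show twoVec o i = 2; simp [twoVec, hi]
      rcases min_cls_eq hgy hn e with e' | e'
      · refine Or.inr fun i hi hic => ?_
        have := happ y i
        rw [e', hsymm, if_pos hic, hval i hi] at this
        omega
      · refine Or.inl fun i hi => ?_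
        by_contra hic
        have := happ y i
        rw [e', hsymm, if_neg hic, AddSubgroup.coe_neg, Pi.neg_apply, hval i hi] at this
        omega
    · exfalso
      obtain ⟨a, ha⟩ := Finset.card_pos.1 (by rw [card_toSet, hp]; norm_num : 0 < (toSet o).card)
      have h64 : sqNorm ((y + -eight a : leechLattice) : GolayPt → ℤ) = 64 := by
        rw [norm_sum, AddSubgroup.coe_neg, neg_norm, eight_norm, dotInt_comm', dotInt_neg_left,
          show dotInt ((eight a : leechLattice) : GolayPt → ℤ) y = 8 * twoVec o a by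
            simp [dotInt, eight_apply]; rfl]
        show sqNorm (twoVec o) + _ + _ = _
        rw [hn]
        simp [twoVec, ha]
      obtain ⟨z, hz, e'⟩ := cls_eq_iff.1 (e.trans (cls_add rfl (eight_cls a).2.symm))
      rcases congr_cases (monoElt (σ, c) • y).2 (fun e2 => by
          have := congrArg sqNorm e2; rw [hgy, h64] at this; omega) (by omega) (by omega) ⟨z, hz, e'⟩ with q | q
      · have := congrArg sqNorm q; rw [hgy, neg_norm, h64] at this; omega
      · omega
  have hcw := (mem_supports_iff _).1 c.2
  rcases trivial_word_check (setNat (c : Finset GolayPt)) ((inCode_iff _).1 hcw) (fun o ho => by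
    rcases hoct o ho with hh | hh
    · right
      refine Nat.eq_of_testBit_eq fun i => ?_
      rw [Nat.testBit_and]
      by_cases hb : o.testBit i = true
      · have hi : i < 24 := by
          by_contra hge
          have : o < 2 ^ 24 := (oct_basis_check o ho).2.2
          exact absurd hb (by rw [Nat.testBit_lt_two_pow (lt_of_lt_of_le this (Nat.pow_le_pow_right (by norm_num) (not_lt.1 hge)))]; simp)
        have := hh (pt i) (mem_toSet.2 (by rw [idx_pt hi]; exact hb))
        rw [testBit_setNat _ hi]
        simp [this, hb]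
      · simp [Bool.eq_false_iff.2 hb]
    · left
      refine Nat.eq_of_testBit_eq fun i => ?_
      rw [Nat.testBit_and, Nat.zero_testBit]
      by_cases hb : o.testBit i = true
      · have hi : i < 24 := by
          by_contra hge
          have : o < 2 ^ 24 := (oct_basis_check o ho).2.2
          exact absurd hb (by rw [Nat.testBit_lt_two_pow (lt_of_lt_of_le this (Nat.pow_le_pow_right (by norm_num) (not_lt.1 hge)))]; simp)
        have := hh (pt i) (mem_toSet.2 (by rw [idx_pt hi]; exact hb))
        rw [testBit_setNat _ hi]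
        simp [this]
      · simp [Bool.eq_false_iff.2 hb]) with hc0 | hc1
  · have hcE : (c : Finset GolayPt) = ∅ := by
      rw [← toSet_setNat (c : Finset GolayPt), hc0]; ext i; simp [mem_toSet]
    have : monoElt (σ, c) = 1 := co0_ext fun v => funext fun i => by
      rw [happ, hcE, one_smul]; simp [hsymm]
    rw [this]; exact one_mem _
  · have hcU : (c : Finset GolayPt) = Finset.univ := by
      rw [← toSet_setNat (c : Finset GolayPt), hc1]
      exact Finset.eq_univ_of_card _ (by rw [card_toSet, card_golayPt]; decide)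
    have : monoElt (σ, c) = negElt := co0_ext fun v => funext fun i => by
      rw [happ, hcU, negElt_apply]; simp [hsymm]
    rw [this]
    exact Subgroup.mem_center_iff.2 fun k => (negElt_central k).symm

end Cfsg.Lib.Leech
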