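import Mathlib
import Cfsg.Prelude.Def_Sporadic_a
import Cfsg.Prelude.Def_SporadicCombinatorics
import Cfsg.Agent.Lib.Leech.Sums

/-!
The order of the automorphism group and its action on the lattice modulo twice itself.
-/

set_option autoImplicit false
set_option linter.unusedSimpArgs false

namespace Cfsg.Lib.Leech

open Cfsg Cfsg.Lib.Golay
open scoped Pointwise

theorem cls_smul (g : Co0) {v w : leechLattice} (h : cls v = cls w) : cls (g • v) = cls (g • w) := by
  obtain ⟨z, hz, e⟩ := cls_eq_iff.1 h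
  refine cls_eq_iff.2 ⟨_, (g • (⟨z, hz⟩ : leechLattice)).2, ?_⟩
  have e' : v - w = (⟨z, hz⟩ : leechLattice) + ⟨z, hz⟩ := Subtype.ext (by
    rw [AddSubgroup.coe_sub, AddSubgroup.coe_add, e, two_nsmul])
  rw [← AddSubgroup.coe_sub, ← co0_sub, e', co0_add, AddSubgroup.coe_add, two_nsmul]

/-- The cross of a vector as a set of lattice vectors. -/
def crossSet (x : leechLattice) : Set leechLattice :=
  {y | sqNorm (y : GolayPt → ℤ) = 64 ∧ cls y = cls x}

theorem smul_crossSet (g : Co0) (x : leechLattice) : g • crossSet x = crossSet (g • x) := by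
  ext y
  rw [Set.mem_smul_set_iff_inv_smul_mem]
  simp only [crossSet, Set.mem_ofPred_eq, co0_norm]
  refine and_congr_right fun _ => ⟨fun h => ?_, fun h => ?_⟩
  · simpa using cls_smul g h
  · simpa using cls_smul g⁻¹ h

theorem eight_cls (i : GolayPt) : cls (eight i) = cls (eight none) ∧ cls (-eight i) = cls (eight none) := by
  constructor
  · refine cls_eq_iff.2 ⟨_, (minusVec i none).2, funext fun k => ?_⟩
    simp only [AddSubgroup.coe_sub, Pi.sub_apply, Pi.smul_apply, nsmul_eq_mul, eight_apply, minusVec,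
      Nat.cast_ofNat, Pi.mul_apply, Pi.natCast_apply]
    split <;> split <;> norm_num
  · refine cls_eq_iff.2 ⟨-(plusVec i none : GolayPt → ℤ), neg_mem (plusVec i none).2, funext fun k => ?_⟩
    simp only [AddSubgroup.coe_sub, AddSubgroup.coe_neg, Pi.sub_apply, Pi.neg_apply, Pi.smul_apply,
      nsmul_eq_mul, eight_apply, plusVec, Nat.cast_ofNat, Pi.mul_apply, Pi.natCast_apply]
    split <;> split <;> norm_num

/-- The standard cross consists of the `± eight i`. -/
theorem mem_stdCross_iff (v : leechLattice) :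
    (v : GolayPt → ℤ) ∈ stdCross ↔ ∃ i, v = eight i ∨ v = -eight i := by
  constructor
  · rintro ⟨i, s, hs, e⟩
    refine ⟨i, ?_⟩
    rcases hs with rfl | rfl
    · exact Or.inl (Subtype.ext e)
    · exact Or.inr (Subtype.ext (by rw [e, AddSubgroup.coe_neg]; simp [eight, ← Pi.single_neg]))
  · rintro ⟨i, rfl | rfl⟩
    · exact ⟨i, 8, Or.inl rfl, rfl⟩
    · exact ⟨i, -8, Or.inr rfl, by rw [AddSubgroup.coe_neg]; simp [eight, ← Pi.single_neg]⟩

theorem crossSet_finite (x : leechLattice) : (crossSet x).Finite :=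
  ((shell 64 le_rfl).finite_toSet).subset fun y hy => by
    rw [Finset.mem_coe, mem_shell, hy.1]; rfl

theorem crossSet_eight : crossSet (eight none) = {v : leechLattice | (v : GolayPt → ℤ) ∈ stdCross} := by
  classical
  symm
  have hsub : {v : leechLattice | (v : GolayPt → ℤ) ∈ stdCross} ⊆ crossSet (eight none) := by
    intro v hv
    obtain ⟨i, rfl | rfl⟩ := (mem_stdCross_iff v).1 hv
    · exact ⟨eight_norm i, (eight_cls i).1⟩
    · exact ⟨by rw [AddSubgroup.coe_neg, neg_norm, eight_norm], (eight_cls i).2⟩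
  refine Set.eq_of_subset_of_ncard_le hsub ?_ (crossSet_finite _)
  have h1 : (crossSet (eight none)).ncard = 48 := by
    rw [← class_data.2 (eight none) (eight_norm none), ← fiber_eq_cross (eight none) (eight_norm none),
      ← Set.ncard_coe_finset]
    congr 1
    ext y
    simp only [crossSet, Finset.coe_filter, Set.mem_ofPred_eq, mem_shell, Nat.cast_ofNat]
  rw [h1]
  have h2 : {v : leechLattice | (v : GolayPt → ℤ) ∈ stdCross} =
      Set.range (fun q : GolayPt × Bool => if q.2 then eight q.1 else -eight q.1) := by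
    ext v
    rw [Set.mem_ofPred_eq, mem_stdCross_iff, Set.mem_range]
    exact ⟨fun ⟨i, h⟩ => h.elim (fun e => ⟨(i, true), e.symm⟩) (fun e => ⟨(i, false), e.symm⟩),
      fun ⟨⟨i, b⟩, e⟩ => ⟨i, by cases b <;> simp at e <;> simp [← e]⟩⟩
  rw [h2, Set.ncard_range_of_injective, Nat.card_prod, Nat.card_eq_fintype_card, card_golayPt]
  · simp
  · rintro ⟨i, b⟩ ⟨j, c⟩ e
    have h := congrFun (congrArg Subtype.val e) i
    cases b <;> cases c <;> simp [eight_apply] at h <;> by_cases hij : i = j <;> simp_all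

theorem stab_crossSet : (MulAction.stabilizer Co0 (crossSet (eight none)) : Set Co0) =
    {g | ∀ v : leechLattice, (v : GolayPt → ℤ) ∈ stdCross → ((g • v : leechLattice) : GolayPt → ℤ) ∈ stdCross} := by
  ext g
  rw [SetLike.mem_coe, MulAction.mem_stabilizer_set' (crossSet_finite _), crossSet_eight]
  rfl

theorem ncard_crosses : (MulAction.orbit Co0 (crossSet (eight none))).ncard = 8292375 := by
  classical
  have horb : MulAction.orbit Co0 (crossSet (eight none)) = ↑((shell 64 le_rfl).image crossSet) := by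
    ext S
    simp only [MulAction.mem_orbit_iff, Finset.coe_image, Set.mem_image, Finset.mem_coe, mem_shell, Nat.cast_ofNat]
    constructor
    · rintro ⟨g, rfl⟩
      exact ⟨g • eight none, by rw [co0_norm, eight_norm], (smul_crossSet _ _).symm⟩
    · rintro ⟨x, hx, rfl⟩
      obtain ⟨g, hg⟩ := trans_cross (eight_norm none) hx
      exact ⟨g, by rw [smul_crossSet, hg]⟩
  rw [horb, Set.ncard_coe_finset]
  set s4 := shell 64 le_rfl with hs4
  have hfib : ∀ q ∈ s4.image crossSet, (s4.filter fun v => crossSet v = q).card = 48 := by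
    intro q hq
    obtain ⟨a, ha, rfl⟩ := Finset.mem_image.1 hq
    have ha' : sqNorm (a : GolayPt → ℤ) = 64 := mem_shell.1 ha
    rw [← class_data.2 a ha', ← fiber_eq_cross a ha']
    refine congrArg Finset.card (Finset.filter_congr fun v hv => ⟨fun e => ?_, fun e => ?_⟩)
    · have hv' : v ∈ crossSet v := ⟨mem_shell.1 hv, rfl⟩
      rw [e] at hv'
      exact hv'.2
    · ext y; simp only [crossSet, Set.mem_ofPred_eq, e]
  have hsum := Finset.card_eq_sum_card_image crossSet s4
  rw [Finset.sum_congr rfl hfib, Finset.sum_const, smul_eq_mul] at hsum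
  have hc : {x : GolayPt → ℤ | x ∈ leechLattice ∧ sqNorm x = ((64 : ℕ) : ℤ)}.ncard = 398034000 := by
    exact_mod_cast ncard64
  have hc' : s4.card = 398034000 := by rw [hs4, card_shell]; exact hc
  rw [hc'] at hsum
  omega

theorem card_Co0 : Nat.card Co0 = 8315553613086720000 := by
  rw [← Subgroup.card_mul_index (MulAction.stabilizer Co0 (crossSet (eight none))), MulAction.index_stabilizer,
    ncard_crosses, ← SetLike.coe_sort_coe, stab_crossSet]
  show Nat.card {g : Co0 // ∀ v : leechLattice, (v : GolayPt → ℤ) ∈ stdCross →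
      ((g • v : leechLattice) : GolayPt → ℤ) ∈ stdCross} * 8292375 = _
  rw [card_cross_stab]

/-- An invariant subgroup above twice the lattice is twice the lattice or everything. -/
theorem irreducible_mod_two (M : AddSubgroup (GolayPt → ℤ)) (h2 : ∀ v ∈ leechLattice, (2 : ℤ) • v ∈ M)
    (hle : M ≤ leechLattice)
    (hinv : ∀ g : Co0, ∀ v : leechLattice, (v : GolayPt → ℤ) ∈ M → ((g • v : leechLattice) : GolayPt → ℤ) ∈ M) :
    (∀ x ∈ M, ∃ w ∈ leechLattice, x = (2 : ℤ) • w) ∨ M = leechLattice := by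
  by_contra hcon
  rw [not_or] at hcon
  obtain ⟨hex, hne⟩ := hcon
  apply hne
  push Not at hex
  obtain ⟨x, hxM, hx2⟩ := hex
  obtain ⟨y, hy, hxy⟩ := class_data.1 ⟨x, hle hxM⟩
  obtain ⟨z, hz, e⟩ := cls_eq_iff.1 hxy
  have hyM : (y : GolayPt → ℤ) ∈ M := by
    have e' : x - (y : GolayPt → ℤ) = (2 : ℤ) • z := by rw [e, two_zsmul, two_nsmul]
    have hh : (y : GolayPt → ℤ) = x - (2 : ℤ) • z := by rw [← e']; abel
    rw [hh]; exact sub_mem hxM (h2 z hz)
  have hmin : ∀ a : leechLattice, sqNorm (a : GolayPt → ℤ) = 32 → (a : GolayPt → ℤ) ∈ M →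
      leechLattice ≤ M := by
    intro a ha haM
    have hall : ∀ b : leechLattice, sqNorm (b : GolayPt → ℤ) = 32 → (b : GolayPt → ℤ) ∈ M := fun b hb => by
      obtain ⟨g, rfl⟩ := trans32 ha hb
      exact hinv g a haM
    rw [← closure_genSet]
    refine (AddSubgroup.closure_le _).2 ?_
    have h1 : sqNorm uVec = 32 := by decide +kernel
    have h2' : ∀ n ∈ octBasis, sqNorm (twoVec n) = 32 := by decide +kernel
    rintro v ((rfl | ⟨n, hn, rfl⟩) | ⟨p, rfl⟩)
    · exact hall ⟨_, mem_of_check check_uVec⟩ h1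
    · exact hall ⟨_, mem_of_check (check_twoVec n hn)⟩ (h2' n hn)
    · have hne' : ∀ p : GolayPt, fourVec p = ((plusVec p (some 0) : leechLattice) : GolayPt → ℤ) +
          ((minusVec none (some 0) : leechLattice) : GolayPt → ℤ) := fun p => by
        funext i; simp only [fourVec, plusVec, minusVec, Pi.add_apply]; ring
      by_cases hp : p = some 0
      · subst hp
        exact hall ⟨_, mem_of_check (check_fourVec _)⟩ (by decide +kernel)
      · rw [hne' p]
        exact add_mem (hall _ (plusVec_norm _ _ hp)) (hall _ (minusVec_norm _ _ (by simp)))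
  refine le_antisymm hle ?_
  have hn := norm_dvd y.2
  have h0 := sqNorm_nonneg (y : GolayPt → ℤ)
  by_cases hy0 : (y : GolayPt → ℤ) = 0
  · exact absurd (show x = (2 : ℤ) • z by
      rw [hy0, sub_zero] at e
      simpa [two_zsmul, two_nsmul] using e) (hx2 z hz)
  have h32 := min_norm y.2 hy0
  rcases (show sqNorm (y : GolayPt → ℤ) = 32 ∨ sqNorm (y : GolayPt → ℤ) = 48 ∨ sqNorm (y : GolayPt → ℤ) = 64 by
    omega) with h | h | h
  · exact hmin y h hyM
  · have c : CheckVec (ofList ([5] ++ List.replicate 23 1)) ∧ sqNorm (ofList ([5] ++ List.replicate 23 1)) = 48 ∧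
        CheckVec (ofList ([1, 5] ++ List.replicate 22 1)) ∧ sqNorm (ofList ([1, 5] ++ List.replicate 22 1)) = 48 ∧
        sqNorm (ofList ([5] ++ List.replicate 23 1) - ofList ([1, 5] ++ List.replicate 22 1)) = 32 := by
      decide +kernel
    obtain ⟨c1, c2, c3, c4, c5⟩ := c
    let u1 : leechLattice := ⟨_, mem_of_check c1⟩
    let u2 : leechLattice := ⟨_, mem_of_check c3⟩
    obtain ⟨g1, e1⟩ := trans48 h (w := u1) c2
    obtain ⟨g2, e2⟩ := trans48 h (w := u2) c4
    have m1 := hinv g1 y hyM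
    have m2 := hinv g2 y hyM
    rw [e1] at m1
    rw [e2] at m2
    exact hmin (u1 - u2) c5 (sub_mem m1 m2)
  · have c : CheckVec (ofList [4, 4, 4, 4]) ∧ sqNorm (ofList [4, 4, 4, 4]) = 64 ∧
        CheckVec (ofList [4, 4, 4, 0, 4]) ∧ sqNorm (ofList [4, 4, 4, 0, 4]) = 64 ∧
        sqNorm (ofList [4, 4, 4, 4] - ofList [4, 4, 4, 0, 4]) = 32 := by
      decide +kernel
    obtain ⟨c1, c2, c3, c4, c5⟩ := c
    let u1 : leechLattice := ⟨_, mem_of_check c1⟩
    let u2 : leechLattice := ⟨_, mem_of_check c3⟩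
    obtain ⟨g1, e1⟩ := trans_cross h (w := u1) c2
    obtain ⟨g2, e2⟩ := trans_cross h (w := u2) c4
    have m1 := hinv g1 y hyM
    have m2 := hinv g2 y hyM
    rw [e1] at m1
    rw [e2] at m2
    exact hmin (u1 - u2) c5 (sub_mem m1 m2)

theorem dot_dvd (y z : leechLattice) : (8 : ℤ) ∣ dotInt (y : GolayPt → ℤ) z := by
  have h1 := norm_dvd (y + z).2
  have h2 := norm_dvd y.2
  have h3 := norm_dvd z.2
  rw [norm_sum] at h1
  omega

theorem norm_mod_two (v y : leechLattice) (h : cls v = cls y) :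
    ((sqNorm (v : GolayPt → ℤ) / 16 : ℤ) : ZMod 2) = ((sqNorm (y : GolayPt → ℤ) / 16 : ℤ) : ZMod 2) := by
  obtain ⟨z, hz, e⟩ := cls_eq_iff.1 h
  let z' : leechLattice := ⟨z, hz⟩
  have e' : v = y + (z' + z') := Subtype.ext (by
    rw [AddSubgroup.coe_add, AddSubgroup.coe_add, ← two_nsmul]
    show (v : GolayPt → ℤ) = (y : GolayPt → ℤ) + 2 • z
    rw [← e]; abel)
  have hd : dotInt (y : GolayPt → ℤ) (z' + z' : leechLattice) = 2 * dotInt (y : GolayPt → ℤ) (z' : leechLattice) := by
    unfold dotInt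
    rw [Finset.mul_sum]
    exact Finset.sum_congr rfl fun i _ => by simp only [AddSubgroup.coe_add, Pi.add_apply]; ring
  have hn : sqNorm ((z' + z' : leechLattice) : GolayPt → ℤ) = 4 * sqNorm (z' : GolayPt → ℤ) := by
    unfold sqNorm
    rw [Finset.mul_sum]
    exact Finset.sum_congr rfl fun i _ => by simp only [AddSubgroup.coe_add, Pi.add_apply]; ring
  have h1 : sqNorm (v : GolayPt → ℤ) = sqNorm (y : GolayPt → ℤ) + 4 * dotInt (y : GolayPt → ℤ) (z' : leechLattice) +
      4 * sqNorm (z' : GolayPt → ℤ) := by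
    rw [e', norm_sum, hd, hn]; ring
  have := dot_dvd y z'
  have := norm_dvd z'.2
  have := norm_dvd y.2
  rw [ZMod.intCast_eq_intCast_iff']
  omega

end Cfsg.Lib.Leech
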