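import Mathlib
import Cfsg.Prelude.Def_Sporadic_a
import Cfsg.Agent.Lib.Leech.CountBase
import Cfsg.Agent.Lib.Leech.Counts

/-!
Numbers of short vectors with prescribed sum of the two special coordinates.
-/

set_option autoImplicit false
set_option linter.unusedSimpArgs false

namespace Cfsg.Lib.Leech

open Cfsg Cfsg.Lib.Golay

/-- Code words by weight and by membership of the two special points. -/
def pairTable : List ((ℕ × Bool × Bool) × ℕ) := [((0, false, false), 1), ((8, false, false), 330), ((8, false, true), 176), ((8, true, false), 176), ((8, true, true), 77), ((12, false, false), 616), ((12, false, true), 672), ((12, true, false), 672), ((12, true, true), 616), ((16, false, false), 77), ((16, false, true), 176), ((16, true, false), 176), ((16, true, true), 330), ((24, true, true), 1)]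

/-- The signature of a mask. -/
def pairSig (n : ℕ) : ℕ × Bool × Bool := (pop n, n.testBit 23, n.testBit 0)

set_option maxRecDepth 100000 in
theorem pairTable_check :
    (pairTable.all fun q => ((spanL codeGens).countP fun n => pairSig n == q.1) == q.2) = true ∧
      ((spanL codeGens).all fun n => (pairTable.map Prod.fst).contains (pairSig n)) = true ∧
      (pairTable.map Prod.fst).Nodup := by decide +kernel

theorem sum_by_sig (g : ℕ × Bool × Bool → ℕ) :
    ((spanL codeGens).map fun n => g (pairSig n)).sum = (pairTable.map fun q => q.2 * g q.1).sum := by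
  obtain ⟨hcnt, hall, hnd⟩ := pairTable_check
  have h : ∀ L : List ℕ, (∀ n ∈ L, pairSig n ∈ pairTable.map Prod.fst) →
      (L.map fun n => g (pairSig n)).sum =
        (pairTable.map fun q => (L.countP fun n => pairSig n == q.1) * g q.1).sum := by
    intro L hL
    induction L with
    | nil => simp
    | cons a l ih =>
      rw [List.map_cons, List.sum_cons, ih fun n hn => hL n (List.mem_cons_of_mem _ hn)]
      have hone : (pairTable.map fun q => if pairSig a == q.1 then g q.1 else 0).sum = g (pairSig a) := by
        have ha := hL a List.mem_cons_self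
        have e : (pairTable.map fun q => if pairSig a == q.1 then g q.1 else 0) =
            (pairTable.map Prod.fst).map fun k => if k = pairSig a then g k else 0 := by
          rw [List.map_map]
          refine List.map_congr_left fun q _ => ?_
          simp only [Function.comp]
          by_cases h : q.1 = pairSig a
          · simp [h]
          · simp [h, Ne.symm h]
        rw [e, ← List.sum_toFinset _ hnd, Finset.sum_ite_eq' , if_pos (List.mem_toFinset.2 ha)]
      rw [← hone, ← List.sum_map_add]
      refine congrArg List.sum (List.map_congr_left fun q _ => ?_)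
      rw [List.countP_cons]
      split <;> ring
  rw [h _ fun n hn => by simpa [List.contains_iff_mem] using List.all_eq_true.1 hall n hn]
  refine congrArg List.sum (List.map_congr_left fun q hq => ?_)
  have := List.all_eq_true.1 hcnt q hq
  rw [beq_iff_eq] at this
  rw [this]

/-- The count for one signature. -/
def pairVal (Pa Pb P : ℤ → Bool) (N : ℕ) (m : Bool) (σ : ℕ × Bool × Bool) : ℕ :=
  let j := σ.1 - (if σ.2.1 then 1 else 0) - (if σ.2.2 then 1 else 0)
  extract m N
    (gPlus Pa (resVal m σ.2.1) * gPlus Pb (resVal m σ.2.2) *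
      (gPlus P (resVal m true) ^ j * gPlus P (resVal m false) ^ (22 - j)))
    (gMinus Pa (resVal m σ.2.1) * gMinus Pb (resVal m σ.2.2) *
      (gMinus P (resVal m true) ^ j * gMinus P (resVal m false) ^ (22 - j)))

/-- Allowed values varying at the two special points. -/
def pairP (Pa Pb P : ℤ → Bool) (i : GolayPt) : ℤ → Bool := if i = none then Pa else if i = some 0 then Pb else P

theorem prod_pair {M : Type*} [CommMonoid M] (G : (ℤ → Bool) → Bool → M) (Pa Pb P : ℤ → Bool)
    (S : Finset GolayPt) :
    ∏ i, G (pairP Pa Pb P i) (decide (i ∈ S)) =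
      let j := S.card - (if decide (none ∈ S) then 1 else 0) - (if decide (some 0 ∈ S) then 1 else 0)
      G Pa (decide (none ∈ S)) * G Pb (decide (some 0 ∈ S)) * (G P true ^ j * G P false ^ (22 - j)) := by
  dsimp only
  generalize hjdef : (S.card - (if decide ((none : GolayPt) ∈ S) then 1 else 0) -
    (if decide (some (0 : ZMod 23) ∈ S) then 1 else 0)) = j
  set R : Finset GolayPt := (Finset.univ.erase none).erase (some 0) with hR
  have h0 : some (0 : ZMod 23) ∈ (Finset.univ : Finset GolayPt).erase none := by simp
  rw [← Finset.mul_prod_erase Finset.univ _ (Finset.mem_univ (none : GolayPt)),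
    ← Finset.mul_prod_erase _ _ h0, ← hR]
  have e1 : pairP Pa Pb P none = Pa := if_pos rfl
  have e2 : pairP Pa Pb P (some 0) = Pb := by rw [pairP, if_neg (by simp), if_pos rfl]
  have e3 : ∀ i ∈ R, pairP Pa Pb P i = P := fun i hi => by
    simp only [hR, Finset.mem_erase] at hi
    rw [pairP, if_neg hi.2.1, if_neg hi.1]
  rw [e1, e2, Finset.prod_congr rfl fun i hi => by rw [e3 i hi], ← mul_assoc]
  congr 1
  rw [← Finset.prod_filter_mul_prod_filter_not R (fun i => i ∈ S)]
  have hc : R.card = 22 := by
    rw [hR, Finset.card_erase_of_mem h0, Finset.card_erase_of_mem (Finset.mem_univ _), Finset.card_univ,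
      card_golayPt]
  have hj : (R.filter fun i => i ∈ S).card = j := by
    have e : (R.filter fun i => i ∈ S) = (S.erase none).erase (some 0) := by
      ext i; simp [hR]; tauto
    rw [e]
    simp only [← hjdef, decide_eq_true_eq]
    rw [Finset.card_erase_eq_ite, Finset.card_erase_eq_ite]
    simp only [Finset.mem_erase, ne_eq, reduceCtorEq, not_false_eq_true, true_and]
    split <;> split <;> rfl
  have hn : (R.filter fun i => ¬ i ∈ S).card = 22 - j := by
    have := Finset.card_filter_add_card_filter_not (s := R) (fun i => i ∈ S)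
    omega
  rw [Finset.prod_congr rfl fun i hi => by rw [decide_eq_true (Finset.mem_filter.1 hi).2],
    Finset.prod_congr rfl (s₁ := R.filter fun i => ¬ i ∈ S) fun i hi => by
      rw [decide_eq_false (Finset.mem_filter.1 hi).2],
    Finset.prod_const, Finset.prod_const, hj, hn]

/-- Total over the signatures. -/
def pairTotal (Pa Pb P : ℤ → Bool) (N : ℕ) : ℕ :=
  (pairTable.map fun q => q.2 * (pairVal Pa Pb P N false q.1 + pairVal Pa Pb P N true q.1)).sum

theorem ncard_pair (Pa Pb P : ℤ → Bool) (N : ℕ) (hN : N ≤ 64) :
    {x : GolayPt → ℤ | x ∈ leechLattice ∧ sqNorm x = N ∧ ∀ i, pairP Pa Pb P i (x i) = true}.ncard =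
      pairTotal Pa Pb P N := by
  rw [ncard_norm_set (pairP Pa Pb P) N hN]
  have hcls : ∀ (m : Bool) (n : ℕ),
      (classSet (pairP Pa Pb P) N m (toSet n)).card = pairVal Pa Pb P N m (pairSig n) := fun m n => by
    rw [classSet_card, prod_pair (fun Q b => gPlus Q (resVal m b)) Pa Pb P,
      prod_pair (fun Q b => gMinus Q (resVal m b)) Pa Pb P]
    have h23 : decide ((none : GolayPt) ∈ toSet n) = n.testBit 23 := by
      rw [Bool.eq_iff_iff, decide_eq_true_eq, mem_toSet]; rfl
    have h00 : decide (some (0 : ZMod 23) ∈ toSet n) = n.testBit 0 := by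
      rw [Bool.eq_iff_iff, decide_eq_true_eq, mem_toSet]; rfl
    simp only [h23, h00, card_toSet]
    rfl
  rw [Finset.sum_product, Fintype.sum_bool, sum_codeFinset, sum_codeFinset]
  simp only [hcls]
  rw [add_comm, ← List.sum_map_add]
  exact sum_by_sig fun σ => pairVal Pa Pb P N false σ + pairVal Pa Pb P N true σ

/-- The total for a given sum of the two special coordinates. -/
def sumTotal (N : ℕ) (s : ℤ) : ℕ :=
  ((List.range 17).map fun k : ℕ =>
    pairTotal (fun v => v == (k : ℤ) - 8) (fun v => v == s - ((k : ℤ) - 8)) (fun _ => true) N).sum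

theorem ncard_sum (N : ℕ) (hN : N ≤ 64) (s : ℤ) :
    {x : GolayPt → ℤ | x ∈ leechLattice ∧ sqNorm x = N ∧ x none + x (some 0) = s}.ncard = sumTotal N s := by
  classical
  let F : ℕ → Finset (GolayPt → ℤ) := fun k =>
    ((finite_norm N hN).subset (s := {x | x ∈ leechLattice ∧ sqNorm x = N})
      (t := {x | x ∈ leechLattice ∧ sqNorm x = N ∧ ∀ i, pairP (fun v => v == (k : ℤ) - 8)
        (fun v => v == s - ((k : ℤ) - 8)) (fun _ => true) i (x i) = true}) fun x hx => ⟨hx.1, hx.2.1⟩).toFinset
  have hF : ∀ k x, x ∈ F k ↔ x ∈ leechLattice ∧ sqNorm x = N ∧ x none = (k : ℤ) - 8 ∧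
      x (some 0) = s - ((k : ℤ) - 8) := by
    intro k x
    simp only [F, Set.Finite.mem_toFinset, Set.mem_ofPred_eq]
    refine and_congr_right fun _ => and_congr_right fun _ => ⟨fun h => ?_, fun h i => ?_⟩
    · have h1 := h none; have h2 := h (some 0)
      simp [pairP] at h1 h2
      exact ⟨h1, h2⟩
    · by_cases hi : i = none
      · subst hi; simp [pairP, h.1]
      · by_cases hi' : i = some 0
        · subst hi'; simp [pairP, h.2]
        · simp [pairP, hi, hi']
  have hset : {x : GolayPt → ℤ | x ∈ leechLattice ∧ sqNorm x = N ∧ x none + x (some 0) = s} =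
      ↑((Finset.range 17).biUnion F) := by
    ext x
    simp only [Set.mem_ofPred_eq, Finset.coe_biUnion, Set.mem_iUnion, Finset.mem_coe, Finset.mem_range,
      exists_prop, hF]
    constructor
    · rintro ⟨h1, h2, h3⟩
      have h5 : x none ^ 2 ≤ sqNorm x :=
        Finset.single_le_sum (f := fun i => x i ^ 2) (fun i _ => sq_nonneg (x i)) (Finset.mem_univ none)
      rw [h2] at h5
      have h6 := abs_le.1 (abs_le_of_sq_le_sq (le_trans h5 (by exact_mod_cast hN) : x none ^ 2 ≤ (8 : ℤ) ^ 2)
        (by norm_num))
      exact ⟨(x none + 8).toNat, by omega, h1, h2, by omega, by omega⟩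
    · rintro ⟨k, -, h1, h2, h3, h4⟩
      exact ⟨h1, h2, by omega⟩
  rw [hset, Set.ncard_coe_finset, Finset.card_biUnion, sumTotal, ← List.sum_toFinset _ List.nodup_range,
    List.toFinset_range]
  · refine Finset.sum_congr rfl fun k _ => ?_
    rw [← ncard_pair _ _ _ _ hN]
    exact (Set.ncard_eq_toFinset_card _ _).symm
  · intro a _ b _ hab
    rw [Function.onFun, Finset.disjoint_left]
    intro x h1 h2
    have := ((hF a x).1 h1).2.2.1
    have := ((hF b x).1 h2).2.2.1
    omega

set_option maxRecDepth 100000 in
theorem sumTotal32 : sumTotal 32 (-4) = 4600 ∧ sumTotal 32 (-2) = 47104 ∧ sumTotal 32 0 = 93150 := by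
  decide +kernel

set_option maxRecDepth 100000 in
theorem sumTotal48 : sumTotal 48 (-4) = 953856 := by decide +kernel

end Cfsg.Lib.Leech
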